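import Cfsg.Agent.Lib.TwoSix.Model
import Cfsg.Agent.S5998

/-!
# The positive direction: moving elements into the normalizer
-/

set_option autoImplicit false

open scoped MatrixGroups Matrix Polynomial
open Cfsg Module

namespace Cfsg.Agent.Lib.TwoSix

variable {F : Type*} [Field F]

theorem exists_scalar_GL {w : F} (hw : w ≠ 0) : ∃ s : GL (Fin 4) F, (s : Matrix (Fin 4) (Fin 4) F) = w • 1 := by
  refine ⟨⟨w • 1, w⁻¹ • 1, ?_, ?_⟩, rfl⟩
  · rw [Matrix.smul_mul, Matrix.mul_smul, smul_smul, Matrix.one_mul, mul_inv_cancel₀ hw, one_smul]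
  · rw [Matrix.smul_mul, Matrix.mul_smul, smul_smul, Matrix.one_mul, inv_mul_cancel₀ hw, one_smul]

theorem exists_GL_of_cube {M : Matrix (Fin 4) (Fin 4) F} (h : M * M * M = 1) : ∃ T : GL (Fin 4) F, (T : Matrix (Fin 4) (Fin 4) F) = M :=
  ⟨⟨M, M * M, by rw [← Matrix.mul_assoc]; exact h, h⟩, rfl⟩

theorem exists_GL_of_five {M : Matrix (Fin 4) (Fin 4) F} (h : M * M * M * M * M = 1) : ∃ T : GL (Fin 4) F, (T : Matrix (Fin 4) (Fin 4) F) = M :=
  ⟨⟨M, M * M * M * M, by simpa only [Matrix.mul_assoc] using h, h⟩, rfl⟩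

theorem trace_eq_of_conj {X Y : Matrix (Fin 4) (Fin 4) F} (G : GL (Fin 4) F)
    (h : X * (G : Matrix (Fin 4) (Fin 4) F) = (G : Matrix (Fin 4) (Fin 4) F) * Y) : Matrix.trace X = Matrix.trace Y := by
  have hGG : (G : Matrix (Fin 4) (Fin 4) F) * ((G⁻¹ : GL (Fin 4) F) : Matrix (Fin 4) (Fin 4) F) = 1 := by
    rw [← Units.val_mul, mul_inv_cancel, Units.val_one]
  have hGG' : ((G⁻¹ : GL (Fin 4) F) : Matrix (Fin 4) (Fin 4) F) * (G : Matrix (Fin 4) (Fin 4) F) = 1 := by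
    rw [← Units.val_mul, inv_mul_cancel, Units.val_one]
  have e : X = (G : Matrix (Fin 4) (Fin 4) F) * Y * ((G⁻¹ : GL (Fin 4) F) : Matrix (Fin 4) (Fin 4) F) := by
    rw [← h, Matrix.mul_assoc, hGG, Matrix.mul_one]
  rw [e, Matrix.trace_mul_comm, ← Matrix.mul_assoc, hGG', Matrix.one_mul]

/-- The element of order three modulo scalars with eigenvalue pattern `(ω, ω, ω², ω²)`. -/
noncomputable def Ta (i : F) : Matrix (Fin 4) (Fin 4) F := (-(2⁻¹ * (1 + i))) • Ma i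
/-- The element of order three modulo scalars with eigenvalue pattern `(1, 1, ω, ω²)`. -/
noncomputable def Tb (i : F) : Matrix (Fin 4) (Fin 4) F := (i * 2⁻¹) • Mb i
/-- The element of order five modulo scalars. -/
noncomputable def T5 (i : F) : Matrix (Fin 4) (Fin 4) F := (-(i * 2⁻¹)) • M5 i

section Types

variable {i : F} (hi : i * i = -1) (h2 : (2 : F) ≠ 0)

include hi h2

theorem Ta_cube : Ta i * Ta i * Ta i = 1 := by
  unfold Ta
  simp only [Matrix.smul_mul, Matrix.mul_smul, smul_smul]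
  rw [Ma_cube hi, smul_smul]
  have e : ∀ c : F, c = 1 → c • (1 : Matrix (Fin 4) (Fin 4) F) = 1 := by
    rintro c rfl
    exact one_smul _ _
  apply e
  have ha : (2 : F) * 2⁻¹ = 1 := mul_inv_cancel₀ h2
  generalize (2 : F)⁻¹ = a at ha ⊢
  linear_combination (-2 * a ^ 3 * (i * i + 4 * i + 5)) * hi + (4 * a * a + 2 * a + 1) * ha

theorem Tb_cube : Tb i * Tb i * Tb i = 1 := by
  unfold Tb
  simp only [Matrix.smul_mul, Matrix.mul_smul, smul_smul]
  rw [Mb_cube hi, smul_smul]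
  have e : ∀ c : F, c = 1 → c • (1 : Matrix (Fin 4) (Fin 4) F) = 1 := by
    rintro c rfl
    exact one_smul _ _
  apply e
  have ha : (2 : F) * 2⁻¹ = 1 := mul_inv_cancel₀ h2
  generalize (2 : F)⁻¹ = a at ha ⊢
  calc _ = (2 * a) * (2 * a) * (2 * a) * ((i * i) * (i * i)) := by ring
    _ = 1 := by rw [ha, hi]; ring

theorem T5_five : T5 i * T5 i * T5 i * T5 i * T5 i = 1 := by
  unfold T5
  simp only [Matrix.smul_mul, Matrix.mul_smul, smul_smul]
  rw [M5_five hi, smul_smul]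
  have e : ∀ c : F, c = 1 → c • (1 : Matrix (Fin 4) (Fin 4) F) = 1 := by
    rintro c rfl
    exact one_smul _ _
  apply e
  have ha : (2 : F) * 2⁻¹ = 1 := mul_inv_cancel₀ h2
  generalize (2 : F)⁻¹ = a at ha ⊢
  calc _ = -((2 * a) * (2 * a) * (2 * a) * (2 * a) * (2 * a) * ((i * i) * (i * i) * (i * i))) := by ring
    _ = 1 := by rw [ha, hi]; ring

theorem Ta_trace : Matrix.trace (Ta i) = -2 := by
  unfold Ta
  rw [Matrix.trace_smul]
  have ha : (2 : F) * 2⁻¹ = 1 := mul_inv_cancel₀ h2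
  simp only [Matrix.trace, Fin.sum_univ_four, Matrix.diag, Ma, smul_eq_mul]
  simp
  generalize (2 : F)⁻¹ = a at ha ⊢
  linear_combination 2 * ha - 2 * a * hi

theorem Tb_trace : Matrix.trace (Tb i) = 1 := by
  unfold Tb
  rw [Matrix.trace_smul]
  have ha : (2 : F) * 2⁻¹ = 1 := mul_inv_cancel₀ h2
  simp only [Matrix.trace, Fin.sum_univ_four, Matrix.diag, Mb, smul_eq_mul]
  simp
  generalize (2 : F)⁻¹ = a at ha ⊢
  linear_combination ha - 2 * a * hi

theorem T5_trace : Matrix.trace (T5 i) = -1 := by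
  unfold T5
  rw [Matrix.trace_smul]
  have ha : (2 : F) * 2⁻¹ = 1 := mul_inv_cancel₀ h2
  simp only [Matrix.trace, Fin.sum_univ_four, Matrix.diag, M5, smul_eq_mul]
  simp
  generalize (2 : F)⁻¹ = a at ha ⊢
  linear_combination ha - 2 * a * hi

theorem Ta_type (h3 : (3 : F) ≠ 0) (hq : ∀ c : F, c * c + 1 * c + 1 ≠ 0) :
    ∃ G : GL (Fin 4) F, Ta i * (G : Matrix (Fin 4) (Fin 4) F) = (G : Matrix (Fin 4) (Fin 4) F) * blockM (1 : F) 1 := by
  rcases cube_type (Ta i) h3 hq (Ta_cube hi h2) with h | ⟨G, h⟩ | ⟨G, h⟩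
  · exfalso
    have h1 := Ta_trace hi h2
    rw [h] at h1
    simp only [Matrix.trace_one, Fintype.card_fin] at h1
    apply mul_ne_zero h2 h3
    push_cast at h1
    linear_combination h1
  · exfalso
    have h1 := Ta_trace hi h2
    rw [trace_eq_of_conj G h] at h1
    apply h3
    simp only [Matrix.trace, Fin.sum_univ_four, Matrix.diag, blockE] at h1
    simp at h1
    linear_combination h1
  · exact ⟨G, h⟩

theorem Tb_type (h3 : (3 : F) ≠ 0) (hq : ∀ c : F, c * c + 1 * c + 1 ≠ 0) :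
    ∃ G : GL (Fin 4) F, Tb i * (G : Matrix (Fin 4) (Fin 4) F) = (G : Matrix (Fin 4) (Fin 4) F) * blockE (1 : F) 1 := by
  rcases cube_type (Tb i) h3 hq (Tb_cube hi h2) with h | ⟨G, h⟩ | ⟨G, h⟩
  · exfalso
    have h1 := Tb_trace hi h2
    rw [h] at h1
    simp only [Matrix.trace_one, Fintype.card_fin] at h1
    apply h3
    push_cast at h1
    linear_combination h1
  · exact ⟨G, h⟩
  · exfalso
    have h1 := Tb_trace hi h2
    rw [trace_eq_of_conj G h] at h1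
    apply h3
    simp only [Matrix.trace, Fin.sum_univ_four, Matrix.diag, blockM] at h1
    simp at h1
    linear_combination -h1

theorem T5_type (h5 : (5 : F) ≠ 0)
    (hirr : Irreducible (Polynomial.X ^ 4 + Polynomial.X ^ 3 + Polynomial.X ^ 2 + Polynomial.X + 1 : F[X])) :
    ∃ G : GL (Fin 4) F, T5 i * (G : Matrix (Fin 4) (Fin 4) F) = (G : Matrix (Fin 4) (Fin 4) F) * compFive F := by
  apply five_type (T5 i) hirr (T5_five hi h2)
  intro h
  have h1 := T5_trace hi h2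
  rw [h] at h1
  simp only [Matrix.trace_one, Fintype.card_fin] at h1
  apply h5
  push_cast at h1
  linear_combination h1

end Types

theorem conj_of_common {X Y Z : Matrix (Fin 4) (Fin 4) F} {G G₁ : GL (Fin 4) F}
    (h : X * (G : Matrix (Fin 4) (Fin 4) F) = (G : Matrix (Fin 4) (Fin 4) F) * Z)
    (h₁ : Y * (G₁ : Matrix (Fin 4) (Fin 4) F) = (G₁ : Matrix (Fin 4) (Fin 4) F) * Z) :
    X * ((G * G₁⁻¹ : GL (Fin 4) F) : Matrix (Fin 4) (Fin 4) F) = ((G * G₁⁻¹ : GL (Fin 4) F) : Matrix (Fin 4) (Fin 4) F) * Y := by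
  have hGG : (G₁ : Matrix (Fin 4) (Fin 4) F) * ((G₁⁻¹ : GL (Fin 4) F) : Matrix (Fin 4) (Fin 4) F) = 1 := by
    rw [← Units.val_mul, mul_inv_cancel, Units.val_one]
  have hGG' : ((G₁⁻¹ : GL (Fin 4) F) : Matrix (Fin 4) (Fin 4) F) * (G₁ : Matrix (Fin 4) (Fin 4) F) = 1 := by
    rw [← Units.val_mul, inv_mul_cancel, Units.val_one]
  have h2 : ((G₁⁻¹ : GL (Fin 4) F) : Matrix (Fin 4) (Fin 4) F) * Y = Z * ((G₁⁻¹ : GL (Fin 4) F) : Matrix (Fin 4) (Fin 4) F) := by
    calc ((G₁⁻¹ : GL (Fin 4) F) : Matrix (Fin 4) (Fin 4) F) * Y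
        = ((G₁⁻¹ : GL (Fin 4) F) : Matrix (Fin 4) (Fin 4) F) * (Y * ((G₁ : Matrix (Fin 4) (Fin 4) F) * ((G₁⁻¹ : GL (Fin 4) F) : Matrix (Fin 4) (Fin 4) F))) := by
          rw [hGG, Matrix.mul_one]
      _ = ((G₁⁻¹ : GL (Fin 4) F) : Matrix (Fin 4) (Fin 4) F) * (Y * (G₁ : Matrix (Fin 4) (Fin 4) F)) * ((G₁⁻¹ : GL (Fin 4) F) : Matrix (Fin 4) (Fin 4) F) := by
          simp only [Matrix.mul_assoc]
      _ = _ := by
          rw [h₁, ← Matrix.mul_assoc, hGG', Matrix.one_mul]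
  rw [Units.val_mul, Matrix.mul_assoc, h2, ← Matrix.mul_assoc, ← Matrix.mul_assoc, h]

theorem exists_root_of_coprime [Fintype F] {n : ℕ} (hn : (Fintype.card F - 1).Coprime n) {s : F} (hs : s ≠ 0) :
    ∃ w : F, w ≠ 0 ∧ w ^ n = s := by
  classical
  have hc : (Nat.card Fˣ).Coprime n := by
    rw [Nat.card_eq_fintype_card, Fintype.card_units]
    exact hn
  obtain ⟨w, hw⟩ := (powCoprime hc).surjective (Units.mk0 s hs)
  refine ⟨w, w.ne_zero, ?_⟩
  have := congrArg Units.val hw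
  simpa [powCoprime] using this

namespace Pauli

variable {R : Subgroup (GL (Fin 4) F)} {i : F} {ι u v g h P : GL (Fin 4) F}

theorem conj_model [Fintype F] {p : ℕ} [Fact p.Prime] [CharP F p] (hF : Pauli R i ι u v g h P) (T₀ x G : GL (Fin 4) F)
    {w : F} (hw : w ≠ 0) (hT₀ : P * T₀ * P⁻¹ ∈ Cfsg.Geo.subgroupNormalizer R)
    (hG : (w⁻¹ • (x : Matrix (Fin 4) (Fin 4) F)) * (G : Matrix (Fin 4) (Fin 4) F) = (G : Matrix (Fin 4) (Fin 4) F) * (T₀ : Matrix (Fin 4) (Fin 4) F))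
    {m : ℕ} (hm : x ^ m = 1) (hmp : m.Coprime p) :
    ∃ g : GL (Fin 4) F, (g : Matrix (Fin 4) (Fin 4) F).det = 1 ∧ g⁻¹ * x * g ∈ Cfsg.Geo.subgroupNormalizer R := by
  obtain ⟨s, hs⟩ := exists_scalar_GL hw
  have hmem : s * (P * T₀ * P⁻¹) ∈ Cfsg.Geo.subgroupNormalizer R :=
    Subgroup.mul_mem _ (hF.scalar_norm s hs) hT₀
  have hord : (orderOf x).Coprime p := Nat.Coprime.coprime_dvd_left (orderOf_dvd_of_pow_eq_one hm) hmp
  have hPP : ((P⁻¹ : GL (Fin 4) F) : Matrix (Fin 4) (Fin 4) F) * (P : Matrix (Fin 4) (Fin 4) F) = 1 := by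
    rw [← Units.val_mul, inv_mul_cancel, Units.val_one]
  have hG' : (G * P⁻¹) * (s * (P * T₀ * P⁻¹)) = x * (G * P⁻¹) := by
    apply Units.ext
    simp only [Units.val_mul]
    rw [hs]
    calc (G : Matrix (Fin 4) (Fin 4) F) * ((P⁻¹ : GL (Fin 4) F) : Matrix (Fin 4) (Fin 4) F) * (w • 1 * ((P : Matrix (Fin 4) (Fin 4) F) * (T₀ : Matrix (Fin 4) (Fin 4) F) * ((P⁻¹ : GL (Fin 4) F) : Matrix (Fin 4) (Fin 4) F)))
        = w • ((G : Matrix (Fin 4) (Fin 4) F) * (((P⁻¹ : GL (Fin 4) F) : Matrix (Fin 4) (Fin 4) F) * (P : Matrix (Fin 4) (Fin 4) F)) * (T₀ : Matrix (Fin 4) (Fin 4) F) * ((P⁻¹ : GL (Fin 4) F) : Matrix (Fin 4) (Fin 4) F)) := by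
          simp only [Matrix.smul_mul, Matrix.mul_smul, Matrix.one_mul, Matrix.mul_assoc]
      _ = w • ((G : Matrix (Fin 4) (Fin 4) F) * (T₀ : Matrix (Fin 4) (Fin 4) F) * ((P⁻¹ : GL (Fin 4) F) : Matrix (Fin 4) (Fin 4) F)) := by
          rw [hPP, Matrix.mul_one]
      _ = w • ((w⁻¹ • (x : Matrix (Fin 4) (Fin 4) F)) * (G : Matrix (Fin 4) (Fin 4) F) * ((P⁻¹ : GL (Fin 4) F) : Matrix (Fin 4) (Fin 4) F)) := by
          rw [hG]
      _ = _ := by
          simp only [Matrix.smul_mul, smul_smul, mul_inv_cancel₀ hw, one_smul, Matrix.mul_assoc]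
  obtain ⟨g₀, hg1, hg2⟩ := Pauli.conj_det_one hord hG'
  exact ⟨g₀, hg1, by rw [hg2]; exact hmem⟩

theorem pow_mul_eq_one_of_scalar [Fintype F] {p : ℕ} (hcard : Fintype.card F = p) (x : GL (Fin 4) F) {r : ℕ} {s : F}
    (hs : ((x ^ r : GL (Fin 4) F) : Matrix (Fin 4) (Fin 4) F) = s • 1) : x ^ (r * (p - 1)) = 1 := by
  have hs0 : s ≠ 0 := by
    intro h0
    rw [h0, zero_smul] at hs
    exact (x ^ r).ne_zero hs
  apply Units.ext
  rw [pow_mul, Units.val_pow_eq_pow_val, hs, smul_pow, one_pow, ← hcard, FiniteField.pow_card_sub_one_eq_one s hs0, one_smul]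
  rfl

theorem coprime_mul_sub_one {p r : ℕ} (hp : p.Prime) (hr : r.Coprime p) : (r * (p - 1)).Coprime p := by
  apply Nat.Coprime.mul_left hr
  rw [Nat.coprime_comm, hp.coprime_iff_not_dvd]
  have := hp.two_le
  exact Nat.not_dvd_of_pos_of_lt (by omega) (by omega)

theorem conj_three [Fintype F] {p : ℕ} [Fact p.Prime] [CharP F p] (hF : Pauli R i ι u v g h P) (hcard : Fintype.card F = p)
    (h2 : (2 : F) ≠ 0) (hp3 : p % 3 = 2) (x : GL (Fin 4) F) {s : F}
    (hs : ((x ^ 3 : GL (Fin 4) F) : Matrix (Fin 4) (Fin 4) F) = s • 1)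
    (hns : ∀ c : F, (x : Matrix (Fin 4) (Fin 4) F) ≠ c • 1) :
    ∃ g : GL (Fin 4) F, (g : Matrix (Fin 4) (Fin 4) F).det = 1 ∧ g⁻¹ * x * g ∈ Cfsg.Geo.subgroupNormalizer R := by
  have hp : p.Prime := Fact.out
  have hp2 := hp.two_le
  have hi := hF.hi
  have hs0 : s ≠ 0 := by
    intro h0
    rw [h0, zero_smul] at hs
    exact (x ^ 3).ne_zero hs
  have hc3 : (Fintype.card F - 1).Coprime 3 := by
    rw [hcard, Nat.coprime_comm, Nat.prime_three.coprime_iff_not_dvd]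
    omega
  obtain ⟨w, hw0, hw⟩ := exists_root_of_coprime hc3 hs0
  have hm := pow_mul_eq_one_of_scalar hcard x hs
  have hpne : p ≠ 3 := by
    rintro rfl
    omega
  have h3 : (3 : F) ≠ 0 := by
    intro h
    have h1 : ((3 : ℕ) : F) = 0 := by exact_mod_cast h
    rw [CharP.cast_eq_zero_iff F p] at h1
    exact hpne ((Nat.prime_dvd_prime_iff_eq hp Nat.prime_three).mp h1)
  have hmp : (3 * (p - 1)).Coprime p := by
    apply coprime_mul_sub_one hp
    rw [Nat.coprime_comm, hp.coprime_iff_not_dvd]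
    intro h1
    exact hpne ((Nat.prime_dvd_prime_iff_eq hp Nat.prime_three).mp h1)
  have hq : ∀ c : F, c * c + 1 * c + 1 ≠ 0 := by
    intro c hc
    have hc0 : c ≠ 0 := by
      rintro rfl
      simp at hc
    have hc3 : c ^ 3 = 1 := by linear_combination (c - 1) * hc
    obtain ⟨k, hk⟩ : ∃ k, p - 1 = 3 * k + 1 := ⟨(p - 1) / 3, by omega⟩
    have h1 := FiniteField.pow_card_sub_one_eq_one c hc0
    rw [hcard, hk, pow_succ, pow_mul, hc3, one_pow, one_mul] at h1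
    rw [h1] at hc
    apply h3
    linear_combination hc
  set X := (x : Matrix (Fin 4) (Fin 4) F) with hX
  have hX3 : X * X * X = s • 1 := by
    rw [← hs, pow_succ, pow_two]
    rfl
  have hX'3 : (w⁻¹ • X) * (w⁻¹ • X) * (w⁻¹ • X) = 1 := by
    simp only [Matrix.smul_mul, Matrix.mul_smul, smul_smul]
    rw [hX3, smul_smul, ← hw]
    have e : w⁻¹ * (w⁻¹ * w⁻¹) * w ^ 3 = 1 := by
      field_simp
    rw [e, one_smul]
  rcases cube_type (w⁻¹ • X) h3 hq hX'3 with h1 | ⟨G, hG⟩ | ⟨G, hG⟩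
  · exfalso
    apply hns w
    rw [← smul_right_inj (inv_ne_zero hw0), h1, smul_smul, inv_mul_cancel₀ hw0, one_smul]
  · obtain ⟨G₁, hG₁⟩ := Tb_type hi h2 h3 hq
    obtain ⟨T₀, hT₀⟩ := exists_GL_of_cube (Tb_cube hi h2)
    have hN := hF.norm_b T₀ (c := i * 2⁻¹) hT₀
    refine hF.conj_model T₀ x (G * G₁⁻¹) hw0 hN ?_ hm hmp
    rw [hT₀]
    exact conj_of_common hG hG₁
  · obtain ⟨G₁, hG₁⟩ := Ta_type hi h2 h3 hq
    obtain ⟨T₀, hT₀⟩ := exists_GL_of_cube (Ta_cube hi h2)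
    have hN := hF.norm_a T₀ (c := -(2⁻¹ * (1 + i))) hT₀
    refine hF.conj_model T₀ x (G * G₁⁻¹) hw0 hN ?_ hm hmp
    rw [hT₀]
    exact conj_of_common hG hG₁

theorem irr_five [Fintype F] {p : ℕ} [Fact p.Prime] (hcard : Fintype.card F = p) (hn : p.Coprime 5)
    (hord : orderOf (p : ZMod 5) = 4) :
    Irreducible (Polynomial.X ^ 4 + Polynomial.X ^ 3 + Polynomial.X ^ 2 + Polynomial.X + 1 : F[X]) := by
  have e : (Polynomial.X ^ 4 + Polynomial.X ^ 3 + Polynomial.X ^ 2 + Polynomial.X + 1 : F[X]) = Polynomial.cyclotomic 5 F := by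
    haveI : Fact (Nat.Prime 5) := ⟨by norm_num⟩
    rw [Polynomial.cyclotomic_prime]
    simp only [Finset.sum_range_succ, Finset.sum_range_zero, pow_zero, pow_one]
    ring
  rw [e]
  apply Polynomial.irreducible_of_dvd_cyclotomic_of_natDegree (p := p) (f := 1) (by rw [hcard, pow_one]) hn dvd_rfl
  rw [Polynomial.natDegree_cyclotomic, Nat.totient_prime (by norm_num), ← orderOf_units]
  simpa using hord.symm

theorem conj_five [Fintype F] {p : ℕ} [Fact p.Prime] [CharP F p] (hF : Pauli R i ι u v g h P) (hcard : Fintype.card F = p)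
    (h2 : (2 : F) ≠ 0) (hord : orderOf (p : ZMod 5) = 4) (x : GL (Fin 4) F) {s : F}
    (hs : ((x ^ 5 : GL (Fin 4) F) : Matrix (Fin 4) (Fin 4) F) = s • 1)
    (hns : ∀ c : F, (x : Matrix (Fin 4) (Fin 4) F) ≠ c • 1) :
    ∃ g : GL (Fin 4) F, (g : Matrix (Fin 4) (Fin 4) F).det = 1 ∧ g⁻¹ * x * g ∈ Cfsg.Geo.subgroupNormalizer R := by
  have hp : p.Prime := Fact.out
  have hp2 := hp.two_le
  have hi := hF.hi
  have hs0 : s ≠ 0 := by
    intro h0
    rw [h0, zero_smul] at hs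
    exact (x ^ 5).ne_zero hs
  have hpne : p ≠ 5 := by
    rintro rfl
    have h0 : ((5 : ℕ) : ZMod 5) = 0 := rfl
    rw [h0, orderOf_zero] at hord
    norm_num at hord
  have h51 : p % 5 ≠ 1 := by
    intro h1
    have h0 : (p : ZMod 5) = 1 := by
      rw [← ZMod.natCast_mod, h1]
      rfl
    rw [h0, orderOf_one] at hord
    norm_num at hord
  have hc5 : (Fintype.card F - 1).Coprime 5 := by
    rw [hcard, Nat.coprime_comm, (by norm_num : Nat.Prime 5).coprime_iff_not_dvd]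
    omega
  obtain ⟨w, hw0, hw⟩ := exists_root_of_coprime hc5 hs0
  have hm := pow_mul_eq_one_of_scalar hcard x hs
  have h5 : (5 : F) ≠ 0 := by
    intro h
    have h1 : ((5 : ℕ) : F) = 0 := by exact_mod_cast h
    rw [CharP.cast_eq_zero_iff F p] at h1
    exact hpne ((Nat.prime_dvd_prime_iff_eq hp (by norm_num)).mp h1)
  have hpc : Nat.Coprime 5 p := by
    rw [Nat.coprime_comm, hp.coprime_iff_not_dvd]
    intro h1
    exact hpne ((Nat.prime_dvd_prime_iff_eq hp (by norm_num)).mp h1)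
  have hmp : (5 * (p - 1)).Coprime p := coprime_mul_sub_one hp hpc
  have hirr := irr_five (F := F) hcard hpc.symm hord
  set X := (x : Matrix (Fin 4) (Fin 4) F) with hX
  have hX5 : X * X * X * X * X = s • 1 := by
    rw [← hs, pow_succ, pow_succ, pow_succ, pow_two]
    rfl
  have hX'5 : (w⁻¹ • X) * (w⁻¹ • X) * (w⁻¹ • X) * (w⁻¹ • X) * (w⁻¹ • X) = 1 := by
    have e : (w⁻¹ • X) * (w⁻¹ • X) * (w⁻¹ • X) * (w⁻¹ • X) * (w⁻¹ • X) = (w⁻¹ * w⁻¹ * w⁻¹ * w⁻¹ * w⁻¹) • (X * X * X * X * X) := by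
      simp only [Matrix.smul_mul, Matrix.mul_smul, smul_smul]
      congr 1
      ring
    rw [e, hX5, smul_smul, ← hw]
    have e : w⁻¹ * w⁻¹ * w⁻¹ * w⁻¹ * w⁻¹ * w ^ 5 = 1 := by
      field_simp
    rw [e, one_smul]
  have hne : w⁻¹ • X ≠ 1 := by
    intro h1
    apply hns w
    rw [← smul_right_inj (inv_ne_zero hw0), h1, smul_smul, inv_mul_cancel₀ hw0, one_smul]
  obtain ⟨G, hG⟩ := five_type (w⁻¹ • X) hirr hX'5 hne
  obtain ⟨G₁, hG₁⟩ := T5_type hi h2 h5 hirr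
  obtain ⟨T₀, hT₀⟩ := exists_GL_of_five (T5_five hi h2)
  have hN := hF.norm_5 T₀ (c := -(i * 2⁻¹)) hT₀
  refine hF.conj_model T₀ x (G * G₁⁻¹) hw0 hN ?_ hm hmp
  rw [hT₀]
  exact conj_of_common hG hG₁

theorem conj_two [Fintype F] (hF : Pauli R i ι u v g h P) (h2 : (2 : F) ≠ 0) (x : GL (Fin 4) F)
    (hx : (x : Matrix (Fin 4) (Fin 4) F).det = 1) {s : F}
    (hs : (x : Matrix (Fin 4) (Fin 4) F) * x = s • 1) :
    ∃ g : GL (Fin 4) F, (g : Matrix (Fin 4) (Fin 4) F).det = 1 ∧ g⁻¹ * x * g ∈ Cfsg.Geo.subgroupNormalizer R := by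
  classical
  have hi := hF.hi
  set X := (x : Matrix (Fin 4) (Fin 4) F) with hX
  have hs0 : s ≠ 0 := by
    rintro rfl
    rw [zero_smul] at hs
    have h1 := congrArg Matrix.det hs
    rw [Matrix.det_mul, hx] at h1
    simp at h1
  obtain ⟨w, hww⟩ : ∃ w : F, w * w = s := by
    by_contra hno
    push Not at hno
    have hq : ∀ c : F, c * c + 0 * c + (-s) ≠ 0 := fun c hc => hno c (by linear_combination hc)
    obtain ⟨G, hG⟩ := exists_block_all X hq (by rw [hs]; simp)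
    have h1 := congrArg Matrix.det hG
    have hGd : (G : Matrix (Fin 4) (Fin 4) F).det ≠ 0 := (Matrix.GeneralLinearGroup.det G).ne_zero
    rw [Matrix.det_mul, Matrix.det_mul, hx, one_mul] at h1
    have h3 : (blockM (0 : F) (-s)).det = 1 := by
      apply mul_left_cancel₀ hGd
      rw [← h1, mul_one]
    have h4 : (blockM (0 : F) (-s)).det = s * s := by
      simp [blockM, Matrix.det_succ_row_zero, Fin.sum_univ_succ, Fin.succAbove]
    rw [h4] at h3
    have h5 : (s - 1) * (s + 1) = 0 := by linear_combination h3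
    rcases mul_eq_zero.mp h5 with h6 | h6
    · exact hno 1 (by linear_combination -h6)
    · exact hno i (by linear_combination hi - h6)
  have hw0 : w ≠ 0 := by
    rintro rfl
    apply hs0
    rw [← hww, zero_mul]
  let g' := Matrix.toLin' X
  have hgg : ∀ v, g' (g' v) = s • v := by
    intro v
    change X.mulVec (X.mulVec v) = s • v
    rw [Matrix.mulVec_mulVec, hs, Matrix.smul_mulVec, Matrix.one_mulVec]
  have h2w : w ≠ -w := by
    intro h
    apply mul_ne_zero h2 hw0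
    linear_combination h
  obtain ⟨bb, ε, hε, hb⟩ := Cfsg.Agent.S5998.exists_eigenbasis (V := Fin 4 → F) (n := 4) (by simp) g' h2w hw0 (neg_ne_zero.mpr hw0)
    (by
      intro v
      simp only [zero_smul, sub_zero, neg_smul, sub_neg_eq_add, map_add, map_smul, hgg]
      rw [← hww]
      module)
  have hb' : ∀ i, X.mulVec (bb i) = ε i • bb i := hb
  have hε' : ∀ i, ε i = w ∨ ε i = -w := by
    intro i
    rcases hε i with h | h | h
    · exact Or.inl h
    · exact Or.inr h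
    · exfalso
      have h3 := hgg (bb i)
      rw [hb, h, zero_smul, map_zero] at h3
      exact (smul_ne_zero hs0 (bb.ne_zero i)) h3.symm
  have hd : ∀ i, (w⁻¹ * ε i) * (w⁻¹ * ε i) = 1 := by
    intro i
    rcases hε' i with h | h <;> rw [h] <;> field_simp
  set D₀ : Matrix (Fin 4) (Fin 4) F := Matrix.diagonal ![w⁻¹ * ε 0, w⁻¹ * ε 1, w⁻¹ * ε 2, w⁻¹ * ε 3] with hD₀
  have hDD : D₀ * D₀ = 1 := by
    rw [hD₀, Matrix.diagonal_mul_diagonal, ← Matrix.diagonal_one]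
    congr 1
    ext j
    fin_cases j <;> simp [hd]
  let D : GL (Fin 4) F := ⟨D₀, D₀, hDD, hDD⟩
  have hN := hF.sign_norm D (hd 0) (hd 1) (hd 2) (hd 3) rfl
  obtain ⟨s₀, hs₀⟩ := exists_scalar_GL hw0
  have hmem : s₀ * (P * D * P⁻¹) ∈ Cfsg.Geo.subgroupNormalizer R :=
    Subgroup.mul_mem _ (hF.scalar_norm s₀ hs₀) hN
  have hPP : ((P⁻¹ : GL (Fin 4) F) : Matrix (Fin 4) (Fin 4) F) * (P : Matrix (Fin 4) (Fin 4) F) = 1 := by
    rw [← Units.val_mul, inv_mul_cancel, Units.val_one]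
  have hT : ((s₀ * (P * D * P⁻¹) : GL (Fin 4) F) : Matrix (Fin 4) (Fin 4) F) * (P : Matrix (Fin 4) (Fin 4) F) =
      (P : Matrix (Fin 4) (Fin 4) F) * Matrix.diagonal ε := by
    have e : Matrix.diagonal ε = w • D₀ := by
      rw [hD₀]
      ext a b
      by_cases hab : a = b
      · subst hab
        fin_cases a <;> simp <;> field_simp
      · simp [Matrix.diagonal_apply_ne _ hab]
    simp only [Units.val_mul]
    rw [hs₀, e]
    calc w • (1 : Matrix (Fin 4) (Fin 4) F) * ((P : Matrix (Fin 4) (Fin 4) F) * D₀ * ((P⁻¹ : GL (Fin 4) F) : Matrix (Fin 4) (Fin 4) F)) * (P : Matrix (Fin 4) (Fin 4) F)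
        = w • ((P : Matrix (Fin 4) (Fin 4) F) * D₀ * (((P⁻¹ : GL (Fin 4) F) : Matrix (Fin 4) (Fin 4) F) * (P : Matrix (Fin 4) (Fin 4) F))) := by
          simp only [Matrix.smul_mul, Matrix.one_mul, Matrix.mul_assoc]
      _ = _ := by
          rw [hPP, Matrix.mul_one, Matrix.mul_smul]
  obtain ⟨G, hG1, hG2⟩ := exists_conj_of_diag4 bb ε hb' P hT
  refine ⟨G, hG1, ?_⟩
  have h3 : G * (s₀ * (P * D * P⁻¹)) = x * G := Units.ext hG2
  have h4 : G⁻¹ * x * G = s₀ * (P * D * P⁻¹) := by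
    rw [mul_assoc, ← h3, ← mul_assoc, inv_mul_cancel, one_mul]
  rw [h4]
  exact hmem

end Pauli

end Cfsg.Agent.Lib.TwoSix
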