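import Cfsg.Agent.Lib.TwoSix.Witt32
import Cfsg.Agent.Lib.TwoSix.Pos

/-!
# Fifth roots of one commuting with a fifth root of one, and a Sylow argument
-/

set_option autoImplicit false

open scoped MatrixGroups Matrix Polynomial
open Cfsg Module

namespace Cfsg.Agent.Lib.TwoSix

variable {F : Type*} [Field F]

/-- Commuting with a matrix passes to polynomials in it. -/
theorem commute_aeval {n : Type*} [Fintype n] [DecidableEq n] {X Y : Matrix n n F} (h : Y * X = X * Y) (P : F[X]) :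
    Y * Polynomial.aeval X P = Polynomial.aeval X P * Y := by
  have hc : Commute Y X := h
  have : Commute Y (Polynomial.aeval X P) := by
    induction P using Polynomial.induction_on' with
    | add p q hp hq =>
      rw [map_add]
      exact hp.add_right hq
    | monomial k a =>
      rw [Polynomial.aeval_monomial]
      exact (show Commute Y (algebraMap F (Matrix n n F) a) from (Algebra.commutes a Y).symm).mul_right (hc.pow_right k)
  exact this

/-- A fifth root of unity in the centralizer of a nontrivial fifth root of unity is a power of it. -/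
theorem comm_five (hirr : Irreducible (Polynomial.X ^ 4 + Polynomial.X ^ 3 + Polynomial.X ^ 2 + Polynomial.X + 1 : F[X]))
    {z y : GL I4 F} (hz : z ^ 5 = 1) (hz1 : z ≠ 1) (hy : y ^ 5 = 1) (hc : y * z = z * y) : ∃ k : ℕ, y = z ^ k := by
  classical
  set X := (z : Matrix I4 I4 F) with hX
  set Y := (y : Matrix I4 I4 F) with hY
  have hYX : Y * X = X * Y := congrArg Units.val hc
  have hX5 : X ^ 5 = 1 := by
    have := congrArg Units.val hz
    simpa using this
  have hY5 : Y ^ 5 = 1 := by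
    have := congrArg Units.val hy
    simpa using this
  obtain ⟨v, hv⟩ : ∃ v : I4 → F, X *ᵥ v ≠ v := by
    by_contra h1
    push Not at h1
    apply hz1
    apply Units.ext
    apply Matrix.toLin'.injective
    apply LinearMap.ext
    intro v
    simpa using h1 v
  set w := X *ᵥ v - v with hw
  have hw0 : w ≠ 0 := sub_ne_zero.mpr hv
  set Φ : F[X] := Polynomial.X ^ 4 + Polynomial.X ^ 3 + Polynomial.X ^ 2 + Polynomial.X + 1 with hΦ
  have hcomm : ∀ P Q : F[X], Polynomial.aeval X P * Polynomial.aeval X Q = Polynomial.aeval X Q * Polynomial.aeval X P := by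
    intro P Q
    rw [← map_mul, ← map_mul, mul_comm]
  have hΦw : (Polynomial.aeval X Φ) *ᵥ w = 0 := by
    have e : Polynomial.aeval X Φ * (X - 1) = 0 := by
      simp only [hΦ, map_add, map_pow, Polynomial.aeval_X, map_one]
      rw [← sub_eq_zero.mpr hX5]
      noncomm_ring
    have e' : w = (X - 1) *ᵥ v := by
      rw [hw, Matrix.sub_mulVec, Matrix.one_mulVec]
    rw [e', Matrix.mulVec_mulVec, e, Matrix.zero_mulVec]
  have hdeg : Φ.natDegree = 4 := by
    rw [hΦ]
    compute_degree!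
  have hgpoly : ∀ c : Fin 4 → F, (Polynomial.aeval X (Polynomial.C (c 0) + Polynomial.C (c 1) * Polynomial.X + Polynomial.C (c 2) * Polynomial.X ^ 2 + Polynomial.C (c 3) * Polynomial.X ^ 3 : F[X])) *ᵥ w =
      c 0 • w + c 1 • (X *ᵥ w) + c 2 • (X *ᵥ (X *ᵥ w)) + c 3 • (X *ᵥ (X *ᵥ (X *ᵥ w))) := by
    intro c
    simp only [map_add, map_mul, Polynomial.aeval_C, map_pow, Polynomial.aeval_X, Matrix.add_mulVec]
    simp only [Algebra.algebraMap_eq_smul_one, Matrix.smul_mul, Matrix.one_mul, Matrix.smul_mulVec, Matrix.one_mulVec]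
    congr 2
    · rw [pow_two, ← Matrix.mulVec_mulVec]
    · rw [pow_succ, pow_two, ← Matrix.mulVec_mulVec, ← Matrix.mulVec_mulVec]
  have hli : LinearIndependent F ![w, X *ᵥ w, X *ᵥ (X *ᵥ w), X *ᵥ (X *ᵥ (X *ᵥ w))] := by
    rw [Fintype.linearIndependent_iff]
    intro c hc
    rw [Fin.sum_univ_four] at hc
    change c 0 • w + c 1 • (X *ᵥ w) + c 2 • (X *ᵥ (X *ᵥ w)) + c 3 • (X *ᵥ (X *ᵥ (X *ᵥ w))) = 0 at hc
    set g : F[X] := Polynomial.C (c 0) + Polynomial.C (c 1) * Polynomial.X + Polynomial.C (c 2) * Polynomial.X ^ 2 + Polynomial.C (c 3) * Polynomial.X ^ 3 with hg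
    have hgw : (Polynomial.aeval X g) *ᵥ w = 0 := by
      rw [← hc, hg]
      exact hgpoly c
    have hg0 : g = 0 := by
      by_contra hne0
      have hnd : ¬ Φ ∣ g := by
        intro hd
        have hle := Polynomial.natDegree_le_of_dvd hd hne0
        rw [hdeg] at hle
        have : g.natDegree ≤ 3 := by
          rw [hg]
          compute_degree
        omega
      have hcop : IsCoprime Φ g := (Irreducible.coprime_iff_not_dvd hirr).mpr hnd
      obtain ⟨p, q, hpq⟩ := hcop
      have h1 := congrArg (fun P => (Polynomial.aeval X P) *ᵥ w) hpq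
      simp only [map_add, map_mul, Matrix.add_mulVec, map_one, Matrix.one_mulVec] at h1
      rw [← Matrix.mulVec_mulVec, ← Matrix.mulVec_mulVec, hΦw, hgw, Matrix.mulVec_zero, Matrix.mulVec_zero, add_zero] at h1
      exact hw0 h1.symm
    have hcoef : ∀ j : Fin 4, g.coeff j = c j := by
      intro j
      rw [hg]
      fin_cases j <;> simp [Polynomial.coeff_C, Polynomial.coeff_X, Polynomial.coeff_X_pow, Polynomial.coeff_C_mul]
    intro i
    rw [← hcoef i, hg0]
    simp
  let B : Basis (Fin 4) F (I4 → F) := basisOfLinearIndependentOfCardEqFinrank hli (by simp)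
  have hb : ∀ i, B i = (![w, X *ᵥ w, X *ᵥ (X *ᵥ w), X *ᵥ (X *ᵥ (X *ᵥ w))] : Fin 4 → I4 → F) i := fun i => by simp [B]
  have hrep : ∀ t : I4 → F, ∃ P : F[X], t = Polynomial.aeval X P *ᵥ w := by
    intro t
    refine ⟨Polynomial.C (B.repr t 0) + Polynomial.C (B.repr t 1) * Polynomial.X + Polynomial.C (B.repr t 2) * Polynomial.X ^ 2 + Polynomial.C (B.repr t 3) * Polynomial.X ^ 3, ?_⟩
    rw [hgpoly (B.repr t)]
    conv_lhs => rw [← B.sum_repr t, Fin.sum_univ_four, hb 0, hb 1, hb 2, hb 3]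
    simp
  have hmatext : ∀ M N : Matrix I4 I4 F, (∀ P : F[X], M *ᵥ (Polynomial.aeval X P *ᵥ w) = N *ᵥ (Polynomial.aeval X P *ᵥ w)) → M = N := by
    intro M N h
    apply Matrix.toLin'.injective
    apply LinearMap.ext
    intro t
    obtain ⟨P, rfl⟩ := hrep t
    simpa using h P
  have hΦ0 : Polynomial.aeval X Φ = 0 := by
    apply hmatext
    intro P
    rw [Matrix.mulVec_mulVec, hcomm, ← Matrix.mulVec_mulVec, hΦw, Matrix.mulVec_zero, Matrix.zero_mulVec]
  obtain ⟨g, hg⟩ := hrep (Y *ᵥ w)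
  have hYg : Y = Polynomial.aeval X g := by
    apply hmatext
    intro P
    rw [Matrix.mulVec_mulVec, commute_aeval hYX, ← Matrix.mulVec_mulVec, hg, Matrix.mulVec_mulVec, Matrix.mulVec_mulVec, hcomm]
  have hdvd : Φ ∣ g ^ 5 - 1 := by
    by_contra hnd
    have hcop : IsCoprime Φ (g ^ 5 - 1) := (Irreducible.coprime_iff_not_dvd hirr).mpr hnd
    obtain ⟨p, q, hpq⟩ := hcop
    have h1 := congrArg (Polynomial.aeval X) hpq
    have h0 : Polynomial.aeval X (g ^ 5 - 1) = 0 := by
      rw [map_sub, map_pow, ← hYg, hY5, map_one, sub_self]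
    rw [map_add, map_mul, map_mul, hΦ0, h0, mul_zero, mul_zero, add_zero, map_one] at h1
    exact one_ne_zero h1.symm
  haveI : Fact (Irreducible Φ) := ⟨hirr⟩
  set mk := AdjoinRoot.mk Φ with hmk
  have hmkg : (mk g) ^ 5 = 1 := by
    have h1 : mk (g ^ 5 - 1) = 0 := AdjoinRoot.mk_eq_zero.mpr hdvd
    rw [map_sub, map_pow, map_one, sub_eq_zero] at h1
    exact h1
  have hrootdef : AdjoinRoot.root Φ = mk Polynomial.X := (AdjoinRoot.mk_X).symm
  have hroot5 : (AdjoinRoot.root Φ) ^ 5 = 1 := by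
    have h1 : mk (Polynomial.X ^ 5 - 1) = 0 := by
      apply AdjoinRoot.mk_eq_zero.mpr
      exact ⟨Polynomial.X - 1, by rw [hΦ]; ring⟩
    rw [map_sub, map_pow, map_one, sub_eq_zero, ← hrootdef] at h1
    exact h1
  have hroot1 : AdjoinRoot.root Φ ≠ 1 := by
    intro h
    rw [hrootdef] at h
    have h1 : mk (Polynomial.X - 1) = 0 := by
      rw [map_sub, map_one, h, sub_self]
    have h2 := AdjoinRoot.mk_eq_zero.mp h1
    have h3 := Polynomial.natDegree_le_of_dvd h2 (Polynomial.X_sub_C_ne_zero (1 : F))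
    rw [hdeg] at h3
    have h4 : (Polynomial.X - 1 : F[X]).natDegree = 1 := Polynomial.natDegree_X_sub_C (1 : F)
    omega
  have hord : orderOf (AdjoinRoot.root Φ) = 5 := by
    haveI : Fact (Nat.Prime 5) := ⟨by norm_num⟩
    exact orderOf_eq_prime hroot5 hroot1
  have hprim : IsPrimitiveRoot (AdjoinRoot.root Φ) 5 := by
    have := IsPrimitiveRoot.orderOf (AdjoinRoot.root Φ)
    rwa [hord] at this
  obtain ⟨k, _, hk⟩ := hprim.eq_pow_of_pow_eq_one hmkg
  refine ⟨k, ?_⟩
  apply Units.ext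
  rw [Units.val_pow_eq_pow_val, ← hX, ← hY, hYg]
  have h1 : mk (g - Polynomial.X ^ k) = 0 := by
    rw [map_sub, map_pow, ← hrootdef, hk, sub_self]
  obtain ⟨q, hq⟩ := AdjoinRoot.mk_eq_zero.mp h1
  have h2 := congrArg (Polynomial.aeval X) hq
  rw [map_sub, map_mul, hΦ0, zero_mul, sub_eq_zero, map_pow, Polynomial.aeval_X] at h2
  exact h2

/-- The Sylow argument. -/
theorem exists_conj_pow {H : Type*} [Group H] [Finite H] {q : ℕ} [Fact q.Prime] {u v : H} (hu : u ^ q = 1) (hu1 : u ≠ 1) (hv : v ^ q = 1)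
    (hcm : ∀ z w : H, z ^ q = 1 → z ≠ 1 → w ^ q = 1 → w * z = z * w → ∃ k : ℕ, w = z ^ k) :
    ∃ (g : H) (m : ℕ), g⁻¹ * v * g = u ^ m := by
  classical
  have hq : q.Prime := Fact.out
  have hpg : ∀ a : H, a ^ q = 1 → IsPGroup q (Subgroup.zpowers a) := by
    intro a ha
    rintro ⟨b, n, rfl⟩
    refine ⟨1, ?_⟩
    apply Subtype.ext
    simp only [pow_one, Subgroup.coe_pow, Subgroup.coe_one]
    change (a ^ n) ^ q = 1
    rw [← zpow_natCast, ← zpow_mul, mul_comm, zpow_mul, zpow_natCast, ha, one_zpow]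
  obtain ⟨P, hP⟩ := (hpg u hu).exists_le_sylow
  obtain ⟨Q, hQ⟩ := (hpg v hv).exists_le_sylow
  obtain ⟨g, hg⟩ := MulAction.exists_smul_eq H Q P
  have huP : u ∈ P := hP (Subgroup.mem_zpowers u)
  have hvQ : v ∈ Q := hQ (Subgroup.mem_zpowers v)
  have hvP : g * v * g⁻¹ ∈ P := by
    rw [← hg]
    change g * v * g⁻¹ ∈ ((g • Q : Sylow q H) : Subgroup H)
    rw [Sylow.coe_subgroup_smul]
    exact Subgroup.smul_mem_pointwise_smul v (MulAut.conj g) (Q : Subgroup H) hvQ
  haveI : Nontrivial P := by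
    refine ⟨⟨⟨u, huP⟩, 1, fun h => hu1 (congrArg Subtype.val h)⟩⟩
  have hPp : IsPGroup q P := P.isPGroup'
  haveI : Nontrivial (Subgroup.center P) := hPp.center_nontrivial
  have hcp : IsPGroup q (Subgroup.center P) := hPp.to_subgroup _
  obtain ⟨n, hn0, hn⟩ := hcp.nontrivial_iff_card.mp inferInstance
  have hdvd : q ∣ Nat.card (Subgroup.center P) := hn.symm ▸ dvd_pow_self _ (ne_of_gt hn0)
  obtain ⟨x, hx⟩ := exists_prime_orderOf_dvd_card' q hdvd
  set z : H := ((x : P) : H) with hz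
  have hxq : x ^ q = 1 := by
    have := pow_orderOf_eq_one x
    rwa [hx] at this
  have hzq : z ^ q = 1 := by
    have := congrArg (fun a : Subgroup.center P => ((a : P) : H)) hxq
    simpa using this
  have hz1 : z ≠ 1 := by
    intro h
    have hx1 : x = 1 := Subtype.ext (Subtype.ext h)
    rw [hx1, orderOf_one] at hx
    exact hq.one_lt.ne hx
  have hcomm : ∀ a (ha : a ∈ P), a * z = z * a := by
    intro a ha
    have := Subgroup.mem_center_iff.mp x.2 ⟨a, ha⟩
    exact (congrArg Subtype.val this)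
  obtain ⟨k, hk⟩ := hcm z u hzq hz1 hu (hcomm u huP)
  have hv' : (g * v * g⁻¹) ^ q = 1 := by
    rw [conj_pow, hv]
    simp
  obtain ⟨l, hl⟩ := hcm z (g * v * g⁻¹) hzq hz1 hv' (hcomm _ hvP)
  -- `z` is a power of `u`
  have hordz : orderOf z = q := orderOf_eq_prime hzq hz1
  have hcop : k.Coprime (orderOf z) := by
    rw [hordz, Nat.coprime_comm, hq.coprime_iff_not_dvd]
    intro h
    apply hu1
    rw [hk]
    rw [← hordz] at h
    exact orderOf_dvd_iff_pow_eq_one.mp h
  obtain ⟨m, hm⟩ := exists_pow_eq_self_of_coprime hcop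
  refine ⟨g⁻¹, m * l, ?_⟩
  rw [inv_inv, pow_mul, ← hk] at *
  rw [hm, ← hl]

end Cfsg.Agent.Lib.TwoSix
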