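import Cfsg.Agent.Lib.TwoSix.Norm

/-!
# Fixed point counts and the trace formula for a symplectic-type group of order `64`
-/

set_option autoImplicit false

open scoped MatrixGroups Matrix
open Cfsg Module

namespace Cfsg.Agent.Lib.TwoSix

open Cfsg.Agent.S5998 (mat_of_vec basisGL sum_diagonal)

variable {F : Type*} [Field F]

/-- Fixed points of an element of prime order acting by conjugation. -/
theorem count_mod {n : ℕ} {H : Subgroup (GL (Fin n) F)} [Finite H] {y : GL (Fin n) F}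
    (hy : ∀ a ∈ H, y * a * y⁻¹ ∈ H) {r : ℕ} [Fact r.Prime] (hyr : y ^ r = 1) :
    Nat.card H ≡ Nat.card ((Subgroup.centralizer ({y} : Set (GL (Fin n) F))).subgroupOf H) [MOD r] := by
  classical
  letI : Fintype H := Fintype.ofFinite _
  let f : Function.End H := fun a => ⟨y * a * y⁻¹, hy a a.2⟩
  have hfpow : ∀ (t : ℕ) (a : H), (((f ^ t) a : H) : GL (Fin n) F) = y ^ t * a * (y ^ t)⁻¹ := by
    intro t
    induction t with
    | zero =>
      intro a
      rw [pow_zero, pow_zero, one_mul, inv_one, mul_one]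
      rfl
    | succ t ih =>
      intro a
      rw [pow_succ']
      change y * ((f ^ t) a : H) * y⁻¹ = _
      rw [ih, pow_succ']
      group
  have hf : f ^ r ^ 1 = 1 := by
    rw [pow_one]
    funext a
    apply Subtype.ext
    rw [hfpow, hyr]
    simp
    rfl
  have hmod := Equiv.Perm.card_fixedPoints_modEq hf
  have hC : Fintype.card ↑(Function.fixedPoints f) =
      Nat.card ((Subgroup.centralizer ({y} : Set (GL (Fin n) F))).subgroupOf H) := by
    rw [← Nat.card_eq_fintype_card]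
    apply Nat.card_congr
    refine Equiv.subtypeEquivRight fun a => ?_
    have e : Function.IsFixedPt f a ↔ y * a * y⁻¹ = a := by
      constructor
      · intro hh
        exact congrArg Subtype.val hh
      · intro hh
        exact Subtype.ext hh
    change Function.IsFixedPt f a ↔ _
    rw [e, mul_inv_eq_iff_eq_mul, Subgroup.mem_subgroupOf, Subgroup.mem_centralizer_singleton_iff]
    exact eq_comm
  rw [hC, ← Nat.card_eq_fintype_card] at hmod
  exact hmod

namespace Pauli

variable {R : Subgroup (GL (Fin 4) F)} {i : F} {ι u v g h P : GL (Fin 4) F}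

theorem four_ne (h2 : (2 : F) ≠ 0) : (4 : F) ≠ 0 := by
  have : (4 : F) = 2 * 2 := by norm_num
  rw [this]
  exact mul_ne_zero h2 h2

theorem neg_ne_self (h2 : (2 : F) ≠ 0) {a : GL (Fin 4) F} : (a : Matrix (Fin 4) (Fin 4) F) ≠ -a := by
  intro h
  have h1 : ((a⁻¹ : GL (Fin 4) F) : Matrix (Fin 4) (Fin 4) F) * a = 1 := by
    rw [← Units.val_mul, inv_mul_cancel, Units.val_one]
  have h3 : (1 : Matrix (Fin 4) (Fin 4) F) = -1 := by
    have h5 := congrArg (fun M => ((a⁻¹ : GL (Fin 4) F) : Matrix (Fin 4) (Fin 4) F) * M) h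
    simp only [Matrix.mul_neg, h1] at h5
    exact h5
  have h4 := congrFun (congrFun h3 0) 0
  simp at h4
  apply h2
  linear_combination h4

/-- Twirling over the group. -/
theorem twirl (hF : Pauli R i ι u v g h P) (h2 : (2 : F) ≠ 0) [Fintype R] (M : Matrix (Fin 4) (Fin 4) F) :
    ∑ t : R, ((t : GL (Fin 4) F) : Matrix (Fin 4) (Fin 4) F) * M * (((t : GL (Fin 4) F)⁻¹ : GL (Fin 4) F) : Matrix (Fin 4) (Fin 4) F)
      = (16 * Matrix.trace M) • 1 := by
  classical
  set S := ∑ t : R, ((t : GL (Fin 4) F) : Matrix (Fin 4) (Fin 4) F) * M * (((t : GL (Fin 4) F)⁻¹ : GL (Fin 4) F) : Matrix (Fin 4) (Fin 4) F) with hS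
  have hcomm : ∀ s ∈ R, S * (s : Matrix (Fin 4) (Fin 4) F) = s * S := by
    intro s hs
    rw [hS, Finset.sum_mul, Finset.mul_sum]
    symm
    apply Fintype.sum_equiv (Equiv.mulLeft (⟨s, hs⟩ : R))
    intro t
    have e : (((((Equiv.mulLeft (⟨s, hs⟩ : R)) t : R) : GL (Fin 4) F)⁻¹ : GL (Fin 4) F) : Matrix (Fin 4) (Fin 4) F) * (s : Matrix (Fin 4) (Fin 4) F) =
        (((t : GL (Fin 4) F)⁻¹ : GL (Fin 4) F) : Matrix (Fin 4) (Fin 4) F) := by
      rw [← Units.val_mul]
      congr 1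
      simp
    have e' : (((Equiv.mulLeft (⟨s, hs⟩ : R)) t : R) : GL (Fin 4) F) = s * t := rfl
    rw [Matrix.mul_assoc _ _ (s : Matrix (Fin 4) (Fin 4) F), e, e', Units.val_mul]
    simp only [Matrix.mul_assoc]
  obtain ⟨c, hc⟩ := hF.comm S hcomm
  have htr : Matrix.trace S = 64 * Matrix.trace M := by
    rw [hS, Matrix.trace_sum]
    have : ∀ t : R, Matrix.trace (((t : GL (Fin 4) F) : Matrix (Fin 4) (Fin 4) F) * M * (((t : GL (Fin 4) F)⁻¹ : GL (Fin 4) F) : Matrix (Fin 4) (Fin 4) F)) = Matrix.trace M := by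
      intro t
      exact Matrix.trace_units_conj _ _
    simp only [this]
    rw [Finset.sum_const, Finset.card_univ, ← Nat.card_eq_fintype_card, hF.card]
    simp
  have htr2 : Matrix.trace S = 4 * c := by
    rw [hc, Matrix.trace_smul, Matrix.trace_one]
    simp
    ring
  have h4 := four_ne h2
  have hc16 : c = 16 * Matrix.trace M := by
    apply mul_left_cancel₀ h4
    rw [← htr2, htr]
    ring
  rw [hc, hc16]

/-- An element of the group is scalar or has trace zero. -/
theorem trace_eq_zero (hF : Pauli R i ι u v g h P) (h2 : (2 : F) ≠ 0) {e : GL (Fin 4) F} (he : e ∈ R)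
    (hns : ∀ c : F, (e : Matrix (Fin 4) (Fin 4) F) ≠ c • 1) : Matrix.trace (e : Matrix (Fin 4) (Fin 4) F) = 0 := by
  obtain ⟨s, hs, hes⟩ : ∃ s ∈ R, (e : Matrix (Fin 4) (Fin 4) F) * s = -(s * e) := by
    by_contra hcon
    push Not at hcon
    obtain ⟨c, hc⟩ := hF.comm (e : Matrix (Fin 4) (Fin 4) F) (by
      intro s hs
      rcases hF.signs e he s hs with h1 | h1
      · exact h1
      · exact absurd h1 (hcon s hs))
    exact hns c hc
  have h1 : ((s⁻¹ : GL (Fin 4) F) : Matrix (Fin 4) (Fin 4) F) * s = 1 := by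
    rw [← Units.val_mul, inv_mul_cancel, Units.val_one]
  have h3 : Matrix.trace ((s : Matrix (Fin 4) (Fin 4) F) * (e : Matrix (Fin 4) (Fin 4) F) * ((s⁻¹ : GL (Fin 4) F) : Matrix (Fin 4) (Fin 4) F)) = Matrix.trace (e : Matrix (Fin 4) (Fin 4) F) :=
    Matrix.trace_units_conj _ _
  have h5 : (s : Matrix (Fin 4) (Fin 4) F) * (e : Matrix (Fin 4) (Fin 4) F) * ((s⁻¹ : GL (Fin 4) F) : Matrix (Fin 4) (Fin 4) F) = -(e : Matrix (Fin 4) (Fin 4) F) := by
    have : (s : Matrix (Fin 4) (Fin 4) F) * (e : Matrix (Fin 4) (Fin 4) F) = -((e : Matrix (Fin 4) (Fin 4) F) * s) := by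
      rw [hes, neg_neg]
    rw [this, Matrix.neg_mul, Matrix.mul_assoc]
    have h6 : (s : Matrix (Fin 4) (Fin 4) F) * ((s⁻¹ : GL (Fin 4) F) : Matrix (Fin 4) (Fin 4) F) = 1 := by
      rw [← Units.val_mul, mul_inv_cancel, Units.val_one]
    rw [h6, Matrix.mul_one]
  rw [h5, Matrix.trace_neg] at h3
  have h6 : (2 : F) * Matrix.trace (e : Matrix (Fin 4) (Fin 4) F) = 0 := by linear_combination -h3
  exact (mul_eq_zero.mp h6).resolve_left h2

/-- The commutator with an element of odd order is trivial when scalar. -/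
theorem comm_of_scalar (hF : Pauli R i ι u v g h P) (h2 : (2 : F) ≠ 0) {y t : GL (Fin 4) F} (ht : t ∈ R)
    (hy : y ∈ Cfsg.Geo.subgroupNormalizer R) {m : ℕ} (hm : Odd m) (hym : y ^ m = 1) {c : F}
    (hc : ((y * t * y⁻¹ * t⁻¹ : GL (Fin 4) F) : Matrix (Fin 4) (Fin 4) F) = c • 1) : y * t = t * y := by
  have he : y * t * y⁻¹ * t⁻¹ ∈ R := by
    have h1 : y * t * y⁻¹ ∈ R := (Subgroup.mem_normalizer_iff.mp hy t).mp ht
    exact R.mul_mem h1 (R.inv_mem ht)
  have hyt : (y : Matrix (Fin 4) (Fin 4) F) * t = c • ((t : Matrix (Fin 4) (Fin 4) F) * y) := by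
    have e : y * t = (y * t * y⁻¹ * t⁻¹) * (t * y) := by group
    have h1 := congrArg (Units.val) e
    rw [Units.val_mul, Units.val_mul (y * t * y⁻¹ * t⁻¹), hc, Units.val_mul, Matrix.smul_mul, Matrix.one_mul] at h1
    exact h1
  have hpow : ∀ k : ℕ, ((y ^ k : GL (Fin 4) F) : Matrix (Fin 4) (Fin 4) F) * t = c ^ k • ((t : Matrix (Fin 4) (Fin 4) F) * ((y ^ k : GL (Fin 4) F) : Matrix (Fin 4) (Fin 4) F)) := by
    intro k
    induction k with
    | zero => simp
    | succ k ih =>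
      rw [pow_succ, Units.val_mul, Matrix.mul_assoc, hyt, Matrix.mul_smul, ← Matrix.mul_assoc, ih, Matrix.smul_mul, smul_smul, Matrix.mul_assoc, pow_succ]
      rw [mul_comm]
  have h1 := hpow m
  rw [hym, Units.val_one, Matrix.one_mul, Matrix.mul_one] at h1
  have htt : ((t⁻¹ : GL (Fin 4) F) : Matrix (Fin 4) (Fin 4) F) * t = 1 := by
    rw [← Units.val_mul, inv_mul_cancel, Units.val_one]
  have hcm : c ^ m = 1 := by
    have h3 := congrArg (fun M => ((t⁻¹ : GL (Fin 4) F) : Matrix (Fin 4) (Fin 4) F) * M) h1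
    simp only [Matrix.mul_smul, htt] at h3
    have h4 := congrFun (congrFun h3 0) 0
    simpa using h4.symm
  have hcc : c * c = 1 ∨ c * c = -1 := by
    rcases hF.sq_cases he with h3 | h3 <;> rw [hc] at h3 <;> have h4 := congrFun (congrFun h3 0) 0 <;> simp at h4
    · exact Or.inl h4
    · exact Or.inr h4
  obtain ⟨l, rfl⟩ := hm
  have hc1 : c = 1 := by
    rw [pow_succ, pow_mul, pow_two] at hcm
    rcases hcc with h3 | h3
    · rw [h3, one_pow, one_mul] at hcm
      exact hcm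
    · exfalso
      rw [h3] at hcm
      have h5 : c * c = 1 := by
        rcases neg_one_pow_eq_or F l with h6 | h6 <;> rw [h6] at hcm
        · rw [one_mul] at hcm
          rw [hcm, one_mul]
        · have : c = -1 := by linear_combination -hcm
          rw [this]
          ring
      rw [h5] at h3
      apply h2
      linear_combination h3
  rw [hc1, one_smul] at hyt
  exact Units.ext hyt

/-- The trace formula. -/
theorem trace_formula (hF : Pauli R i ι u v g h P) (h2 : (2 : F) ≠ 0) {y : GL (Fin 4) F}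
    (hy : y ∈ Cfsg.Geo.subgroupNormalizer R) {m : ℕ} (hm : Odd m) (hym : y ^ m = 1) :
    ((Nat.card ((Subgroup.centralizer ({y} : Set (GL (Fin 4) F))).subgroupOf R) : ℕ) : F) =
      4 * Matrix.trace (y : Matrix (Fin 4) (Fin 4) F) * Matrix.trace ((y⁻¹ : GL (Fin 4) F) : Matrix (Fin 4) (Fin 4) F) := by
  classical
  haveI := hF.fin
  letI : Fintype R := Fintype.ofFinite _
  set C := (Subgroup.centralizer ({y} : Set (GL (Fin 4) F))).subgroupOf R with hC
  have hterm : ∀ t : R, Matrix.trace ((y : Matrix (Fin 4) (Fin 4) F) * (((t : GL (Fin 4) F) : Matrix (Fin 4) (Fin 4) F) * ((y⁻¹ : GL (Fin 4) F) : Matrix (Fin 4) (Fin 4) F) * (((t : GL (Fin 4) F)⁻¹ : GL (Fin 4) F) : Matrix (Fin 4) (Fin 4) F))) =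
      if t ∈ C then 4 else 0 := by
    intro t
    have e : (y : Matrix (Fin 4) (Fin 4) F) * (((t : GL (Fin 4) F) : Matrix (Fin 4) (Fin 4) F) * ((y⁻¹ : GL (Fin 4) F) : Matrix (Fin 4) (Fin 4) F) * (((t : GL (Fin 4) F)⁻¹ : GL (Fin 4) F) : Matrix (Fin 4) (Fin 4) F)) =
        ((y * t * y⁻¹ * (t : GL (Fin 4) F)⁻¹ : GL (Fin 4) F) : Matrix (Fin 4) (Fin 4) F) := by
      simp only [Units.val_mul, Matrix.mul_assoc]
    rw [e]
    split_ifs with htC
    · have h1 : t.1 * y = y * t.1 := Subgroup.mem_centralizer_singleton_iff.mp htC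
      have h3 : y * t * y⁻¹ * (t : GL (Fin 4) F)⁻¹ = 1 := by
        rw [← h1]
        group
      rw [h3, Units.val_one, Matrix.trace_one]
      simp
    · apply hF.trace_eq_zero h2
      · have h1 : y * t * y⁻¹ ∈ R := (Subgroup.mem_normalizer_iff.mp hy t).mp t.2
        exact R.mul_mem h1 (R.inv_mem t.2)
      · intro c hc
        apply htC
        have h3 := hF.comm_of_scalar h2 t.2 hy hm hym hc
        exact Subgroup.mem_centralizer_singleton_iff.mpr h3.symm
  have hsum : ∑ t : R, Matrix.trace ((y : Matrix (Fin 4) (Fin 4) F) * (((t : GL (Fin 4) F) : Matrix (Fin 4) (Fin 4) F) * ((y⁻¹ : GL (Fin 4) F) : Matrix (Fin 4) (Fin 4) F) * (((t : GL (Fin 4) F)⁻¹ : GL (Fin 4) F) : Matrix (Fin 4) (Fin 4) F))) =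
      16 * Matrix.trace ((y⁻¹ : GL (Fin 4) F) : Matrix (Fin 4) (Fin 4) F) * Matrix.trace (y : Matrix (Fin 4) (Fin 4) F) := by
    rw [← Matrix.trace_sum, ← Finset.mul_sum, hF.twirl h2, Matrix.mul_smul, Matrix.mul_one, Matrix.trace_smul, smul_eq_mul]
  simp only [hterm] at hsum
  have hcard : ∑ t : R, (if t ∈ C then (4 : F) else 0) = (Nat.card C : F) * 4 := by
    rw [Finset.sum_ite, Finset.sum_const, Finset.sum_const_zero, add_zero, nsmul_eq_mul]
    congr 2
    rw [Nat.card_eq_fintype_card, Fintype.card_subtype]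
  rw [hcard] at hsum
  have h4 := four_ne h2
  apply mul_right_cancel₀ h4
  rw [hsum]
  ring

theorem scalar_of_card (hF : Pauli R i ι u v g h P) {y : GL (Fin 4) F}
    (hc : Nat.card ((Subgroup.centralizer ({y} : Set (GL (Fin 4) F))).subgroupOf R) = 64) :
    ∃ c : F, (y : Matrix (Fin 4) (Fin 4) F) = c • 1 := by
  haveI := hF.fin
  have htop : (Subgroup.centralizer ({y} : Set (GL (Fin 4) F))).subgroupOf R = ⊤ :=
    Subgroup.eq_top_of_card_eq _ (by rw [hc, hF.card])
  apply hF.comm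
  intro s hs
  have h1 : (⟨s, hs⟩ : R) ∈ (Subgroup.centralizer ({y} : Set (GL (Fin 4) F))).subgroupOf R := by
    rw [htop]
    trivial
  have h3 : s * y = y * s := Subgroup.mem_centralizer_singleton_iff.mp h1
  exact (congrArg Units.val h3).symm

theorem iota_ne (hF : Pauli R i ι u v g h P) (h2 : (2 : F) ≠ 0) : ι * ι ≠ 1 := by
  intro h
  have h1 := congrArg Units.val h
  rw [Units.val_mul, hF.hι, Units.val_one] at h1
  have h3 := congrFun (congrFun h1 0) 0
  simp [hF.hi] at h3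
  apply h2
  linear_combination -h3

theorem iota4 (hF : Pauli R i ι u v g h P) : ι ^ 4 = 1 := hF.four ι hF.mem_ι

/-- Scalars in the group are the powers of the generator of the centre. -/
theorem scalar_pow (hF : Pauli R i ι u v g h P) {a : GL (Fin 4) F} (ha : a ∈ R) {c : F}
    (hc : (a : Matrix (Fin 4) (Fin 4) F) = c • 1) : ∃ k : ℕ, a = ι ^ k := by
  have hi := hF.hi
  have hcc : c * c = 1 ∨ c * c = -1 := by
    rcases hF.sq_cases ha with h3 | h3 <;> rw [hc] at h3 <;> have h4 := congrFun (congrFun h3 0) 0 <;> simp at h4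
    · exact Or.inl h4
    · exact Or.inr h4
  have hpw : ∀ k : ℕ, ((ι ^ k : GL (Fin 4) F) : Matrix (Fin 4) (Fin 4) F) = i ^ k • 1 := by
    intro k
    induction k with
    | zero => simp
    | succ k ih =>
      rw [pow_succ, Units.val_mul, ih, hF.hι, pow_succ]
      simp [smul_smul, mul_comm]
  have hk : ∀ k : ℕ, c = i ^ k → a = ι ^ k := by
    intro k hk
    apply Units.ext
    rw [hc, hpw, hk]
  rcases hcc with h3 | h3
  · rcases sign_cases h3 with h4 | h4
    · exact ⟨0, hk 0 (by simpa using h4)⟩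
    · exact ⟨2, hk 2 (by rw [pow_two, hi, h4])⟩
  · have h5 : (c - i) * (c + i) = 0 := by linear_combination h3 - hi
    rcases mul_eq_zero.mp h5 with h6 | h6
    · exact ⟨1, hk 1 (by simpa using sub_eq_zero.mp h6)⟩
    · refine ⟨3, hk 3 ?_⟩
      have e : i ^ 3 = -i := by
        rw [pow_succ, pow_two, hi]
        ring
      rw [e]
      linear_combination h6

theorem card_cases (hF : Pauli R i ι u v g h P) (h2 : (2 : F) ≠ 0) {y : GL (Fin 4) F} :
    Nat.card ((Subgroup.centralizer ({y} : Set (GL (Fin 4) F))).subgroupOf R) = 4 ∨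
    Nat.card ((Subgroup.centralizer ({y} : Set (GL (Fin 4) F))).subgroupOf R) = 8 ∨
    Nat.card ((Subgroup.centralizer ({y} : Set (GL (Fin 4) F))).subgroupOf R) = 16 ∨
    Nat.card ((Subgroup.centralizer ({y} : Set (GL (Fin 4) F))).subgroupOf R) = 32 ∨
    Nat.card ((Subgroup.centralizer ({y} : Set (GL (Fin 4) F))).subgroupOf R) = 64 := by
  haveI := hF.fin
  set C := (Subgroup.centralizer ({y} : Set (GL (Fin 4) F))).subgroupOf R with hC
  have hιC : (⟨ι, hF.mem_ι⟩ : R) ∈ C := by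
    rw [hC, Subgroup.mem_subgroupOf, Subgroup.mem_centralizer_singleton_iff]
    apply Units.ext
    simp only [Units.val_mul, hF.hι]
    simp [Matrix.smul_mul, Matrix.mul_smul]
  have hord : orderOf (⟨⟨ι, hF.mem_ι⟩, hιC⟩ : C) = 4 := by
    have h4 : (⟨⟨ι, hF.mem_ι⟩, hιC⟩ : C) ^ 2 ^ 2 = 1 := by
      apply Subtype.ext
      apply Subtype.ext
      simpa using hF.iota4
    have h5 : (⟨⟨ι, hF.mem_ι⟩, hιC⟩ : C) ^ 2 ^ (1 + 0) ≠ 1 := by
      intro h
      apply hF.iota_ne h2
      have := congrArg (fun a : C => ((a : R) : GL (Fin 4) F)) h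
      simpa [pow_two] using this
    have hp : Nat.Prime 2 := Nat.prime_two
    haveI : Fact (Nat.Prime 2) := ⟨hp⟩
    have := orderOf_eq_prime_pow (p := 2) (n := 1) (x := (⟨⟨ι, hF.mem_ι⟩, hιC⟩ : C)) (by simpa using h5) (by simpa using h4)
    simpa using this
  have h4 : 4 ∣ Nat.card C := by
    have := orderOf_dvd_natCard (⟨⟨ι, hF.mem_ι⟩, hιC⟩ : C)
    rwa [hord] at this
  have h64 : Nat.card C ∣ 2 ^ 6 := by
    have := C.card_subgroup_dvd_card
    rw [hF.card] at this
    simpa using this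
  obtain ⟨k, hk, hk'⟩ := (Nat.dvd_prime_pow Nat.prime_two).mp h64
  rw [hk'] at h4 ⊢
  interval_cases k <;> simp_all

end Pauli

end Cfsg.Agent.Lib.TwoSix
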