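import Cfsg.Agent.Lib.TwoSix.Extra32

/-!
# Fixed point counts and the trace formula for a group of order `32`
-/

set_option autoImplicit false

open scoped MatrixGroups Matrix
open Cfsg Module

namespace Cfsg.Agent.Lib.TwoSix

variable {F : Type*} [Field F]

/-- Fixed points of an element of prime order acting by conjugation. -/
theorem count_mod' {n : Type*} [Fintype n] [DecidableEq n] {H : Subgroup (GL n F)} [Finite H] {y : GL n F}
    (hy : ∀ a ∈ H, y * a * y⁻¹ ∈ H) {r : ℕ} [Fact r.Prime] (hyr : y ^ r = 1) :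
    Nat.card H ≡ Nat.card ((Subgroup.centralizer ({y} : Set (GL n F))).subgroupOf H) [MOD r] := by
  classical
  letI : Fintype H := Fintype.ofFinite _
  let f : Function.End H := fun a => ⟨y * a * y⁻¹, hy a a.2⟩
  have hfpow : ∀ (t : ℕ) (a : H), (((f ^ t) a : H) : GL n F) = y ^ t * a * (y ^ t)⁻¹ := by
    intro t
    induction t with
    | zero =>
      intro a
      rw [pow_zero, pow_zero, one_mul, inv_one, mul_one]
      rfl
    | succ t ih =>
      intro a
      rw [pow_succ']
      change y * ((f ^ t) a : H) * y⁻¹ = _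
      rw [ih, pow_succ']
      group
  have hf : f ^ r ^ 1 = 1 := by
    rw [pow_one]
    funext a
    apply Subtype.ext
    rw [hfpow, hyr]
    simp
    rfl
  have hmod := Equiv.Perm.card_fixedPoints_modEq hf
  have hC : Fintype.card ↑(Function.fixedPoints f) =
      Nat.card ((Subgroup.centralizer ({y} : Set (GL n F))).subgroupOf H) := by
    rw [← Nat.card_eq_fintype_card]
    apply Nat.card_congr
    refine Equiv.subtypeEquivRight fun a => ?_
    have e : Function.IsFixedPt f a ↔ y * a * y⁻¹ = a := by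
      constructor
      · intro hh
        exact congrArg Subtype.val hh
      · intro hh
        exact Subtype.ext hh
    change Function.IsFixedPt f a ↔ _
    rw [e, mul_inv_eq_iff_eq_mul, Subgroup.mem_subgroupOf, Subgroup.mem_centralizer_singleton_iff]
    exact eq_comm
  rw [hC, ← Nat.card_eq_fintype_card] at hmod
  exact hmod

namespace Extra

variable {R : Subgroup (GL I4 F)} {a₀ b₀ c₀ d₀ : GL I4 F}

theorem neg_ne_self (h2 : (2 : F) ≠ 0) {a : GL I4 F} : (a : Matrix I4 I4 F) ≠ -a := by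
  intro h
  have h1 : ((a⁻¹ : GL I4 F) : Matrix I4 I4 F) * a = 1 := by
    rw [← Units.val_mul, inv_mul_cancel, Units.val_one]
  have h3 : (1 : Matrix I4 I4 F) = -1 := by
    have h5 := congrArg (fun M => ((a⁻¹ : GL I4 F) : Matrix I4 I4 F) * M) h
    simp only [Matrix.mul_neg, h1] at h5
    exact h5
  have h4 := congrFun (congrFun h3 (Sum.inl 0)) (Sum.inl 0)
  simp at h4
  apply h2
  linear_combination h4

/-- Twirling over the group. -/
theorem twirl (hF : Extra R a₀ b₀ c₀ d₀) (h2 : (2 : F) ≠ 0) [Fintype R] (M : Matrix I4 I4 F) :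
    ∑ t : R, ((t : GL I4 F) : Matrix I4 I4 F) * M * (((t : GL I4 F)⁻¹ : GL I4 F) : Matrix I4 I4 F)
      = (8 * Matrix.trace M) • 1 := by
  classical
  set S := ∑ t : R, ((t : GL I4 F) : Matrix I4 I4 F) * M * (((t : GL I4 F)⁻¹ : GL I4 F) : Matrix I4 I4 F) with hS
  have hcomm : ∀ s ∈ R, S * (s : Matrix I4 I4 F) = s * S := by
    intro s hs
    rw [hS, Finset.sum_mul, Finset.mul_sum]
    symm
    apply Fintype.sum_equiv (Equiv.mulLeft (⟨s, hs⟩ : R))
    intro t
    have e : (((((Equiv.mulLeft (⟨s, hs⟩ : R)) t : R) : GL I4 F)⁻¹ : GL I4 F) : Matrix I4 I4 F) * (s : Matrix I4 I4 F) =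
        (((t : GL I4 F)⁻¹ : GL I4 F) : Matrix I4 I4 F) := by
      rw [← Units.val_mul]
      congr 1
      simp
    have e' : (((Equiv.mulLeft (⟨s, hs⟩ : R)) t : R) : GL I4 F) = s * t := rfl
    rw [Matrix.mul_assoc _ _ (s : Matrix I4 I4 F), e, e', Units.val_mul]
    simp only [Matrix.mul_assoc]
  obtain ⟨c, hc⟩ := hF.comm S hcomm
  have htr : Matrix.trace S = 32 * Matrix.trace M := by
    rw [hS, Matrix.trace_sum]
    have : ∀ t : R, Matrix.trace (((t : GL I4 F) : Matrix I4 I4 F) * M * (((t : GL I4 F)⁻¹ : GL I4 F) : Matrix I4 I4 F)) = Matrix.trace M := by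
      intro t
      exact Matrix.trace_units_conj _ _
    simp only [this]
    rw [Finset.sum_const, Finset.card_univ, ← Nat.card_eq_fintype_card, hF.card]
    simp
  have htr2 : Matrix.trace S = 4 * c := by
    rw [hc, Matrix.trace_smul, Matrix.trace_one]
    simp
    ring
  have h4 := Pauli.four_ne h2
  have hc16 : c = 8 * Matrix.trace M := by
    apply mul_left_cancel₀ h4
    rw [← htr2, htr]
    ring
  rw [hc, hc16]

/-- An element of the group is scalar or has trace zero. -/
theorem trace_eq_zero (hF : Extra R a₀ b₀ c₀ d₀) (h2 : (2 : F) ≠ 0) {e : GL I4 F} (he : e ∈ R)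
    (hns : ∀ c : F, (e : Matrix I4 I4 F) ≠ c • 1) : Matrix.trace (e : Matrix I4 I4 F) = 0 := by
  obtain ⟨s, hs, hes⟩ : ∃ s ∈ R, (e : Matrix I4 I4 F) * s = -(s * e) := by
    by_contra hcon
    push Not at hcon
    obtain ⟨c, hc⟩ := hF.comm (e : Matrix I4 I4 F) (by
      intro s hs
      rcases hF.signs e he s hs with h1 | h1
      · exact h1
      · exact absurd h1 (hcon s hs))
    exact hns c hc
  have h1 : ((s⁻¹ : GL I4 F) : Matrix I4 I4 F) * s = 1 := by
    rw [← Units.val_mul, inv_mul_cancel, Units.val_one]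
  have h3 : Matrix.trace ((s : Matrix I4 I4 F) * (e : Matrix I4 I4 F) * ((s⁻¹ : GL I4 F) : Matrix I4 I4 F)) = Matrix.trace (e : Matrix I4 I4 F) :=
    Matrix.trace_units_conj _ _
  have h5 : (s : Matrix I4 I4 F) * (e : Matrix I4 I4 F) * ((s⁻¹ : GL I4 F) : Matrix I4 I4 F) = -(e : Matrix I4 I4 F) := by
    have : (s : Matrix I4 I4 F) * (e : Matrix I4 I4 F) = -((e : Matrix I4 I4 F) * s) := by
      rw [hes, neg_neg]
    rw [this, Matrix.neg_mul, Matrix.mul_assoc]
    have h6 : (s : Matrix I4 I4 F) * ((s⁻¹ : GL I4 F) : Matrix I4 I4 F) = 1 := by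
      rw [← Units.val_mul, mul_inv_cancel, Units.val_one]
    rw [h6, Matrix.mul_one]
  rw [h5, Matrix.trace_neg] at h3
  have h6 : (2 : F) * Matrix.trace (e : Matrix I4 I4 F) = 0 := by linear_combination -h3
  exact (mul_eq_zero.mp h6).resolve_left h2

/-- The commutator with an element of odd order is trivial when scalar. -/
theorem comm_of_scalar (hF : Extra R a₀ b₀ c₀ d₀) (h2 : (2 : F) ≠ 0) {y t : GL I4 F} (ht : t ∈ R)
    (hy : y ∈ Cfsg.Geo.subgroupNormalizer R) {m : ℕ} (hm : Odd m) (hym : y ^ m = 1) {c : F}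
    (hc : ((y * t * y⁻¹ * t⁻¹ : GL I4 F) : Matrix I4 I4 F) = c • 1) : y * t = t * y := by
  have he : y * t * y⁻¹ * t⁻¹ ∈ R := by
    have h1 : y * t * y⁻¹ ∈ R := (Subgroup.mem_normalizer_iff.mp hy t).mp ht
    exact R.mul_mem h1 (R.inv_mem ht)
  have hyt : (y : Matrix I4 I4 F) * t = c • ((t : Matrix I4 I4 F) * y) := by
    have e : y * t = (y * t * y⁻¹ * t⁻¹) * (t * y) := by group
    have h1 := congrArg (Units.val) e
    rw [Units.val_mul, Units.val_mul (y * t * y⁻¹ * t⁻¹), hc, Units.val_mul, Matrix.smul_mul, Matrix.one_mul] at h1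
    exact h1
  have hpow : ∀ k : ℕ, ((y ^ k : GL I4 F) : Matrix I4 I4 F) * t = c ^ k • ((t : Matrix I4 I4 F) * ((y ^ k : GL I4 F) : Matrix I4 I4 F)) := by
    intro k
    induction k with
    | zero => simp
    | succ k ih =>
      rw [pow_succ, Units.val_mul, Matrix.mul_assoc, hyt, Matrix.mul_smul, ← Matrix.mul_assoc, ih, Matrix.smul_mul, smul_smul, Matrix.mul_assoc, pow_succ]
      rw [mul_comm]
  have h1 := hpow m
  rw [hym, Units.val_one, Matrix.one_mul, Matrix.mul_one] at h1
  have htt : ((t⁻¹ : GL I4 F) : Matrix I4 I4 F) * t = 1 := by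
    rw [← Units.val_mul, inv_mul_cancel, Units.val_one]
  have hcm : c ^ m = 1 := by
    have h3 := congrArg (fun M => ((t⁻¹ : GL I4 F) : Matrix I4 I4 F) * M) h1
    simp only [Matrix.mul_smul, htt] at h3
    have h4 := congrFun (congrFun h3 (Sum.inl 0)) (Sum.inl 0)
    simpa using h4.symm
  have hcc : c * c = 1 ∨ c * c = -1 := by
    rcases hF.sq _ he with h3 | h3 <;> rw [hc] at h3 <;> have h4 := congrFun (congrFun h3 (Sum.inl 0)) (Sum.inl 0) <;> simp at h4
    · exact Or.inl h4
    · exact Or.inr h4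
  obtain ⟨l, rfl⟩ := hm
  have hc1 : c = 1 := by
    rw [pow_succ, pow_mul, pow_two] at hcm
    rcases hcc with h3 | h3
    · rw [h3, one_pow, one_mul] at hcm
      exact hcm
    · exfalso
      rw [h3] at hcm
      have h5 : c * c = 1 := by
        rcases neg_one_pow_eq_or F l with h6 | h6 <;> rw [h6] at hcm
        · rw [one_mul] at hcm
          rw [hcm, one_mul]
        · have : c = -1 := by linear_combination -hcm
          rw [this]
          ring
      rw [h5] at h3
      apply h2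
      linear_combination h3
  rw [hc1, one_smul] at hyt
  exact Units.ext hyt

/-- The trace formula. -/
theorem trace_formula (hF : Extra R a₀ b₀ c₀ d₀) (h2 : (2 : F) ≠ 0) {y : GL I4 F}
    (hy : y ∈ Cfsg.Geo.subgroupNormalizer R) {m : ℕ} (hm : Odd m) (hym : y ^ m = 1) :
    ((Nat.card ((Subgroup.centralizer ({y} : Set (GL I4 F))).subgroupOf R) : ℕ) : F) =
      2 * Matrix.trace (y : Matrix I4 I4 F) * Matrix.trace ((y⁻¹ : GL I4 F) : Matrix I4 I4 F) := by
  classical
  haveI := hF.fin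
  letI : Fintype R := Fintype.ofFinite _
  set C := (Subgroup.centralizer ({y} : Set (GL I4 F))).subgroupOf R with hC
  have hterm : ∀ t : R, Matrix.trace ((y : Matrix I4 I4 F) * (((t : GL I4 F) : Matrix I4 I4 F) * ((y⁻¹ : GL I4 F) : Matrix I4 I4 F) * (((t : GL I4 F)⁻¹ : GL I4 F) : Matrix I4 I4 F))) =
      if t ∈ C then 4 else 0 := by
    intro t
    have e : (y : Matrix I4 I4 F) * (((t : GL I4 F) : Matrix I4 I4 F) * ((y⁻¹ : GL I4 F) : Matrix I4 I4 F) * (((t : GL I4 F)⁻¹ : GL I4 F) : Matrix I4 I4 F)) =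
        ((y * t * y⁻¹ * (t : GL I4 F)⁻¹ : GL I4 F) : Matrix I4 I4 F) := by
      simp only [Units.val_mul, Matrix.mul_assoc]
    rw [e]
    split_ifs with htC
    · have h1 : t.1 * y = y * t.1 := Subgroup.mem_centralizer_singleton_iff.mp htC
      have h3 : y * t * y⁻¹ * (t : GL I4 F)⁻¹ = 1 := by
        rw [← h1]
        group
      rw [h3, Units.val_one, Matrix.trace_one]
      simp
    · apply hF.trace_eq_zero h2
      · have h1 : y * t * y⁻¹ ∈ R := (Subgroup.mem_normalizer_iff.mp hy t).mp t.2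
        exact R.mul_mem h1 (R.inv_mem t.2)
      · intro c hc
        apply htC
        have h3 := hF.comm_of_scalar h2 t.2 hy hm hym hc
        exact Subgroup.mem_centralizer_singleton_iff.mpr h3.symm
  have hsum : ∑ t : R, Matrix.trace ((y : Matrix I4 I4 F) * (((t : GL I4 F) : Matrix I4 I4 F) * ((y⁻¹ : GL I4 F) : Matrix I4 I4 F) * (((t : GL I4 F)⁻¹ : GL I4 F) : Matrix I4 I4 F))) =
      8 * Matrix.trace ((y⁻¹ : GL I4 F) : Matrix I4 I4 F) * Matrix.trace (y : Matrix I4 I4 F) := by
    rw [← Matrix.trace_sum, ← Finset.mul_sum, hF.twirl h2, Matrix.mul_smul, Matrix.mul_one, Matrix.trace_smul, smul_eq_mul]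
  simp only [hterm] at hsum
  have hcard : ∑ t : R, (if t ∈ C then (4 : F) else 0) = (Nat.card C : F) * 4 := by
    rw [Finset.sum_ite, Finset.sum_const, Finset.sum_const_zero, add_zero, nsmul_eq_mul]
    congr 2
    rw [Nat.card_eq_fintype_card, Fintype.card_subtype]
  rw [hcard] at hsum
  have h4 := Pauli.four_ne h2
  apply mul_right_cancel₀ h4
  rw [hsum]
  ring

theorem scalar_of_card (hF : Extra R a₀ b₀ c₀ d₀) {y : GL I4 F}
    (hc : Nat.card ((Subgroup.centralizer ({y} : Set (GL I4 F))).subgroupOf R) = 32) :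
    ∃ c : F, (y : Matrix I4 I4 F) = c • 1 := by
  haveI := hF.fin
  have htop : (Subgroup.centralizer ({y} : Set (GL I4 F))).subgroupOf R = ⊤ :=
    Subgroup.eq_top_of_card_eq _ (by rw [hc, hF.card])
  apply hF.comm
  intro s hs
  have h1 : (⟨s, hs⟩ : R) ∈ (Subgroup.centralizer ({y} : Set (GL I4 F))).subgroupOf R := by
    rw [htop]
    trivial
  have h3 : s * y = y * s := Subgroup.mem_centralizer_singleton_iff.mp h1
  exact (congrArg Units.val h3).symm

theorem card_cases (hF : Extra R a₀ b₀ c₀ d₀) (h2 : (2 : F) ≠ 0) {y : GL I4 F} :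
    Nat.card ((Subgroup.centralizer ({y} : Set (GL I4 F))).subgroupOf R) = 2 ∨
    Nat.card ((Subgroup.centralizer ({y} : Set (GL I4 F))).subgroupOf R) = 4 ∨
    Nat.card ((Subgroup.centralizer ({y} : Set (GL I4 F))).subgroupOf R) = 8 ∨
    Nat.card ((Subgroup.centralizer ({y} : Set (GL I4 F))).subgroupOf R) = 16 ∨
    Nat.card ((Subgroup.centralizer ({y} : Set (GL I4 F))).subgroupOf R) = 32 := by
  haveI := hF.fin
  set C := (Subgroup.centralizer ({y} : Set (GL I4 F))).subgroupOf R with hC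
  have hmC : (⟨-1, hF.mem_m⟩ : R) ∈ C := by
    rw [hC, Subgroup.mem_subgroupOf, Subgroup.mem_centralizer_singleton_iff]
    apply Units.ext
    simp
  have h32 : Nat.card C ∣ 2 ^ 5 := by
    have := C.card_subgroup_dvd_card
    rw [hF.card] at this
    simpa using this
  have h1 : Nat.card C ≠ 1 := by
    intro h
    have hb := Subgroup.eq_bot_of_card_eq C h
    rw [hb, Subgroup.mem_bot] at hmC
    have h3 : (-1 : GL I4 F) = 1 := congrArg Subtype.val hmC
    have h4 := congrArg Units.val h3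
    have h5 := congrFun (congrFun h4 (Sum.inl 0)) (Sum.inl 0)
    simp at h5
    apply h2
    linear_combination -h5
  obtain ⟨k, hk, hk'⟩ := (Nat.dvd_prime_pow Nat.prime_two).mp h32
  rw [hk'] at h1 ⊢
  interval_cases k <;> simp_all

theorem norm_conj {y : GL I4 F} (hy : y ∈ Cfsg.Geo.subgroupNormalizer R) {a : GL I4 F} (ha : a ∈ R) :
    y * a * y⁻¹ ∈ R := (Subgroup.mem_normalizer_iff.mp hy a).mp ha

theorem mem_norm_of_conj {R : Subgroup (GL I4 F)} (hfin : Finite R) {g : GL I4 F}
    (hg : ∀ h ∈ R, g * h * g⁻¹ ∈ R) : g ∈ Cfsg.Geo.subgroupNormalizer R := by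
  change g ∈ Subgroup.normalizer (R : Set (GL I4 F))
  rw [Subgroup.mem_normalizer_iff]
  intro h
  refine ⟨hg h, fun hh => ?_⟩
  let φ : R → R := fun x => ⟨g * x * g⁻¹, hg x x.2⟩
  have hφ : Function.Injective φ := by
    intro x y hxy
    have h1 : g * (x : GL I4 F) * g⁻¹ = g * (y : GL I4 F) * g⁻¹ := congrArg Subtype.val hxy
    exact Subtype.ext (by simpa using h1)
  obtain ⟨x, hx⟩ := Finite.surjective_of_injective hφ ⟨g * h * g⁻¹, hh⟩
  have h1 : g * (x : GL I4 F) * g⁻¹ = g * h * g⁻¹ := congrArg Subtype.val hx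
  have h2 : (x : GL I4 F) = h := by simpa using h1
  rw [← h2]
  exact x.2

theorem scalar_norm (hF : Extra R a₀ b₀ c₀ d₀) (s : GL I4 F) {c : F} (hs : (s : Matrix I4 I4 F) = c • 1) :
    s ∈ Cfsg.Geo.subgroupNormalizer R := by
  apply mem_norm_of_conj hF.fin
  intro y hy
  have : s * y * s⁻¹ = y := by
    rw [mul_inv_eq_iff_eq_mul]
    apply Units.ext
    simp only [Units.val_mul, hs]
    simp [Matrix.smul_mul, Matrix.mul_smul]
  rw [this]
  exact hy

theorem mem_norm_self (hF : Extra R a₀ b₀ c₀ d₀) {a : GL I4 F} (ha : a ∈ R) : a ∈ Cfsg.Geo.subgroupNormalizer R :=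
  mem_norm_of_conj hF.fin fun _ hy => R.mul_mem (R.mul_mem ha hy) (R.inv_mem ha)

end Extra

end Cfsg.Agent.Lib.TwoSix
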