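import Cfsg.Agent.Lib.TwoSix.Count

/-!
# Elements of the normalizer: orders and rank one elements
-/

set_option autoImplicit false

open scoped MatrixGroups Matrix
open Cfsg Module

namespace Cfsg.Agent.Lib.TwoSix

open Cfsg.Agent.S5998 (mat_of_vec basisGL sum_diagonal)

variable {F : Type*} [Field F]

namespace Pauli

variable {R : Subgroup (GL (Fin 4) F)} {i : F} {ι u v g h P : GL (Fin 4) F}

theorem norm_conj {y : GL (Fin 4) F} (hy : y ∈ Cfsg.Geo.subgroupNormalizer R) {a : GL (Fin 4) F} (ha : a ∈ R) :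
    y * a * y⁻¹ ∈ R := (Subgroup.mem_normalizer_iff.mp hy a).mp ha

/-- Elements of prime order other than `2, 3, 5` in the normalizer are scalar. -/
theorem scalar_of_norm (hF : Pauli R i ι u v g h P) (h2 : (2 : F) ≠ 0) {r : ℕ} [Fact r.Prime] (hr2 : r ≠ 2) (hr3 : r ≠ 3)
    (hr5 : r ≠ 5) {y : GL (Fin 4) F} (hy : y ∈ Cfsg.Geo.subgroupNormalizer R) (hyr : y ^ r = 1) :
    ∃ c : F, (y : Matrix (Fin 4) (Fin 4) F) = c • 1 := by
  classical
  haveI := hF.fin
  have hrp : r.Prime := Fact.out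
  set C := (Subgroup.centralizer ({y} : Set (GL (Fin 4) F))).subgroupOf R with hC
  have hmod : 64 ≡ Nat.card C [MOD r] := by
    have := count_mod (H := R) (y := y) (fun a ha => norm_conj hy ha) hyr
    rwa [hF.card] at this
  have hcases := hF.card_cases h2 (y := y)
  have hdvd : ∀ n, Nat.card C = n → n ≤ 64 → r ∣ 64 - n := by
    intro n hn hle
    rw [hn] at hmod
    exact (Nat.modEq_iff_dvd' hle).mp hmod.symm
  rcases hcases with h4 | h8 | h16 | h32 | h64
  · exfalso
    have h := hdvd 4 h4 (by norm_num)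
    have h' : r ∣ 2 ^ 2 * 3 * 5 := by simpa using h
    rcases (Nat.Prime.dvd_mul hrp).mp h' with h1 | h1
    · rcases (Nat.Prime.dvd_mul hrp).mp h1 with h3 | h3
      · exact hr2 ((Nat.prime_dvd_prime_iff_eq hrp Nat.prime_two).mp (hrp.dvd_of_dvd_pow h3))
      · exact hr3 ((Nat.prime_dvd_prime_iff_eq hrp Nat.prime_three).mp h3)
    · exact hr5 ((Nat.prime_dvd_prime_iff_eq hrp Nat.prime_five).mp h1)
  · exfalso
    have h := hdvd 8 h8 (by norm_num)
    have h' : r ∣ 2 ^ 3 * 7 := by simpa using h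
    have hr7 : r = 7 := by
      rcases (Nat.Prime.dvd_mul hrp).mp h' with h1 | h1
      · exact absurd ((Nat.prime_dvd_prime_iff_eq hrp Nat.prime_two).mp (hrp.dvd_of_dvd_pow h1)) hr2
      · exact (Nat.prime_dvd_prime_iff_eq hrp (by norm_num)).mp h1
    subst hr7
    -- an element of the centralizer outside the centre
    obtain ⟨c₀, hc₀C, hc₀⟩ : ∃ c₀ ∈ R, c₀ * y = y * c₀ ∧ ∀ k : ℕ, c₀ ≠ ι ^ k := by
      by_contra hcon
      push Not at hcon
      let ι' : R := ⟨ι, hF.mem_ι⟩
      have hle : C ≤ Subgroup.zpowers ι' := by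
        intro x hx
        have hx' : x.1 * y = y * x.1 := Subgroup.mem_centralizer_singleton_iff.mp hx
        obtain ⟨k, hk⟩ := hcon x.1 x.2 hx'
        refine ⟨k, Subtype.ext ?_⟩
        simpa using hk.symm
      have h3 := Subgroup.card_le_of_le hle
      have h5 : Nat.card (Subgroup.zpowers ι') ≤ 4 := by
        rw [Nat.card_zpowers]
        apply Nat.le_of_dvd (by norm_num)
        apply orderOf_dvd_of_pow_eq_one
        apply Subtype.ext
        simpa using hF.iota4
      rw [h8] at h3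
      omega
    obtain ⟨hc₀y, hc₀k⟩ := hc₀
    have hc₀ns : ∀ c : F, (c₀ : Matrix (Fin 4) (Fin 4) F) ≠ c • 1 := by
      intro c hc
      obtain ⟨k, hk⟩ := hF.scalar_pow hc₀C hc
      exact hc₀k k hk
    obtain ⟨s, hs, hes⟩ : ∃ s ∈ R, (c₀ : Matrix (Fin 4) (Fin 4) F) * s = -(s * c₀) := by
      by_contra hcon
      push Not at hcon
      obtain ⟨c, hc⟩ := hF.comm (c₀ : Matrix (Fin 4) (Fin 4) F) (by
        intro s hs
        rcases hF.signs c₀ hc₀C s hs with h1 | h1
        · exact h1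
        · exact absurd h1 (hcon s hs))
      exact hc₀ns c hc
    -- the centralizer of `c₀`
    set H₁ : Subgroup (GL (Fin 4) F) := R ⊓ Subgroup.centralizer ({c₀} : Set (GL (Fin 4) F)) with hH₁
    have hH₁mem : ∀ a, a ∈ H₁ ↔ a ∈ R ∧ (a : Matrix (Fin 4) (Fin 4) F) * c₀ = c₀ * a := by
      intro a
      rw [hH₁, Subgroup.mem_inf, Subgroup.mem_centralizer_singleton_iff]
      constructor
      · rintro ⟨h1, h3⟩
        exact ⟨h1, congrArg Units.val h3⟩
      · rintro ⟨h1, h3⟩
        exact ⟨h1, Units.ext h3⟩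
    let D : Subgroup R := H₁.subgroupOf R
    have hDidx : D.index = 2 := by
      apply Subgroup.index_eq_two_iff.mpr
      refine ⟨⟨s, hs⟩, ?_⟩
      rintro ⟨b, hb⟩
      have hmemD : ∀ x : R, x ∈ D ↔ (x.1 : Matrix (Fin 4) (Fin 4) F) * c₀ = c₀ * x.1 := by
        intro x
        rw [Subgroup.mem_subgroupOf, hH₁mem]
        exact ⟨fun h => h.2, fun h => ⟨x.2, h⟩⟩
      rw [hmemD, hmemD]
      have hbs : ((b * s : GL (Fin 4) F) : Matrix (Fin 4) (Fin 4) F) * c₀ = -((b : Matrix (Fin 4) (Fin 4) F) * c₀ * s) := by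
        have : (s : Matrix (Fin 4) (Fin 4) F) * c₀ = -((c₀ : Matrix (Fin 4) (Fin 4) F) * s) := by
          rw [hes, neg_neg]
        rw [Units.val_mul, Matrix.mul_assoc, this, Matrix.mul_neg, Matrix.mul_assoc]
      change Xor (((b * s : GL (Fin 4) F) : Matrix (Fin 4) (Fin 4) F) * c₀ = c₀ * ((b * s : GL (Fin 4) F) : Matrix (Fin 4) (Fin 4) F)) ((b : Matrix (Fin 4) (Fin 4) F) * c₀ = c₀ * b)
      rw [hbs]
      have hne : ∀ a : GL (Fin 4) F, (a : Matrix (Fin 4) (Fin 4) F) ≠ -a := fun a => neg_ne_self h2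
      rcases hF.signs b hb c₀ hc₀C with h1 | h1
      · right
        refine ⟨h1, fun h3 => ?_⟩
        rw [h1, Units.val_mul, Matrix.mul_assoc] at h3
        apply hne (c₀ * (b * s))
        rw [Units.val_mul, Units.val_mul]
        exact h3.symm
      · left
        constructor
        · rw [h1, Units.val_mul]
          simp only [Matrix.neg_mul, neg_neg, Matrix.mul_assoc]
        · intro h3
          rw [h1] at h3
          apply hne (c₀ * b)
          rw [Units.val_mul]
          exact h3.symm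
    have hDcard : Nat.card H₁ = 32 := by
      have h1 := Subgroup.card_mul_index D
      rw [hDidx, hF.card] at h1
      have h3 : Nat.card D = Nat.card H₁ := by
        have e : D = (H₁ ⊓ R).subgroupOf R := by
          ext x
          simp [D, Subgroup.mem_subgroupOf, x.2]
        have hle : H₁ ⊓ R = H₁ := inf_eq_left.mpr inf_le_left
        rw [e, hle]
        exact Nat.card_congr (Subgroup.subgroupOfEquivOfLe inf_le_left).toEquiv
      omega
    haveI : Finite H₁ := Finite.of_injective (fun x : H₁ => (⟨x.1, x.2.1⟩ : R))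
      (fun x y hxy => Subtype.ext (congrArg (fun a : R => (a : GL (Fin 4) F)) hxy))
    have hyc₀ : y * c₀ * y⁻¹ = c₀ := by
      rw [← hc₀y]
      group
    have hnormH : ∀ a ∈ H₁, y * a * y⁻¹ ∈ H₁ := by
      intro a ha
      refine ⟨norm_conj hy ha.1, ?_⟩
      change y * a * y⁻¹ ∈ Subgroup.centralizer ({c₀} : Set (GL (Fin 4) F))
      rw [Subgroup.mem_centralizer_singleton_iff]
      have h1 : a * c₀ = c₀ * a := Subgroup.mem_centralizer_singleton_iff.mp ha.2
      have h3 : y * a * y⁻¹ * (y * c₀ * y⁻¹) = y * c₀ * y⁻¹ * (y * a * y⁻¹) := by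
        calc y * a * y⁻¹ * (y * c₀ * y⁻¹) = y * (a * c₀) * y⁻¹ := by group
          _ = y * (c₀ * a) * y⁻¹ := by rw [h1]
          _ = _ := by group
      rwa [hyc₀] at h3
    have hmod2 := count_mod (H := H₁) (y := y) hnormH hyr
    rw [hDcard] at hmod2
    set E := (Subgroup.centralizer ({y} : Set (GL (Fin 4) F))).subgroupOf H₁ with hE
    have hEle : Nat.card E ≤ 8 := by
      rw [← h8]
      apply Nat.card_le_card_of_injective (fun x : E => (⟨⟨x.1.1, x.1.2.1⟩, x.2⟩ : C))
      intro x y hxy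
      apply Subtype.ext
      apply Subtype.ext
      have := congrArg (fun a : C => ((a : R) : GL (Fin 4) F)) hxy
      exact this
    have hEd : Nat.card E ∣ 2 ^ 5 := by
      have := E.card_subgroup_dvd_card
      rw [hDcard] at this
      simpa using this
    obtain ⟨k, hk, hk'⟩ := (Nat.dvd_prime_pow Nat.prime_two).mp hEd
    have hmemι : ι ∈ H₁ := by
      rw [hH₁mem]
      refine ⟨hF.mem_ι, ?_⟩
      rw [hF.hι]
      simp [Matrix.smul_mul, Matrix.mul_smul]
    have hιE : (⟨ι, hmemι⟩ : H₁) ∈ E := by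
      rw [hE, Subgroup.mem_subgroupOf, Subgroup.mem_centralizer_singleton_iff]
      apply Units.ext
      simp only [Units.val_mul, hF.hι]
      simp [Matrix.smul_mul, Matrix.mul_smul]
    have hmemc₀ : c₀ ∈ H₁ := by
      rw [hH₁mem]
      exact ⟨hc₀C, rfl⟩
    have hc₀E : (⟨c₀, hmemc₀⟩ : H₁) ∈ E := by
      rw [hE, Subgroup.mem_subgroupOf, Subgroup.mem_centralizer_singleton_iff]
      exact hc₀y
    have hEgt : 4 < Nat.card E := by
      by_contra hle
      push Not at hle
      let ι₂ : E := ⟨⟨ι, hmemι⟩, hιE⟩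
      have hord : Nat.card (Subgroup.zpowers ι₂) = 4 := by
        rw [Nat.card_zpowers]
        have h4 : ι₂ ^ 2 ^ (1 + 1) = 1 := by
          apply Subtype.ext
          apply Subtype.ext
          exact hF.iota4
        have h5 : ¬ ι₂ ^ 2 ^ 1 = 1 := by
          intro h
          apply hF.iota_ne h2
          have := congrArg (fun a : E => ((a : H₁) : GL (Fin 4) F)) h
          rw [pow_one, pow_two] at this
          exact this
        haveI : Fact (Nat.Prime 2) := ⟨Nat.prime_two⟩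
        have := orderOf_eq_prime_pow (p := 2) (n := 1) (x := ι₂) h5 h4
        rw [this]
        norm_num
      have h6 := Subgroup.card_le_card_group (Subgroup.zpowers ι₂)
      have htop : Subgroup.zpowers ι₂ = ⊤ := Subgroup.eq_top_of_card_eq _ (by omega)
      have h1 : (⟨⟨c₀, hmemc₀⟩, hc₀E⟩ : E) ∈ Subgroup.zpowers ι₂ := by
        rw [htop]
        trivial
      obtain ⟨n, hn⟩ := h1
      have h3 : c₀ = ι ^ n := by
        have := congrArg (fun a : E => ((a : H₁) : GL (Fin 4) F)) hn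
        simpa [ι₂] using this.symm
      obtain ⟨t, ht⟩ : ∃ t : ℕ, ι ^ n = ι ^ t := by
        refine ⟨(n % 4).toNat, ?_⟩
        have h5 : (n % 4) = ((n % 4).toNat : ℤ) := by
          have := Int.emod_nonneg n (by norm_num : (4 : ℤ) ≠ 0)
          omega
        have h6 : ι ^ n = ι ^ (n % 4) := by
          conv_lhs => rw [← Int.mul_ediv_add_emod n 4]
          rw [zpow_add, zpow_mul]
          have : ι ^ (4 : ℤ) = 1 := by
            have := hF.iota4
            exact_mod_cast this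
          rw [this, one_zpow, one_mul]
        rw [h6]
        nth_rewrite 1 [h5]
        exact zpow_natCast _ _
      exact hc₀k t (h3.trans ht)
    have hE8 : Nat.card E = 8 := by
      rw [hk'] at hEle hEgt ⊢
      interval_cases k <;> simp_all
    rw [hE8] at hmod2
    exact absurd hmod2 (by decide)
  · exfalso
    have h := hdvd 16 h16 (by norm_num)
    have h' : r ∣ 2 ^ 4 * 3 := by simpa using h
    rcases (Nat.Prime.dvd_mul hrp).mp h' with h1 | h1
    · exact hr2 ((Nat.prime_dvd_prime_iff_eq hrp Nat.prime_two).mp (hrp.dvd_of_dvd_pow h1))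
    · exact hr3 ((Nat.prime_dvd_prime_iff_eq hrp Nat.prime_three).mp h1)
  · exfalso
    have h := hdvd 32 h32 (by norm_num)
    have h' : r ∣ 2 ^ 5 := by simpa using h
    exact hr2 ((Nat.prime_dvd_prime_iff_eq hrp Nat.prime_two).mp (hrp.dvd_of_dvd_pow h'))
  · exact hF.scalar_of_card h64


/-- Two linear forms on a four dimensional space have a common zero. -/
theorem exists_common_zero (b b' : Fin 4 → F) : ∃ v : Fin 4 → F, v ≠ 0 ∧ b ⬝ᵥ v = 0 ∧ b' ⬝ᵥ v = 0 := by
  let A : Matrix (Fin 2) (Fin 4) F := Matrix.of ![b, b']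
  have h1 := LinearMap.finrank_range_add_finrank_ker A.mulVecLin
  have h3 : finrank F (LinearMap.range A.mulVecLin) ≤ 2 := by
    have := Submodule.finrank_le (LinearMap.range A.mulVecLin)
    simpa using this
  have h4 : finrank F (Fin 4 → F) = 4 := by simp
  rw [h4] at h1
  have h5 : LinearMap.ker A.mulVecLin ≠ ⊥ := by
    intro h
    rw [h, finrank_bot] at h1
    omega
  obtain ⟨v, hv, hv0⟩ := Submodule.exists_mem_ne_zero_of_ne_bot h5
  have hv' : A *ᵥ v = 0 := by simpa using hv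
  refine ⟨v, hv0, ?_, ?_⟩
  · exact congrFun hv' 0
  · exact congrFun hv' 1

/-- An element of the normalizer which is the identity plus a square zero matrix of rank one is scalar. -/
theorem scalar_of_rank_one (hF : Pauli R i ι u v g h P) (h2 : (2 : F) ≠ 0) {y : GL (Fin 4) F}
    (hy : y ∈ Cfsg.Geo.subgroupNormalizer R) {a b : Fin 4 → F}
    (hy1 : (y : Matrix (Fin 4) (Fin 4) F) = 1 + Matrix.vecMulVec a b)
    (hy2 : ((y⁻¹ : GL (Fin 4) F) : Matrix (Fin 4) (Fin 4) F) = 1 - Matrix.vecMulVec a b) :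
    ∃ c : F, (y : Matrix (Fin 4) (Fin 4) F) = c • 1 := by
  classical
  set N := Matrix.vecMulVec a b with hN
  have h2N : ∀ A : Matrix (Fin 4) (Fin 4) F, (2 : F) • A = 0 → A = 0 := by
    intro A hA
    exact (smul_eq_zero.mp hA).resolve_left h2
  have hyy : (y : Matrix (Fin 4) (Fin 4) F) * ((y⁻¹ : GL (Fin 4) F) : Matrix (Fin 4) (Fin 4) F) = 1 := by
    rw [← Units.val_mul, mul_inv_cancel, Units.val_one]
  have hNN : N * N = 0 := by
    rw [hy1, hy2] at hyy
    have : N * N = (1 : Matrix (Fin 4) (Fin 4) F) - (1 + N) * (1 - N) := by noncomm_ring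
    rw [this, hyy, sub_self]
  apply hF.comm
  intro t ht
  -- the commutator
  set Ti : Matrix (Fin 4) (Fin 4) F := ((t⁻¹ : GL (Fin 4) F) : Matrix (Fin 4) (Fin 4) F) with hTi
  set Tm : Matrix (Fin 4) (Fin 4) F := (t : Matrix (Fin 4) (Fin 4) F) with hTm
  have htt : Tm * Ti = 1 := by
    rw [hTm, hTi, ← Units.val_mul, mul_inv_cancel, Units.val_one]
  have htt' : Ti * Tm = 1 := by
    rw [hTm, hTi, ← Units.val_mul, inv_mul_cancel, Units.val_one]
  set M := Tm * N * Ti with hM
  have hMM : M * M = 0 := by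
    calc M * M = Tm * N * (Ti * Tm) * N * Ti := by rw [hM]; simp only [Matrix.mul_assoc]
      _ = Tm * (N * N) * Ti := by rw [htt']; simp only [Matrix.mul_one, Matrix.mul_assoc]
      _ = 0 := by rw [hNN]; simp
  set e : GL (Fin 4) F := y * t * y⁻¹ * t⁻¹ with he
  have heR : e ∈ R := R.mul_mem (norm_conj hy ht) (R.inv_mem ht)
  have hev : (e : Matrix (Fin 4) (Fin 4) F) = (1 + N) * (1 - M) := by
    rw [he, Units.val_mul, Units.val_mul, Units.val_mul, hy1, hy2]
    rw [hM]
    change (1 + N) * Tm * (1 - N) * Ti = _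
    have : Tm * (1 - N) * Ti = 1 - Tm * N * Ti := by
      rw [Matrix.mul_sub, Matrix.sub_mul, Matrix.mul_one, htt]
    rw [← this]
    simp only [Matrix.mul_assoc]
  -- a common vector
  obtain ⟨w, hw0, hw1, hw2⟩ := exists_common_zero b (Matrix.vecMul b Ti)
  have hNw : N *ᵥ w = 0 := by
    rw [hN, Matrix.vecMulVec_mulVec, hw1]
    simp
  have hMw : M *ᵥ w = 0 := by
    have h3 : Ti *ᵥ w = Ti *ᵥ w := rfl
    have h4 : N *ᵥ (Ti *ᵥ w) = 0 := by
      rw [hN, Matrix.vecMulVec_mulVec, Matrix.dotProduct_mulVec, hw2]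
      simp
    rw [hM, ← Matrix.mulVec_mulVec, ← Matrix.mulVec_mulVec, h4, Matrix.mulVec_zero]
  have hew : (e : Matrix (Fin 4) (Fin 4) F) *ᵥ w = w := by
    rw [hev, ← Matrix.mulVec_mulVec, Matrix.sub_mulVec, Matrix.one_mulVec, hMw, sub_zero, Matrix.add_mulVec,
      Matrix.one_mulVec, hNw, add_zero]
  have he1 : (e : Matrix (Fin 4) (Fin 4) F) * e = 1 := by
    rcases hF.sq_cases heR with h3 | h3
    · exact h3
    · exfalso
      have h4 : (e : Matrix (Fin 4) (Fin 4) F) *ᵥ ((e : Matrix (Fin 4) (Fin 4) F) *ᵥ w) = -w := by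
        rw [Matrix.mulVec_mulVec, h3, Matrix.neg_mulVec, Matrix.one_mulVec]
      rw [hew, hew] at h4
      apply hw0
      have h5 : (2 : F) • w = 0 := by
        rw [two_smul]
        nth_rewrite 1 [h4]
        simp
      exact (smul_eq_zero.mp h5).resolve_left h2
  -- expanding the square
  have h1N : (1 + N) * (1 - N) = 1 := by
    have : (1 + N) * (1 - N) = 1 - N * N := by noncomm_ring
    rw [this, hNN, sub_zero]
  have h1N' : (1 - N) * (1 + N) = 1 := by
    have : (1 - N) * (1 + N) = 1 - N * N := by noncomm_ring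
    rw [this, hNN, sub_zero]
  have h1M : (1 + M) * (1 - M) = 1 := by
    have : (1 + M) * (1 - M) = 1 - M * M := by noncomm_ring
    rw [this, hMM, sub_zero]
  have h1M' : (1 - M) * (1 + M) = 1 := by
    have : (1 - M) * (1 + M) = 1 - M * M := by noncomm_ring
    rw [this, hMM, sub_zero]
  rw [hev] at he1
  -- first form
  have e1 : (1 + N) * (1 - M) = (1 + M) * (1 - N) := by
    calc (1 + N) * (1 - M) = ((1 + N) * (1 - M)) * (((1 + N) * (1 - M)) * ((1 + M) * (1 - N))) := by
          have : ((1 + N) * (1 - M)) * ((1 + M) * (1 - N)) = 1 := by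
            calc ((1 + N) * (1 - M)) * ((1 + M) * (1 - N)) = (1 + N) * ((1 - M) * (1 + M)) * (1 - N) := by
                  simp only [Matrix.mul_assoc]
              _ = 1 := by rw [h1M', Matrix.mul_one, h1N]
          rw [this, Matrix.mul_one]
      _ = (((1 + N) * (1 - M)) * ((1 + N) * (1 - M))) * ((1 + M) * (1 - N)) := by
          simp only [Matrix.mul_assoc]
      _ = _ := by rw [he1, Matrix.one_mul]
  have e2 : (1 - M) * (1 + N) = (1 - N) * (1 + M) := by
    calc (1 - M) * (1 + N) = ((1 - N) * (1 + N)) * ((1 - M) * (1 + N)) * ((1 - M) * (1 + M)) := by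
          rw [h1N', h1M', Matrix.one_mul, Matrix.mul_one]
      _ = (1 - N) * (((1 + N) * (1 - M)) * ((1 + N) * (1 - M))) * (1 + M) := by
          simp only [Matrix.mul_assoc]
      _ = _ := by rw [he1, Matrix.mul_one]
  have hA : (2 : F) • (N - M) = N * M - M * N := by
    have h5 : (1 + N) * (1 - M) - (1 + M) * (1 - N) = ((2 : F) • (N - M)) - (N * M - M * N) := by
      rw [two_smul]
      noncomm_ring
    rw [e1, sub_self] at h5
    exact sub_eq_zero.mp h5.symm
  have hB : (2 : F) • (N - M) = M * N - N * M := by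
    have h5 : (1 - M) * (1 + N) - (1 - N) * (1 + M) = ((2 : F) • (N - M)) - (M * N - N * M) := by
      rw [two_smul]
      noncomm_ring
    rw [e2, sub_self] at h5
    exact sub_eq_zero.mp h5.symm
  have hC : (2 : F) • ((2 : F) • (N - M)) = 0 := by
    rw [two_smul (R := F) (x := (2 : F) • (N - M))]
    nth_rewrite 1 [hA]
    rw [hB]
    abel
  have hNM : N = M := by
    have h5 := h2N _ (h2N _ hC)
    exact sub_eq_zero.mp h5
  have hcomm : Tm * N = N * Tm := by
    calc Tm * N = Tm * N * (Ti * Tm) := by rw [htt', Matrix.mul_one]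
      _ = M * Tm := by rw [hM]; simp only [Matrix.mul_assoc]
      _ = N * Tm := by rw [← hNM]
  rw [hy1]
  change (1 + N) * Tm = Tm * (1 + N)
  rw [Matrix.add_mul, Matrix.mul_add, Matrix.one_mul, Matrix.mul_one, hcomm]

/-- Moving a diagonalizable matrix onto a model with the same eigenvalues by a matrix of determinant one. -/
theorem exists_conj_of_diag4 {X T : Matrix (Fin 4) (Fin 4) F} (b : Basis (Fin 4) F (Fin 4 → F)) (d : Fin 4 → F)
    (hb : ∀ i, X.mulVec (b i) = d i • b i) (P' : GL (Fin 4) F)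
    (hT : T * (P' : Matrix (Fin 4) (Fin 4) F) = (P' : Matrix (Fin 4) (Fin 4) F) * Matrix.diagonal d) :
    ∃ G : GL (Fin 4) F, (G : Matrix (Fin 4) (Fin 4) F).det = 1 ∧
      (G : Matrix (Fin 4) (Fin 4) F) * T = X * (G : Matrix (Fin 4) (Fin 4) F) := by
  classical
  let U := basisGL b
  have hU : X * (U : Matrix (Fin 4) (Fin 4) F) = (U : Matrix (Fin 4) (Fin 4) F) * Matrix.diagonal d := by
    apply mat_of_vec b X (Matrix.diagonal d)
    intro j
    rw [hb, sum_diagonal]
  have hUdet : (U : Matrix (Fin 4) (Fin 4) F).det ≠ 0 := (Matrix.GeneralLinearGroup.det U).ne_zero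
  have hPdet : ((P'⁻¹ : GL (Fin 4) F) : Matrix (Fin 4) (Fin 4) F).det ≠ 0 := (Matrix.GeneralLinearGroup.det P'⁻¹).ne_zero
  set c : F := ((U : Matrix (Fin 4) (Fin 4) F).det * ((P'⁻¹ : GL (Fin 4) F) : Matrix (Fin 4) (Fin 4) F).det)⁻¹ with hc
  have hc0 : c ≠ 0 := inv_ne_zero (mul_ne_zero hUdet hPdet)
  have hEdet : (Matrix.diagonal ![c, 1, 1, 1]).det = c := by
    rw [Matrix.det_diagonal, Fin.prod_univ_four]
    simp
  let E : GL (Fin 4) F := Matrix.GeneralLinearGroup.mkOfDetNeZero (Matrix.diagonal ![c, 1, 1, 1]) (by rw [hEdet]; exact hc0)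
  have hE : (E : Matrix (Fin 4) (Fin 4) F) = Matrix.diagonal ![c, 1, 1, 1] := rfl
  let G : GL (Fin 4) F := U * E * P'⁻¹
  have hG : (G : Matrix (Fin 4) (Fin 4) F) = (U : Matrix (Fin 4) (Fin 4) F) * E * ((P'⁻¹ : GL (Fin 4) F) : Matrix (Fin 4) (Fin 4) F) := rfl
  have hPP : ((P'⁻¹ : GL (Fin 4) F) : Matrix (Fin 4) (Fin 4) F) * (P' : Matrix (Fin 4) (Fin 4) F) = 1 := by
    rw [← Units.val_mul, inv_mul_cancel, Units.val_one]
  have hPP' : (P' : Matrix (Fin 4) (Fin 4) F) * ((P'⁻¹ : GL (Fin 4) F) : Matrix (Fin 4) (Fin 4) F) = 1 := by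
    rw [← Units.val_mul, mul_inv_cancel, Units.val_one]
  have hPT : ((P'⁻¹ : GL (Fin 4) F) : Matrix (Fin 4) (Fin 4) F) * T = Matrix.diagonal d * ((P'⁻¹ : GL (Fin 4) F) : Matrix (Fin 4) (Fin 4) F) := by
    calc ((P'⁻¹ : GL (Fin 4) F) : Matrix (Fin 4) (Fin 4) F) * T
        = ((P'⁻¹ : GL (Fin 4) F) : Matrix (Fin 4) (Fin 4) F) * (T * ((P' : Matrix (Fin 4) (Fin 4) F) * ((P'⁻¹ : GL (Fin 4) F) : Matrix (Fin 4) (Fin 4) F))) := by
          rw [hPP', Matrix.mul_one]
      _ = ((P'⁻¹ : GL (Fin 4) F) : Matrix (Fin 4) (Fin 4) F) * (T * (P' : Matrix (Fin 4) (Fin 4) F)) * ((P'⁻¹ : GL (Fin 4) F) : Matrix (Fin 4) (Fin 4) F) := by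
          simp only [Matrix.mul_assoc]
      _ = _ := by
          rw [hT, ← Matrix.mul_assoc, hPP, Matrix.one_mul]
  have hcomm : (E : Matrix (Fin 4) (Fin 4) F) * Matrix.diagonal d = Matrix.diagonal d * (E : Matrix (Fin 4) (Fin 4) F) := by
    rw [hE, Matrix.diagonal_mul_diagonal, Matrix.diagonal_mul_diagonal]
    congr 1
    ext i
    exact mul_comm _ _
  refine ⟨G, ?_, ?_⟩
  · rw [hG, Matrix.det_mul, Matrix.det_mul, hE, hEdet, hc]
    field_simp
  · rw [hG, Matrix.mul_assoc, Matrix.mul_assoc, hPT, ← Matrix.mul_assoc (E : Matrix (Fin 4) (Fin 4) F), hcomm]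
    simp only [Matrix.mul_assoc]
    rw [← Matrix.mul_assoc X, hU]
    simp only [Matrix.mul_assoc]

/-- Semisimple elements conjugate in `GL` are conjugate by a matrix of determinant one. -/
theorem conj_det_one {p : ℕ} [Fact p.Prime] [Fintype F] [CharP F p] {x T G : GL (Fin 4) F}
    (hord : (orderOf x).Coprime p) (hG : G * T = x * G) :
    ∃ g : GL (Fin 4) F, (g : Matrix (Fin 4) (Fin 4) F).det = 1 ∧ g⁻¹ * x * g = T := by
  classical
  have hd : (G : Matrix (Fin 4) (Fin 4) F).det ≠ 0 := (Matrix.GeneralLinearGroup.det G).ne_zero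
  obtain ⟨b, hb1, hb2⟩ := Cfsg.Agent.Lib.Classical.Herm.SSCent.exists_commuting_GL (K := F) (m := 4) (by norm_num)
    (x : Matrix (Fin 4) (Fin 4) F)
    ((Cfsg.Agent.Lib.Linalg.SemisimpleClasses.orderOf_coprime_iff p x).1 hord) (inv_ne_zero hd)
  refine ⟨b * G, ?_, ?_⟩
  · rw [Units.val_mul, Matrix.det_mul, hb2, inv_mul_cancel₀ hd]
  · have h1 : b * x = x * b := Units.ext hb1
    have h3 : (b * G)⁻¹ * x * (b * G) = G⁻¹ * (b⁻¹ * (x * b)) * G := by group
    rw [h3, ← h1]
    have h4 : G⁻¹ * (b⁻¹ * (b * x)) * G = G⁻¹ * (x * G) := by group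
    rw [h4, ← hG]
    group

end Pauli

end Cfsg.Agent.Lib.TwoSix
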