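import Cfsg.Agent.Lib.TwoSix.Count32

/-!
# Elements of the normalizer of a group of order `32`
-/

set_option autoImplicit false

open scoped MatrixGroups Matrix
open Cfsg Module

namespace Cfsg.Agent.Lib.TwoSix

variable {F : Type*} [Field F]

namespace Extra

variable {R : Subgroup (GL I4 F)} {a₀ b₀ c₀ d₀ : GL I4 F}

theorem one_ne_neg_one (h2 : (2 : F) ≠ 0) : (1 : GL I4 F) ≠ -1 := by
  intro h6
  have h4 : ((1 : GL I4 F) : Matrix I4 I4 F) = ((-1 : GL I4 F) : Matrix I4 I4 F) := congrArg Units.val h6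
  have h7 := congrFun (congrFun h4 (Sum.inl 0)) (Sum.inl 0)
  simp at h7
  apply h2
  linear_combination h7

theorem exists_anti (hF : Extra R a₀ b₀ c₀ d₀) {e : GL I4 F} (he : e ∈ R)
    (hns : ∀ c : F, (e : Matrix I4 I4 F) ≠ c • 1) : ∃ s ∈ R, (e : Matrix I4 I4 F) * s = -(s * e) := by
  by_contra hcon
  push Not at hcon
  obtain ⟨c, hc⟩ := hF.comm (e : Matrix I4 I4 F) (by
    intro s hs
    rcases hF.signs e he s hs with h1 | h1
    · exact h1
    · exact absurd h1 (hcon s hs))
  exact hns c hc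

/-- Elements of prime order other than `2, 3, 5` in the normalizer are scalar. -/
theorem scalar_of_norm (hF : Extra R a₀ b₀ c₀ d₀) (h2 : (2 : F) ≠ 0) {r : ℕ} [Fact r.Prime] (hr2 : r ≠ 2) (hr3 : r ≠ 3)
    (hr5 : r ≠ 5) {y : GL I4 F} (hy : y ∈ Cfsg.Geo.subgroupNormalizer R) (hyr : y ^ r = 1) :
    ∃ c : F, (y : Matrix I4 I4 F) = c • 1 := by
  classical
  haveI := hF.fin
  have hrp : r.Prime := Fact.out
  set C := (Subgroup.centralizer ({y} : Set (GL I4 F))).subgroupOf R with hC
  have hmod : 32 ≡ Nat.card C [MOD r] := by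
    have := count_mod' (H := R) (y := y) (fun a ha => norm_conj hy ha) hyr
    rwa [hF.card] at this
  have hcases := hF.card_cases h2 (y := y)
  have hdvd : ∀ n, Nat.card C = n → n ≤ 32 → r ∣ 32 - n := by
    intro n hn hle
    rw [hn] at hmod
    exact (Nat.modEq_iff_dvd' hle).mp hmod.symm
  rcases hcases with h4 | h8 | h16 | h32 | h64
  · exfalso
    have h := hdvd 2 h4 (by norm_num)
    have h' : r ∣ 2 * 3 * 5 := by simpa using h
    rcases (Nat.Prime.dvd_mul hrp).mp h' with h1 | h1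
    · rcases (Nat.Prime.dvd_mul hrp).mp h1 with h3 | h3
      · exact hr2 ((Nat.prime_dvd_prime_iff_eq hrp Nat.prime_two).mp h3)
      · exact hr3 ((Nat.prime_dvd_prime_iff_eq hrp Nat.prime_three).mp h3)
    · exact hr5 ((Nat.prime_dvd_prime_iff_eq hrp Nat.prime_five).mp h1)
  · exfalso
    have h := hdvd 4 h8 (by norm_num)
    have h' : r ∣ 2 ^ 2 * 7 := by simpa using h
    have hr7 : r = 7 := by
      rcases (Nat.Prime.dvd_mul hrp).mp h' with h1 | h1
      · exact absurd ((Nat.prime_dvd_prime_iff_eq hrp Nat.prime_two).mp (hrp.dvd_of_dvd_pow h1)) hr2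
      · exact (Nat.prime_dvd_prime_iff_eq hrp (by norm_num)).mp h1
    subst hr7
    -- an element of the centralizer outside the centre
    obtain ⟨c₀', hc₀C, hc₀y, hc₀ns⟩ : ∃ c₀' ∈ R, c₀' * y = y * c₀' ∧ ∀ c : F, (c₀' : Matrix I4 I4 F) ≠ c • 1 := by
      by_contra hcon
      push Not at hcon
      let ι' : R := ⟨-1, hF.mem_m⟩
      have hle : C ≤ Subgroup.zpowers ι' := by
        intro x hx
        have hx' : x.1 * y = y * x.1 := Subgroup.mem_centralizer_singleton_iff.mp hx
        obtain ⟨c, hc⟩ := hcon x.1 x.2 hx'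
        rcases hF.scal _ x.2 c hc with h1 | h1
        · refine ⟨0, Subtype.ext ?_⟩
          simpa using h1.symm
        · refine ⟨1, Subtype.ext ?_⟩
          simpa [ι'] using h1.symm
      have h3 := Subgroup.card_le_of_le hle
      have h5 : Nat.card (Subgroup.zpowers ι') ≤ 2 := by
        rw [Nat.card_zpowers]
        apply Nat.le_of_dvd (by norm_num)
        apply orderOf_dvd_of_pow_eq_one
        apply Subtype.ext
        simp [ι']
      rw [h8] at h3
      omega
    obtain ⟨s, hs, hes⟩ := hF.exists_anti hc₀C hc₀ns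
    -- the centralizer of `c₀'`
    set H₁ : Subgroup (GL I4 F) := R ⊓ Subgroup.centralizer ({c₀'} : Set (GL I4 F)) with hH₁
    have hH₁mem : ∀ a, a ∈ H₁ ↔ a ∈ R ∧ (a : Matrix I4 I4 F) * c₀' = c₀' * a := by
      intro a
      rw [hH₁, Subgroup.mem_inf, Subgroup.mem_centralizer_singleton_iff]
      constructor
      · rintro ⟨h1, h3⟩
        exact ⟨h1, congrArg Units.val h3⟩
      · rintro ⟨h1, h3⟩
        exact ⟨h1, Units.ext h3⟩
    let D : Subgroup R := H₁.subgroupOf R
    have hDidx : D.index = 2 := by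
      apply Subgroup.index_eq_two_iff.mpr
      refine ⟨⟨s, hs⟩, ?_⟩
      rintro ⟨b, hb⟩
      have hmemD : ∀ x : R, x ∈ D ↔ (x.1 : Matrix I4 I4 F) * c₀' = c₀' * x.1 := by
        intro x
        rw [Subgroup.mem_subgroupOf, hH₁mem]
        exact ⟨fun h => h.2, fun h => ⟨x.2, h⟩⟩
      rw [hmemD, hmemD]
      have hbs : ((b * s : GL I4 F) : Matrix I4 I4 F) * c₀' = -((b : Matrix I4 I4 F) * c₀' * s) := by
        have : (s : Matrix I4 I4 F) * c₀' = -((c₀' : Matrix I4 I4 F) * s) := by
          rw [hes, neg_neg]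
        rw [Units.val_mul, Matrix.mul_assoc, this, Matrix.mul_neg, Matrix.mul_assoc]
      change Xor (((b * s : GL I4 F) : Matrix I4 I4 F) * c₀' = c₀' * ((b * s : GL I4 F) : Matrix I4 I4 F)) ((b : Matrix I4 I4 F) * c₀' = c₀' * b)
      rw [hbs]
      have hne : ∀ a : GL I4 F, (a : Matrix I4 I4 F) ≠ -a := fun a => neg_ne_self h2
      rcases hF.signs b hb c₀' hc₀C with h1 | h1
      · right
        refine ⟨h1, fun h3 => ?_⟩
        rw [h1, Units.val_mul, Matrix.mul_assoc] at h3
        apply hne (c₀' * (b * s))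
        rw [Units.val_mul, Units.val_mul]
        exact h3.symm
      · left
        constructor
        · rw [h1, Units.val_mul]
          simp only [Matrix.neg_mul, neg_neg, Matrix.mul_assoc]
        · intro h3
          rw [h1] at h3
          apply hne (c₀' * b)
          rw [Units.val_mul]
          exact h3.symm
    have hDcard : Nat.card H₁ = 16 := by
      have h1 := Subgroup.card_mul_index D
      rw [hDidx, hF.card] at h1
      have h3 : Nat.card D = Nat.card H₁ := by
        have e : D = (H₁ ⊓ R).subgroupOf R := by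
          ext x
          simp [D, Subgroup.mem_subgroupOf, x.2]
        have hle : H₁ ⊓ R = H₁ := inf_eq_left.mpr inf_le_left
        rw [e, hle]
        exact Nat.card_congr (Subgroup.subgroupOfEquivOfLe inf_le_left).toEquiv
      omega
    haveI : Finite H₁ := Finite.of_injective (fun x : H₁ => (⟨x.1, x.2.1⟩ : R))
      (fun x y hxy => Subtype.ext (congrArg (fun a : R => (a : GL I4 F)) hxy))
    have hyc₀ : y * c₀' * y⁻¹ = c₀' := by
      rw [← hc₀y]
      group
    have hnormH : ∀ a ∈ H₁, y * a * y⁻¹ ∈ H₁ := by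
      intro a ha
      refine ⟨norm_conj hy ha.1, ?_⟩
      change y * a * y⁻¹ ∈ Subgroup.centralizer ({c₀'} : Set (GL I4 F))
      rw [Subgroup.mem_centralizer_singleton_iff]
      have h1 : a * c₀' = c₀' * a := Subgroup.mem_centralizer_singleton_iff.mp ha.2
      have h3 : y * a * y⁻¹ * (y * c₀' * y⁻¹) = y * c₀' * y⁻¹ * (y * a * y⁻¹) := by
        calc y * a * y⁻¹ * (y * c₀' * y⁻¹) = y * (a * c₀') * y⁻¹ := by group
          _ = y * (c₀' * a) * y⁻¹ := by rw [h1]
          _ = _ := by group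
      rwa [hyc₀] at h3
    have hmod2 := count_mod' (H := H₁) (y := y) hnormH hyr
    rw [hDcard] at hmod2
    set E := (Subgroup.centralizer ({y} : Set (GL I4 F))).subgroupOf H₁ with hE
    have hEle : Nat.card E ≤ 4 := by
      rw [← h8]
      apply Nat.card_le_card_of_injective (fun x : E => (⟨⟨x.1.1, x.1.2.1⟩, x.2⟩ : C))
      intro x y hxy
      apply Subtype.ext
      apply Subtype.ext
      have := congrArg (fun a : C => ((a : R) : GL I4 F)) hxy
      exact this
    have hEd : Nat.card E ∣ 2 ^ 4 := by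
      have := E.card_subgroup_dvd_card
      rw [hDcard] at this
      simpa using this
    obtain ⟨k, hk, hk'⟩ := (Nat.dvd_prime_pow Nat.prime_two).mp hEd
    have hmemι : (-1 : GL I4 F) ∈ H₁ := by
      rw [hH₁mem]
      refine ⟨hF.mem_m, ?_⟩
      simp
    have hιE : (⟨-1, hmemι⟩ : H₁) ∈ E := by
      rw [hE, Subgroup.mem_subgroupOf, Subgroup.mem_centralizer_singleton_iff]
      apply Units.ext
      simp
    have hmemc₀ : c₀' ∈ H₁ := by
      rw [hH₁mem]
      exact ⟨hc₀C, rfl⟩
    have hc₀E : (⟨c₀', hmemc₀⟩ : H₁) ∈ E := by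
      rw [hE, Subgroup.mem_subgroupOf, Subgroup.mem_centralizer_singleton_iff]
      exact hc₀y
    have hEgt : 2 < Nat.card E := by
      by_contra hle
      push Not at hle
      have hset : ({⟨⟨-1, hmemι⟩, hιE⟩, 1, ⟨⟨c₀', hmemc₀⟩, hc₀E⟩} : Finset E).card = 3 := by
        rw [Finset.card_eq_three]
        refine ⟨_, _, _, ?_, ?_, ?_, rfl⟩
        · intro h
          have h5 := congrArg (fun a : E => ((a : H₁) : GL I4 F)) h
          have h6 : (-1 : GL I4 F) = 1 := h5
          exact one_ne_neg_one h2 h6.symm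
        · intro h
          have h5 := congrArg (fun a : E => ((a : H₁) : GL I4 F)) h
          have h6 : (-1 : GL I4 F) = c₀' := h5
          apply hc₀ns (-1)
          rw [← h6]
          simp
        · intro h
          have h5 := congrArg (fun a : E => ((a : H₁) : GL I4 F)) h
          have h6 : (1 : GL I4 F) = c₀' := h5
          apply hc₀ns 1
          rw [← h6]
          simp
      haveI : Fintype E := Fintype.ofFinite _
      have h5 := Finset.card_le_univ ({⟨⟨-1, hmemι⟩, hιE⟩, 1, ⟨⟨c₀', hmemc₀⟩, hc₀E⟩} : Finset E)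
      rw [hset, ← Nat.card_eq_fintype_card] at h5
      omega
    have hE8 : Nat.card E = 4 := by
      rw [hk'] at hEle hEgt ⊢
      interval_cases k <;> simp_all
    rw [hE8] at hmod2
    exact absurd hmod2 (by decide)
  · exfalso
    have h := hdvd 8 h16 (by norm_num)
    have h' : r ∣ 2 ^ 3 * 3 := by simpa using h
    rcases (Nat.Prime.dvd_mul hrp).mp h' with h1 | h1
    · exact hr2 ((Nat.prime_dvd_prime_iff_eq hrp Nat.prime_two).mp (hrp.dvd_of_dvd_pow h1))
    · exact hr3 ((Nat.prime_dvd_prime_iff_eq hrp Nat.prime_three).mp h1)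
  · exfalso
    have h := hdvd 16 h32 (by norm_num)
    have h' : r ∣ 2 ^ 4 := by simpa using h
    exact hr2 ((Nat.prime_dvd_prime_iff_eq hrp Nat.prime_two).mp (hrp.dvd_of_dvd_pow h'))
  · exact hF.scalar_of_card h64

/-- Two linear forms on a four dimensional space have a common zero. -/
theorem exists_common_zero (b b' : I4 → F) : ∃ v : I4 → F, v ≠ 0 ∧ b ⬝ᵥ v = 0 ∧ b' ⬝ᵥ v = 0 := by
  let A : Matrix (Fin 2) I4 F := Matrix.of ![b, b']
  have h1 := LinearMap.finrank_range_add_finrank_ker A.mulVecLin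
  have h3 : finrank F (LinearMap.range A.mulVecLin) ≤ 2 := by
    have := Submodule.finrank_le (LinearMap.range A.mulVecLin)
    simpa using this
  have h4 : finrank F (I4 → F) = 4 := by simp
  rw [h4] at h1
  have h5 : LinearMap.ker A.mulVecLin ≠ ⊥ := by
    intro h
    rw [h, finrank_bot] at h1
    omega
  obtain ⟨v, hv, hv0⟩ := Submodule.exists_mem_ne_zero_of_ne_bot h5
  have hv' : A *ᵥ v = 0 := by simpa using hv
  refine ⟨v, hv0, ?_, ?_⟩
  · exact congrFun hv' 0
  · exact congrFun hv' 1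

/-- An element of the normalizer which is the identity plus a square zero matrix of rank one is scalar. -/
theorem scalar_of_rank_one (hF : Extra R a₀ b₀ c₀ d₀) (h2 : (2 : F) ≠ 0) {y : GL I4 F}
    (hy : y ∈ Cfsg.Geo.subgroupNormalizer R) {a b : I4 → F}
    (hy1 : (y : Matrix I4 I4 F) = 1 + Matrix.vecMulVec a b)
    (hy2 : ((y⁻¹ : GL I4 F) : Matrix I4 I4 F) = 1 - Matrix.vecMulVec a b) :
    ∃ c : F, (y : Matrix I4 I4 F) = c • 1 := by
  classical
  set N := Matrix.vecMulVec a b with hN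
  have h2N : ∀ A : Matrix I4 I4 F, (2 : F) • A = 0 → A = 0 := by
    intro A hA
    exact (smul_eq_zero.mp hA).resolve_left h2
  have hyy : (y : Matrix I4 I4 F) * ((y⁻¹ : GL I4 F) : Matrix I4 I4 F) = 1 := by
    rw [← Units.val_mul, mul_inv_cancel, Units.val_one]
  have hNN : N * N = 0 := by
    rw [hy1, hy2] at hyy
    have : N * N = (1 : Matrix I4 I4 F) - (1 + N) * (1 - N) := by noncomm_ring
    rw [this, hyy, sub_self]
  apply hF.comm
  intro t ht
  -- the commutator
  set Ti : Matrix I4 I4 F := ((t⁻¹ : GL I4 F) : Matrix I4 I4 F) with hTi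
  set Tm : Matrix I4 I4 F := (t : Matrix I4 I4 F) with hTm
  have htt : Tm * Ti = 1 := by
    rw [hTm, hTi, ← Units.val_mul, mul_inv_cancel, Units.val_one]
  have htt' : Ti * Tm = 1 := by
    rw [hTm, hTi, ← Units.val_mul, inv_mul_cancel, Units.val_one]
  set M := Tm * N * Ti with hM
  have hMM : M * M = 0 := by
    calc M * M = Tm * N * (Ti * Tm) * N * Ti := by rw [hM]; simp only [Matrix.mul_assoc]
      _ = Tm * (N * N) * Ti := by rw [htt']; simp only [Matrix.mul_one, Matrix.mul_assoc]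
      _ = 0 := by rw [hNN]; simp
  set e : GL I4 F := y * t * y⁻¹ * t⁻¹ with he
  have heR : e ∈ R := R.mul_mem (norm_conj hy ht) (R.inv_mem ht)
  have hev : (e : Matrix I4 I4 F) = (1 + N) * (1 - M) := by
    rw [he, Units.val_mul, Units.val_mul, Units.val_mul, hy1, hy2]
    rw [hM]
    change (1 + N) * Tm * (1 - N) * Ti = _
    have : Tm * (1 - N) * Ti = 1 - Tm * N * Ti := by
      rw [Matrix.mul_sub, Matrix.sub_mul, Matrix.mul_one, htt]
    rw [← this]
    simp only [Matrix.mul_assoc]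
  -- a common vector
  obtain ⟨w, hw0, hw1, hw2⟩ := exists_common_zero b (Matrix.vecMul b Ti)
  have hNw : N *ᵥ w = 0 := by
    rw [hN, Matrix.vecMulVec_mulVec, hw1]
    simp
  have hMw : M *ᵥ w = 0 := by
    have h3 : Ti *ᵥ w = Ti *ᵥ w := rfl
    have h4 : N *ᵥ (Ti *ᵥ w) = 0 := by
      rw [hN, Matrix.vecMulVec_mulVec, Matrix.dotProduct_mulVec, hw2]
      simp
    rw [hM, ← Matrix.mulVec_mulVec, ← Matrix.mulVec_mulVec, h4, Matrix.mulVec_zero]
  have hew : (e : Matrix I4 I4 F) *ᵥ w = w := by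
    rw [hev, ← Matrix.mulVec_mulVec, Matrix.sub_mulVec, Matrix.one_mulVec, hMw, sub_zero, Matrix.add_mulVec,
      Matrix.one_mulVec, hNw, add_zero]
  have he1 : (e : Matrix I4 I4 F) * e = 1 := by
    rcases hF.sq _ heR with h3 | h3
    · exact h3
    · exfalso
      have h4 : (e : Matrix I4 I4 F) *ᵥ ((e : Matrix I4 I4 F) *ᵥ w) = -w := by
        rw [Matrix.mulVec_mulVec, h3, Matrix.neg_mulVec, Matrix.one_mulVec]
      rw [hew, hew] at h4
      apply hw0
      have h5 : (2 : F) • w = 0 := by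
        rw [two_smul]
        nth_rewrite 1 [h4]
        simp
      exact (smul_eq_zero.mp h5).resolve_left h2
  -- expanding the square
  have h1N : (1 + N) * (1 - N) = 1 := by
    have : (1 + N) * (1 - N) = 1 - N * N := by noncomm_ring
    rw [this, hNN, sub_zero]
  have h1N' : (1 - N) * (1 + N) = 1 := by
    have : (1 - N) * (1 + N) = 1 - N * N := by noncomm_ring
    rw [this, hNN, sub_zero]
  have h1M : (1 + M) * (1 - M) = 1 := by
    have : (1 + M) * (1 - M) = 1 - M * M := by noncomm_ring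
    rw [this, hMM, sub_zero]
  have h1M' : (1 - M) * (1 + M) = 1 := by
    have : (1 - M) * (1 + M) = 1 - M * M := by noncomm_ring
    rw [this, hMM, sub_zero]
  rw [hev] at he1
  -- first form
  have e1 : (1 + N) * (1 - M) = (1 + M) * (1 - N) := by
    calc (1 + N) * (1 - M) = ((1 + N) * (1 - M)) * (((1 + N) * (1 - M)) * ((1 + M) * (1 - N))) := by
          have : ((1 + N) * (1 - M)) * ((1 + M) * (1 - N)) = 1 := by
            calc ((1 + N) * (1 - M)) * ((1 + M) * (1 - N)) = (1 + N) * ((1 - M) * (1 + M)) * (1 - N) := by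
                  simp only [Matrix.mul_assoc]
              _ = 1 := by rw [h1M', Matrix.mul_one, h1N]
          rw [this, Matrix.mul_one]
      _ = (((1 + N) * (1 - M)) * ((1 + N) * (1 - M))) * ((1 + M) * (1 - N)) := by
          simp only [Matrix.mul_assoc]
      _ = _ := by rw [he1, Matrix.one_mul]
  have e2 : (1 - M) * (1 + N) = (1 - N) * (1 + M) := by
    calc (1 - M) * (1 + N) = ((1 - N) * (1 + N)) * ((1 - M) * (1 + N)) * ((1 - M) * (1 + M)) := by
          rw [h1N', h1M', Matrix.one_mul, Matrix.mul_one]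
      _ = (1 - N) * (((1 + N) * (1 - M)) * ((1 + N) * (1 - M))) * (1 + M) := by
          simp only [Matrix.mul_assoc]
      _ = _ := by rw [he1, Matrix.mul_one]
  have hA : (2 : F) • (N - M) = N * M - M * N := by
    have h5 : (1 + N) * (1 - M) - (1 + M) * (1 - N) = ((2 : F) • (N - M)) - (N * M - M * N) := by
      rw [two_smul]
      noncomm_ring
    rw [e1, sub_self] at h5
    exact sub_eq_zero.mp h5.symm
  have hB : (2 : F) • (N - M) = M * N - N * M := by
    have h5 : (1 - M) * (1 + N) - (1 - N) * (1 + M) = ((2 : F) • (N - M)) - (M * N - N * M) := by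
      rw [two_smul]
      noncomm_ring
    rw [e2, sub_self] at h5
    exact sub_eq_zero.mp h5.symm
  have hC : (2 : F) • ((2 : F) • (N - M)) = 0 := by
    rw [two_smul (R := F) (x := (2 : F) • (N - M))]
    nth_rewrite 1 [hA]
    rw [hB]
    abel
  have hNM : N = M := by
    have h5 := h2N _ (h2N _ hC)
    exact sub_eq_zero.mp h5
  have hcomm : Tm * N = N * Tm := by
    calc Tm * N = Tm * N * (Ti * Tm) := by rw [htt', Matrix.mul_one]
      _ = M * Tm := by rw [hM]; simp only [Matrix.mul_assoc]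
      _ = N * Tm := by rw [← hNM]
  rw [hy1]
  change (1 + N) * Tm = Tm * (1 + N)
  rw [Matrix.add_mul, Matrix.mul_add, Matrix.one_mul, Matrix.mul_one, hcomm]


/-- An independent pair of commuting involutions does not exist. -/
theorem not_elem (hF : Extra R a₀ b₀ c₀ d₀) (h2 : (2 : F) ≠ 0) {u v : GL I4 F} (hu : u ∈ R) (hv : v ∈ R)
    (huv : u * v = v * u) (huu : u * u = 1) (hvv : v * v = 1)
    (hun : ∀ c : F, (u : Matrix I4 I4 F) ≠ c • 1) (hvn : ∀ c : F, (v : Matrix I4 I4 F) ≠ c • 1)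
    (huvn : ∀ c : F, ((u * v : GL I4 F) : Matrix I4 I4 F) ≠ c • 1) : False := by
  classical
  haveI := hF.fin
  let J' : R := ⟨-1, hF.mem_m⟩
  let u' : R := ⟨u, hu⟩
  let v' : R := ⟨v, hv⟩
  have hJ1 : J' ≠ 1 := by
    intro h
    have h6 : (-1 : GL I4 F) = 1 := congrArg Subtype.val h
    exact one_ne_neg_one h2 h6.symm
  have hJc : ∀ x : R, J' * x = x * J' := by
    intro x
    apply Subtype.ext
    apply Units.ext
    simp [J']
  let S : Set R := {J', u', v'}
  have hu'v' : u' * v' = v' * u' := Subtype.ext huv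
  have hScomm : ∀ x ∈ S, ∀ y ∈ S, x * y = y * x := by
    rintro x (rfl | rfl | rfl) y (rfl | rfl | rfl)
    · rfl
    · exact hJc _
    · exact hJc _
    · exact (hJc _).symm
    · rfl
    · exact hu'v'
    · exact (hJc _).symm
    · exact hu'v'.symm
    · rfl
  have hAc : IsMulCommutative (Subgroup.closure S) := Subgroup.isMulCommutative_closure hScomm
  have hAsq : ∀ w ∈ Subgroup.closure S, w * w = 1 := by
    intro w hw
    induction hw using Subgroup.closure_induction with
    | mem x hx =>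
      rcases hx with rfl | rfl | rfl
      · apply Subtype.ext
        apply Units.ext
        simp [J']
      · exact Subtype.ext huu
      · exact Subtype.ext hvv
    | one => simp
    | mul x y hx hy hx' hy' =>
      have h1 : x * y = y * x := congrArg Subtype.val (hAc.is_comm.comm ⟨x, hx⟩ ⟨y, hy⟩)
      have h3 : x * y * (x * y) = x * (y * x) * y := by group
      rw [h3, ← h1]
      have h4 : x * (x * y) * y = (x * x) * (y * y) := by group
      rw [h4, hx', hy', one_mul]
    | inv x hx hx' =>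
      have h1 : x⁻¹ * x⁻¹ = (x * x)⁻¹ := by group
      rw [h1, hx', inv_one]
  have hlt := hF.minus _ hAc hAsq
  have hJS : J' ∈ Subgroup.closure S := Subgroup.subset_closure (Or.inl rfl)
  have huS : u' ∈ Subgroup.closure S := Subgroup.subset_closure (Or.inr (Or.inl rfl))
  have hvS : v' ∈ Subgroup.closure S := Subgroup.subset_closure (Or.inr (Or.inr rfl))
  obtain ⟨s₁, hs₁, hus₁⟩ := hF.exists_anti hu hun
  -- the second element
  obtain ⟨w, hwS, hwn, hws₁⟩ : ∃ w ∈ Subgroup.closure S, (∀ c : F, ((w : GL I4 F) : Matrix I4 I4 F) ≠ c • 1) ∧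
      ((w : GL I4 F) : Matrix I4 I4 F) * s₁ = s₁ * (w : GL I4 F) := by
    rcases hF.signs v hv s₁ hs₁ with h1 | h1
    · exact ⟨v', hvS, hvn, h1⟩
    · refine ⟨u' * v', Subgroup.mul_mem _ huS hvS, huvn, ?_⟩
      change ((u * v : GL I4 F) : Matrix I4 I4 F) * s₁ = s₁ * ((u * v : GL I4 F) : Matrix I4 I4 F)
      rw [Units.val_mul, Matrix.mul_assoc, h1, Matrix.mul_neg, ← Matrix.mul_assoc, hus₁, Matrix.neg_mul, neg_neg, Matrix.mul_assoc]
  obtain ⟨s₂, hs₂, hws₂⟩ := hF.exists_anti w.2 hwn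
  have hmemC : ∀ (s : GL I4 F) (hs : s ∈ R) (x : R), x ∈ Subgroup.centralizer ({⟨s, hs⟩} : Set R) ↔
      ((x : GL I4 F) : Matrix I4 I4 F) * s = s * (x : GL I4 F) := by
    intro s hs x
    rw [Subgroup.mem_centralizer_singleton_iff]
    constructor
    · intro h
      have := congrArg (fun a : R => ((a : GL I4 F) : Matrix I4 I4 F)) h
      exact this
    · intro h
      exact Subtype.ext (Units.ext h)
  set K₁ : Subgroup R := Subgroup.closure S ⊓ Subgroup.centralizer ({⟨s₁, hs₁⟩} : Set R) with hK₁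
  set K₂ : Subgroup R := K₁ ⊓ Subgroup.centralizer ({⟨s₂, hs₂⟩} : Set R) with hK₂
  have hne : ∀ a : GL I4 F, (a : Matrix I4 I4 F) ≠ -a := fun a => neg_ne_self h2
  have hwK₁ : w ∈ K₁ := ⟨hwS, (hmemC s₁ hs₁ w).mpr hws₁⟩
  have huK₁ : u' ∉ K₁ := by
    intro h
    have h1 := (hmemC s₁ hs₁ u').mp h.2
    change (u : Matrix I4 I4 F) * s₁ = s₁ * u at h1
    rw [hus₁] at h1
    apply hne (s₁ * u)
    rw [Units.val_mul]
    exact h1.symm
  have hwK₂ : w ∉ K₂ := by
    intro h
    have h1 := (hmemC s₂ hs₂ w).mp h.2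
    rw [hws₂] at h1
    apply hne (s₂ * w)
    rw [Units.val_mul]
    exact h1.symm
  have hJK₁ : J' ∈ K₁ := by
    refine ⟨hJS, (hmemC s₁ hs₁ J').mpr ?_⟩
    simp [J']
  have hJK₂ : J' ∈ K₂ := by
    refine ⟨hJK₁, (hmemC s₂ hs₂ J').mpr ?_⟩
    simp [J']
  have h1 := Struct.card_double (G := R) (bot_le : (⊥ : Subgroup R) ≤ K₂) hJK₂ (by simpa using hJ1)
  have h3 : 2 * Nat.card K₂ ≤ Nat.card K₁ := Struct.card_double (G := R) (inf_le_left : K₂ ≤ K₁) hwK₁ hwK₂
  have h4 : 2 * Nat.card K₁ ≤ Nat.card (Subgroup.closure S) := Struct.card_double (G := R) (inf_le_left : K₁ ≤ Subgroup.closure S) huS huK₁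
  rw [Subgroup.card_bot] at h1
  omega

theorem haa' (hF : Extra R a₀ b₀ c₀ d₀) : a₀ * a₀ = 1 := Units.ext hF.haa

theorem a_ns (hF : Extra R a₀ b₀ c₀ d₀) (h2 : (2 : F) ≠ 0) : ∀ c : F, (a₀ : Matrix I4 I4 F) ≠ c • 1 := by
  intro c hc
  have h1 := hF.hab
  rw [hc] at h1
  simp only [Matrix.smul_mul, Matrix.mul_smul, Matrix.one_mul, Matrix.mul_one] at h1
  apply neg_ne_self h2 (a := a₀ * b₀)
  rw [Units.val_mul, hc]
  simp only [Matrix.smul_mul, Matrix.one_mul]
  exact h1

/-- An element of order three cannot act without fixed points on the group. -/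
theorem not_fpf_three (hF : Extra R a₀ b₀ c₀ d₀) (h2 : (2 : F) ≠ 0) {y : GL I4 F}
    (hy : y ∈ Cfsg.Geo.subgroupNormalizer R) (hy3 : y ^ 3 = 1)
    (hC : Nat.card ((Subgroup.centralizer ({y} : Set (GL I4 F))).subgroupOf R) = 2) : False := by
  classical
  haveI := hF.fin
  have hcent : ∀ t ∈ R, y * t = t * y → t = 1 ∨ t = -1 := by
    intro t ht hyt
    set C := (Subgroup.centralizer ({y} : Set (GL I4 F))).subgroupOf R with hCdef
    have hmC : ∀ t' (ht' : t' ∈ R), y * t' = t' * y → (⟨t', ht'⟩ : R) ∈ C := by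
      intro t' ht' h
      rw [hCdef, Subgroup.mem_subgroupOf, Subgroup.mem_centralizer_singleton_iff]
      exact h.symm
    obtain ⟨w, _, hw⟩ := (Nat.card_eq_two_iff' (1 : C)).mp hC
    by_cases h1 : t = 1
    · exact Or.inl h1
    right
    have e1 := hw ⟨⟨t, ht⟩, hmC t ht hyt⟩ (fun h => h1 (congrArg (fun a : C => ((a : R) : GL I4 F)) h))
    have hm : y * (-1 : GL I4 F) = -1 * y := by
      apply Units.ext
      simp
    have e2 := hw ⟨⟨-1, hF.mem_m⟩, hmC _ hF.mem_m hm⟩ (fun h => one_ne_neg_one h2 (congrArg (fun a : C => ((a : R) : GL I4 F)) h).symm)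
    exact congrArg (fun a : C => ((a : R) : GL I4 F)) (e1.trans e2.symm)
  have hodd : Odd 3 := by decide
  set a := a₀ with ha
  have haR : a ∈ R := hF.mem_a
  have haa := hF.haa'
  set a' := y * a * y⁻¹ with ha'
  set a'' := y * a' * y⁻¹ with ha''
  have ha'R : a' ∈ R := norm_conj hy haR
  have ha''R : a'' ∈ R := norm_conj hy ha'R
  have ha'a' : a' * a' = 1 := by
    calc a' * a' = y * (a * a) * y⁻¹ := by rw [ha']; group
      _ = 1 := by rw [haa]; group
  have ha''a'' : a'' * a'' = 1 := by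
    calc a'' * a'' = y * (a' * a') * y⁻¹ := by rw [ha'']; group
      _ = 1 := by rw [ha'a']; group
  have hy3' : y * y * y = 1 := by
    rw [← hy3]
    simp only [pow_succ, pow_zero, one_mul]
  have hya'' : y * a'' * y⁻¹ = a := by
    have e1 : y * a'' * y⁻¹ = (y * y * y) * a * (y * y * y)⁻¹ := by
      rw [ha'', ha']
      group
    rw [e1, hy3']
    group
  set w := a * a' * a'' with hw
  have hwR : w ∈ R := R.mul_mem (R.mul_mem haR ha'R) ha''R
  have hyw : y * w * y⁻¹ = a' * a'' * a := by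
    have e1 : y * w * y⁻¹ = (y * a * y⁻¹) * (y * a' * y⁻¹) * (y * a'' * y⁻¹) := by
      rw [hw]
      group
    rw [e1, hya'']
  have hwcomm : y * w = w * y := by
    have hwe : w = a * (a' * a'') := by
      rw [hw, mul_assoc]
    have hval : (w : Matrix I4 I4 F) = (a : Matrix I4 I4 F) * ((a' * a'' : GL I4 F) : Matrix I4 I4 F) := by
      rw [hwe, Units.val_mul]
    have hval' : ((y * w * y⁻¹ : GL I4 F) : Matrix I4 I4 F) = ((a' * a'' : GL I4 F) : Matrix I4 I4 F) * (a : Matrix I4 I4 F) := by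
      rw [hyw, Units.val_mul]
    rcases hF.signs (a' * a'') (R.mul_mem ha'R ha''R) a haR with h1 | h1
    · have e1 : y * w * y⁻¹ = w := by
        apply Units.ext
        rw [hval', h1, hval]
      calc y * w = (y * w * y⁻¹) * y := by group
        _ = w * y := by rw [e1]
    · have e1 : y * w * y⁻¹ = -w := by
        apply Units.ext
        rw [hval', h1, Units.val_neg, hval]
      have h4 : ((y * w * y⁻¹ * w⁻¹ : GL I4 F) : Matrix I4 I4 F) = (-1 : F) • 1 := by
        rw [e1, neg_mul, mul_inv_cancel]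
        simp
      exact hF.comm_of_scalar h2 hwR hy hodd hy3 h4
  -- `a''` is `± a' a`
  have hcomm1 : a' * a = a * a' := by
    have hsq : (a' * a) * (a' * a) = 1 := by
      have ha''e : a'' = (a * a')⁻¹ * w := by
        rw [hw]
        group
      have hainv : (a * a')⁻¹ = a' * a := by
        rw [mul_inv_rev, inv_eq_of_mul_eq_one_left ha'a', inv_eq_of_mul_eq_one_left haa]
      rw [hainv] at ha''e
      rcases hcent w hwR hwcomm with h1 | h1
      · rw [h1, mul_one] at ha''e
        rw [← ha''e]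
        exact ha''a''
      · rw [h1] at ha''e
        have e1 : a'' = -(a' * a) := by
          rw [ha''e]
          apply Units.ext
          simp
        have e2 : a'' * a'' = (a' * a) * (a' * a) := by
          rw [e1]
          apply Units.ext
          simp
        rw [← e2]
        exact ha''a''
    calc a' * a = (a' * a) * ((a' * a) * (a * a')) := by
          have e1 : (a' * a) * (a * a') = 1 := by
            calc (a' * a) * (a * a') = a' * (a * a) * a' := by group
              _ = 1 := by rw [haa, mul_one, ha'a']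
          rw [e1, mul_one]
      _ = ((a' * a) * (a' * a)) * (a * a') := by group
      _ = a * a' := by rw [hsq, one_mul]
  have han := hF.a_ns h2
  have ha'n : ∀ c : F, (a' : Matrix I4 I4 F) ≠ c • 1 := by
    intro c hc
    apply han c
    have e1 : a = y⁻¹ * a' * y := by
      rw [ha']
      group
    have hYY : ((y⁻¹ : GL I4 F) : Matrix I4 I4 F) * (y : GL I4 F) = 1 := by
      rw [← Units.val_mul, inv_mul_cancel, Units.val_one]
    rw [e1, Units.val_mul, Units.val_mul, hc]
    simp only [Matrix.smul_mul, Matrix.mul_smul, Matrix.mul_one, hYY]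
  have haa'n : ∀ c : F, ((a * a' : GL I4 F) : Matrix I4 I4 F) ≠ c • 1 := by
    intro c hc
    have h1 : ((y * a * y⁻¹ * a⁻¹ : GL I4 F) : Matrix I4 I4 F) = c • 1 := by
      have e1 : y * a * y⁻¹ * a⁻¹ = a * a' := by
        rw [← ha', inv_eq_of_mul_eq_one_left haa]
        exact hcomm1
      rw [e1, hc]
    have h3 := hF.comm_of_scalar h2 haR hy hodd hy3 h1
    rcases hcent a haR h3 with h4 | h4
    · apply han 1
      rw [h4]
      simp
    · apply han (-1)
      rw [h4]
      simp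
  exact hF.not_elem h2 haR ha'R hcomm1.symm haa ha'a' han ha'n haa'n

theorem scalar_of_three (hF : Extra R a₀ b₀ c₀ d₀) (h2 : (2 : F) ≠ 0) (h3 : (3 : F) ≠ 0) {y : GL I4 F}
    (hy : y ∈ Cfsg.Geo.subgroupNormalizer R) (hy3 : y ^ 3 = 1)
    (ht : Matrix.trace (y : Matrix I4 I4 F) * Matrix.trace ((y⁻¹ : GL I4 F) : Matrix I4 I4 F) = 1) :
    ∃ c : F, (y : Matrix I4 I4 F) = c • 1 := by
  haveI : Fact (Nat.Prime 3) := ⟨Nat.prime_three⟩
  haveI := hF.fin
  have hf := hF.trace_formula h2 hy (by decide : Odd 3) hy3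
  have hc := count_mod' (H := R) (y := y) (fun a ha => norm_conj hy ha) hy3
  rw [hF.card] at hc
  rw [mul_assoc, ht] at hf
  rcases hF.card_cases h2 (y := y) with h | h | h | h | h
  · exact (hF.not_fpf_three h2 hy hy3 h).elim
  · exfalso
    rw [h] at hc
    exact absurd hc (by decide)
  · exfalso
    rw [h] at hf
    apply mul_ne_zero h2 h3
    push_cast at hf
    linear_combination hf / 1
  · exfalso
    rw [h] at hc
    exact absurd hc (by decide)
  · exact hF.scalar_of_card h

theorem scalar_of_five (hF : Extra R a₀ b₀ c₀ d₀) (h2 : (2 : F) ≠ 0) (h5 : (5 : F) ≠ 0) {y : GL I4 F}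
    (hy : y ∈ Cfsg.Geo.subgroupNormalizer R) (hy5 : y ^ 5 = 1) {t : F} (hq : t * t + t - 1 = 0)
    (ht : Matrix.trace (y : Matrix I4 I4 F) * Matrix.trace ((y⁻¹ : GL I4 F) : Matrix I4 I4 F) = 3 * t + 5) :
    ∃ c : F, (y : Matrix I4 I4 F) = c • 1 := by
  haveI : Fact (Nat.Prime 5) := ⟨by norm_num⟩
  haveI := hF.fin
  have hf := hF.trace_formula h2 hy (by decide : Odd 5) hy5
  have hc := count_mod' (H := R) (y := y) (fun a ha => norm_conj hy ha) hy5
  rw [hF.card] at hc
  rw [mul_assoc, ht] at hf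
  rcases hF.card_cases h2 (y := y) with h | h | h | h | h
  · exfalso
    rw [h] at hf
    push_cast at hf
    have h1 : 3 * t + 4 = 0 := by
      apply mul_left_cancel₀ h2
      linear_combination -hf
    apply h5
    linear_combination (3 * t - 1) * h1 - 9 * hq
  · exfalso
    rw [h] at hc
    exact absurd hc (by decide)
  · exfalso
    rw [h] at hc
    exact absurd hc (by decide)
  · exfalso
    rw [h] at hc
    exact absurd hc (by decide)
  · exact hF.scalar_of_card h

theorem trace_conj (g x : GL I4 F) :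
    Matrix.trace ((g⁻¹ * x * g : GL I4 F) : Matrix I4 I4 F) = Matrix.trace (x : Matrix I4 I4 F) := by
  have hGG : (g : Matrix I4 I4 F) * ((g⁻¹ : GL I4 F) : Matrix I4 I4 F) = 1 := by
    rw [← Units.val_mul, mul_inv_cancel, Units.val_one]
  rw [Units.val_mul, Units.val_mul, Matrix.trace_mul_comm, ← Matrix.mul_assoc, hGG, Matrix.one_mul]

theorem trace_conj_inv (g x : GL I4 F) :
    Matrix.trace (((g⁻¹ * x * g)⁻¹ : GL I4 F) : Matrix I4 I4 F) = Matrix.trace ((x⁻¹ : GL I4 F) : Matrix I4 I4 F) := by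
  have e : (g⁻¹ * x * g)⁻¹ = g⁻¹ * x⁻¹ * g := by group
  rw [e, trace_conj]

theorem conj_pow_eq_one (g x : GL I4 F) {n : ℕ} (hx : x ^ n = 1) : (g⁻¹ * x * g) ^ n = 1 := by
  have := conj_pow (a := g⁻¹) (b := x) (i := n)
  rw [inv_inv] at this
  rw [this, hx]
  simp

theorem scalar_of_conj {g x : GL I4 F} {c : F} (h : ((g⁻¹ * x * g : GL I4 F) : Matrix I4 I4 F) = c • 1) :
    (x : Matrix I4 I4 F) = c • 1 := by
  have e : x = g * (g⁻¹ * x * g) * g⁻¹ := by group
  have hgg : (g : Matrix I4 I4 F) * ((g⁻¹ : GL I4 F) : Matrix I4 I4 F) = 1 := by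
    rw [← Units.val_mul, mul_inv_cancel, Units.val_one]
  rw [e, Units.val_mul, Units.val_mul, h]
  simp only [Matrix.mul_smul, Matrix.smul_mul, Matrix.mul_one, hgg]

/-- A transvection is never conjugate into the normalizer. -/
theorem not_conj_transvection (hFr : Extra R a₀ b₀ c₀ d₀) (h2 : (2 : F) ≠ 0) {x g₀ : GL I4 F} {a b : I4 → F}
    (hx : (x : Matrix I4 I4 F) = 1 + Matrix.vecMulVec a b)
    (hxi : ((x⁻¹ : GL I4 F) : Matrix I4 I4 F) = 1 - Matrix.vecMulVec a b)
    (hg : g₀⁻¹ * x * g₀ ∈ Cfsg.Geo.subgroupNormalizer R) :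
    ∃ c : F, (x : Matrix I4 I4 F) = c • 1 := by
  have hgg' : ((g₀⁻¹ : GL I4 F) : Matrix I4 I4 F) * (g₀ : Matrix I4 I4 F) = 1 := by
    rw [← Units.val_mul, inv_mul_cancel, Units.val_one]
  have hv : ((g₀⁻¹ : GL I4 F) : Matrix I4 I4 F) * Matrix.vecMulVec a b * (g₀ : Matrix I4 I4 F) =
      Matrix.vecMulVec (((g₀⁻¹ : GL I4 F) : Matrix I4 I4 F).mulVec a) (Matrix.vecMul b (g₀ : Matrix I4 I4 F)) := by
    rw [Matrix.mul_vecMulVec, Matrix.vecMulVec_mul]
  have hy1 : ((g₀⁻¹ * x * g₀ : GL I4 F) : Matrix I4 I4 F) = 1 + Matrix.vecMulVec (((g₀⁻¹ : GL I4 F) : Matrix I4 I4 F).mulVec a) (Matrix.vecMul b (g₀ : Matrix I4 I4 F)) := by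
    rw [Units.val_mul, Units.val_mul, hx, Matrix.mul_add, Matrix.add_mul, Matrix.mul_one, hgg', hv]
  have hy2 : (((g₀⁻¹ * x * g₀)⁻¹ : GL I4 F) : Matrix I4 I4 F) = 1 - Matrix.vecMulVec (((g₀⁻¹ : GL I4 F) : Matrix I4 I4 F).mulVec a) (Matrix.vecMul b (g₀ : Matrix I4 I4 F)) := by
    have e : (g₀⁻¹ * x * g₀)⁻¹ = g₀⁻¹ * x⁻¹ * g₀ := by group
    rw [e, Units.val_mul, Units.val_mul, hxi, Matrix.mul_sub, Matrix.sub_mul, Matrix.mul_one, hgg', hv]
  obtain ⟨c, hc⟩ := hFr.scalar_of_rank_one h2 hg hy1 hy2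
  exact ⟨c, scalar_of_conj hc⟩

end Extra

end Cfsg.Agent.Lib.TwoSix
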