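import Cfsg.Agent.Lib.TwoSix.Struct32
import Cfsg.Agent.Lib.TwoSix.Count

/-!
# Generators of a group of symplectic type of order `32` in dimension `4`
-/

set_option autoImplicit false

open scoped MatrixGroups Matrix
open Cfsg Module

namespace Cfsg.Agent.Lib.TwoSix

/-- The index type of the four dimensional symplectic space. -/
abbrev I4 := Fin 2 ⊕ Fin 2

variable {F : Type*} [Field F]

/-- The generators and relations of the group. -/
structure Extra (R : Subgroup (GL I4 F)) (a b c d : GL I4 F) : Prop where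
  fin : Finite R
  card : Nat.card R = 32
  mem_m : (-1 : GL I4 F) ∈ R
  mem_a : a ∈ R
  mem_b : b ∈ R
  mem_c : c ∈ R
  mem_d : d ∈ R
  gens : ∀ K : Subgroup (GL I4 F), (-1 : GL I4 F) ∈ K → a ∈ K → b ∈ K → c ∈ K → d ∈ K → R ≤ K
  signs : ∀ e ∈ R, ∀ f ∈ R, (e : Matrix I4 I4 F) * f = f * e ∨ (e : Matrix I4 I4 F) * f = -(f * e)
  comm : ∀ M : Matrix I4 I4 F, (∀ s ∈ R, M * (s : Matrix I4 I4 F) = s * M) → ∃ c : F, M = c • 1
  sq : ∀ e ∈ R, (e : Matrix I4 I4 F) * e = 1 ∨ (e : Matrix I4 I4 F) * e = -1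
  haa : (a : Matrix I4 I4 F) * a = 1
  hbb : (b : Matrix I4 I4 F) * b = 1
  hcc : (c : Matrix I4 I4 F) * c = -1
  hdd : (d : Matrix I4 I4 F) * d = -1
  hab : (a : Matrix I4 I4 F) * b = -(b * a)
  hcd : (c : Matrix I4 I4 F) * d = -(d * c)
  hac : (a : Matrix I4 I4 F) * c = c * a
  had : (a : Matrix I4 I4 F) * d = d * a
  hbc : (b : Matrix I4 I4 F) * c = c * b
  hbd : (b : Matrix I4 I4 F) * d = d * b
  minus : ∀ A : Subgroup R, IsMulCommutative A → (∀ x ∈ A, x * x = 1) → Nat.card A < 8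
  scal : ∀ e ∈ R, ∀ c : F, (e : Matrix I4 I4 F) = c • 1 → e = 1 ∨ e = -1

theorem exists_extra (h2 : (2 : F) ≠ 0) (R : Subgroup (GL I4 F)) (hs : Cfsg.Geo.IsSymplecticTypeGroup 2 R)
    (hcomm : ∀ M : Matrix I4 I4 F, (∀ s ∈ Cfsg.Geo.matrixSet R, M * s = s * M) → ∃ c : F, M = c • (1 : Matrix I4 I4 F))
    (hR : Nat.card R = 2 ^ 5) (hZ : Nat.card (Subgroup.center R) = 2) (hm : Cfsg.Geo.IsOfMinusType 2 R) :
    ∃ a b c d : GL I4 F, Extra R a b c d := by
  classical
  haveI hfin : Finite R := Nat.finite_of_card_ne_zero (by rw [hR]; norm_num)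
  have hexp : Monoid.exponent R = 4 := by
    rw [hs.exponent_eq]
    norm_num
  have h4 : ∀ x : R, x ^ 4 = 1 := fun x => by
    have := Monoid.pow_exponent_eq_one x
    rwa [hexp] at this
  have hcomm' : ∀ M : Matrix I4 I4 F, (∀ s ∈ R, M * (s : Matrix I4 I4 F) = s * M) → ∃ c : F, M = c • 1 := by
    intro M hM
    apply hcomm
    rintro _ ⟨s, hs, rfl⟩
    exact hM s hs
  have hminus : ∀ A : Subgroup R, IsMulCommutative A → (∀ x ∈ A, x * x = 1) → Nat.card A < 8 := by
    intro A hA hA2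
    have := hm A hA hA2
    simpa using this
  obtain ⟨z, a, b, c, d, hzc, hz1, hzz, haa, hbb, hcc, hdd, hab, hcd, hac, had, hbc, hbd, hgens, hall, hsq⟩ :=
    Struct.exists_gens32 (G := R) (by rw [hR]; norm_num) h4 hs.cyclic_of_characteristic hZ hminus
  have hcoe : ∀ a b : R, (((a * b : R) : GL I4 F) : Matrix I4 I4 F) =
      ((a : GL I4 F) : Matrix I4 I4 F) * ((b : GL I4 F) : Matrix I4 I4 F) := fun _ _ => rfl
  have hcoe1 : (((1 : R) : GL I4 F) : Matrix I4 I4 F) = 1 := rfl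
  have hcoe1' : (1 : Matrix I4 I4 F) ≠ 0 := one_ne_zero
  have hcases : ∀ ζ ∈ Subgroup.center R, ζ = 1 ∨ ζ = z := by
    intro ζ hζ
    by_cases h1 : ζ = 1
    · exact Or.inl h1
    · right
      obtain ⟨w, _, hw⟩ := (Nat.card_eq_two_iff' (1 : Subgroup.center R)).mp hZ
      have e1 := hw ⟨ζ, hζ⟩ (fun h => h1 (congrArg Subtype.val h))
      have e2 := hw ⟨z, hzc⟩ (fun h => hz1 (congrArg Subtype.val h))
      exact congrArg Subtype.val (e1.trans e2.symm)
  obtain ⟨i, hzi⟩ : ∃ i : F, ((z : GL I4 F) : Matrix I4 I4 F) = i • 1 := by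
    apply hcomm'
    intro s hs
    have := Subgroup.mem_center_iff.mp hzc ⟨s, hs⟩
    exact (congrArg (fun a : R => ((a : GL I4 F) : Matrix I4 I4 F)) this).symm
  have hii : i * i = 1 := by
    have h1 : (((z * z : R) : GL I4 F) : Matrix I4 I4 F) = (i * i) • 1 := by
      rw [hcoe, hzi]
      simp [smul_smul]
    rw [hzz, hcoe1] at h1
    have h3 := congrFun (congrFun h1 (Sum.inl 0)) (Sum.inl 0)
    simpa using h3.symm
  have hi1 : i = -1 := by
    have h5 : (i - 1) * (i + 1) = 0 := by linear_combination hii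
    rcases mul_eq_zero.mp h5 with h6 | h6
    · exfalso
      apply hz1
      apply Subtype.ext
      apply Units.ext
      rw [hzi, sub_eq_zero.mp h6, one_smul]
      rfl
    · linear_combination h6
  have hzm : ((z : GL I4 F) : Matrix I4 I4 F) = -1 := by
    rw [hzi, hi1]
    simp
  have hzGL : (z : GL I4 F) = -1 := by
    apply Units.ext
    rw [hzm]
    simp
  have hcommval : ∀ a b : R, a * b * a⁻¹ * b⁻¹ = z →
      ((a : GL I4 F) : Matrix I4 I4 F) * ((b : GL I4 F) : Matrix I4 I4 F) =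
        -(((b : GL I4 F) : Matrix I4 I4 F) * ((a : GL I4 F) : Matrix I4 I4 F)) := by
    intro a b hab
    have e : a * b = z * (b * a) := by
      rw [← hab]
      group
    have h1 : (((a * b : R) : GL I4 F) : Matrix I4 I4 F) = (((z * (b * a) : R) : GL I4 F) : Matrix I4 I4 F) := by rw [e]
    rw [hcoe a b, hcoe z (b * a), hcoe b a, hzm] at h1
    simpa using h1
  refine ⟨a, b, c, d, hfin, by rw [hR]; norm_num, hzGL ▸ z.2, a.2, b.2, c.2, d.2, ?_, ?_, hcomm', ?_, ?_, ?_, ?_, ?_,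
    hcommval a b hab, hcommval c d hcd, ?_, ?_, ?_, ?_, hminus, ?_⟩
  · -- generation
    intro K hKz hKa hKb hKc hKd r hr
    obtain ⟨e, f, e', f', hc⟩ := hgens ⟨r, hr⟩
    set ζ : R := ⟨r, hr⟩ * b ^ e * a ^ f * d ^ e' * c ^ f' with hζ
    have hζK : (ζ : GL I4 F) ∈ K := by
      rcases hcases ζ hc with h | h
      · rw [h]
        exact K.one_mem
      · rw [h, hzGL]
        exact hKz
    have e1 : r = (ζ : GL I4 F) * ((c : GL I4 F) ^ f')⁻¹ * ((d : GL I4 F) ^ e')⁻¹ * ((a : GL I4 F) ^ f)⁻¹ * ((b : GL I4 F) ^ e)⁻¹ := by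
      rw [hζ]
      simp only [Subgroup.coe_mul, Subgroup.coe_pow]
      group
    rw [e1]
    exact K.mul_mem (K.mul_mem (K.mul_mem (K.mul_mem hζK (K.inv_mem (K.pow_mem hKc f'))) (K.inv_mem (K.pow_mem hKd e')))
      (K.inv_mem (K.pow_mem hKa f))) (K.inv_mem (K.pow_mem hKb e))
  · intro s hs t ht
    rcases hall ⟨s, hs⟩ ⟨t, ht⟩ with h' | h'
    · left
      have e : (⟨s, hs⟩ : R) * ⟨t, ht⟩ = ⟨t, ht⟩ * ⟨s, hs⟩ := by
        have h1 : (⟨s, hs⟩ : R) * ⟨t, ht⟩ = ((⟨s, hs⟩ : R) * ⟨t, ht⟩ * (⟨s, hs⟩ : R)⁻¹ * (⟨t, ht⟩ : R)⁻¹) * (⟨t, ht⟩ * ⟨s, hs⟩) := by group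
        rw [h', one_mul] at h1
        exact h1
      exact congrArg (fun x : R => ((x : GL I4 F) : Matrix I4 I4 F)) e
    · right
      exact hcommval ⟨s, hs⟩ ⟨t, ht⟩ h'
  · intro s hs
    rcases hsq ⟨s, hs⟩ with h' | h'
    · left
      have := congrArg (fun x : R => ((x : GL I4 F) : Matrix I4 I4 F)) h'
      simpa using this
    · right
      have := congrArg (fun x : R => ((x : GL I4 F) : Matrix I4 I4 F)) h'
      simp only [hzm] at this
      exact this
  · have := congrArg (fun x : R => ((x : GL I4 F) : Matrix I4 I4 F)) haa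
    simpa using this
  · have := congrArg (fun x : R => ((x : GL I4 F) : Matrix I4 I4 F)) hbb
    simpa using this
  · have := congrArg (fun x : R => ((x : GL I4 F) : Matrix I4 I4 F)) hcc
    simp only [hzm] at this
    exact this
  · have := congrArg (fun x : R => ((x : GL I4 F) : Matrix I4 I4 F)) hdd
    simp only [hzm] at this
    exact this
  · exact congrArg (fun x : R => ((x : GL I4 F) : Matrix I4 I4 F)) hac
  · exact congrArg (fun x : R => ((x : GL I4 F) : Matrix I4 I4 F)) had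
  · exact congrArg (fun x : R => ((x : GL I4 F) : Matrix I4 I4 F)) hbc
  · exact congrArg (fun x : R => ((x : GL I4 F) : Matrix I4 I4 F)) hbd
  · intro e he t ht
    have hec : (⟨e, he⟩ : R) ∈ Subgroup.center R := by
      rw [Subgroup.mem_center_iff]
      intro s
      apply Subtype.ext
      apply Units.ext
      change (s : GL I4 F).val * e = e * (s : GL I4 F).val
      rw [ht]
      simp [Matrix.smul_mul, Matrix.mul_smul]
    rcases hcases _ hec with h | h
    · exact Or.inl (congrArg Subtype.val h)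
    · right
      rw [← hzGL]
      exact congrArg Subtype.val h

end Cfsg.Agent.Lib.TwoSix
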