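import Mathlib

/-!
# Computations with the generators of an extraspecial group of minus type in a ring
-/

set_option autoImplicit false

namespace Cfsg.Agent.Lib.TwoSix.Word

variable {M : Type*} [Ring M]

/-- The relations between the four generators. -/
structure Rel (A B C D : M) : Prop where
  haa : A * A = 1
  hbb : B * B = 1
  hcc : C * C = -1
  hdd : D * D = -1
  hba : B * A = -(A * B)
  hdc : D * C = -(C * D)
  hca : C * A = A * C
  hda : D * A = A * D
  hcb : C * B = B * C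
  hdb : D * B = B * D

variable {A B C D : M}

namespace Rel

theorem haa' (h : Rel A B C D) (y : M) : A * (A * y) = y := by rw [← mul_assoc, h.haa, one_mul]
theorem hbb' (h : Rel A B C D) (y : M) : B * (B * y) = y := by rw [← mul_assoc, h.hbb, one_mul]
theorem hcc' (h : Rel A B C D) (y : M) : C * (C * y) = -y := by rw [← mul_assoc, h.hcc, neg_one_mul]
theorem hdd' (h : Rel A B C D) (y : M) : D * (D * y) = -y := by rw [← mul_assoc, h.hdd, neg_one_mul]
theorem hba' (h : Rel A B C D) (y : M) : B * (A * y) = -(A * (B * y)) := by rw [← mul_assoc, h.hba, neg_mul, mul_assoc]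
theorem hdc' (h : Rel A B C D) (y : M) : D * (C * y) = -(C * (D * y)) := by rw [← mul_assoc, h.hdc, neg_mul, mul_assoc]
theorem hca' (h : Rel A B C D) (y : M) : C * (A * y) = A * (C * y) := by rw [← mul_assoc, h.hca, mul_assoc]
theorem hda' (h : Rel A B C D) (y : M) : D * (A * y) = A * (D * y) := by rw [← mul_assoc, h.hda, mul_assoc]
theorem hcb' (h : Rel A B C D) (y : M) : C * (B * y) = B * (C * y) := by rw [← mul_assoc, h.hcb, mul_assoc]
theorem hdb' (h : Rel A B C D) (y : M) : D * (B * y) = B * (D * y) := by rw [← mul_assoc, h.hdb, mul_assoc]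

end Rel

/-- The product of the four elements `1 + e`. -/
def T0 (A B C D : M) : M := (1 + C) * ((1 + D) * ((1 + A * C) * (1 + A * B)))

/-- The product in the opposite order of the elements `1 - e`. -/
def T1 (A B C D : M) : M := (1 - A * B) * ((1 - A * C) * ((1 - D) * (1 - C)))

theorem T0_a (h : Rel A B C D) : T0 A B C D * A = -(A * (B * (D * T0 A B C D))) := by
  simp only [T0, add_mul, mul_add, one_mul, mul_one, mul_assoc, neg_mul, mul_neg, neg_neg, h.haa, h.hbb, h.hcc, h.hdd, h.hba, h.hdc, h.hca, h.hda, h.hcb, h.hdb,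
    h.haa', h.hbb', h.hcc', h.hdd', h.hba', h.hdc', h.hca', h.hda', h.hcb', h.hdb']
  abel

theorem T0_b (h : Rel A B C D) : T0 A B C D * B = A * T0 A B C D := by
  simp only [T0, add_mul, mul_add, one_mul, mul_one, mul_assoc, neg_mul, mul_neg, neg_neg, h.haa, h.hbb, h.hcc, h.hdd, h.hba, h.hdc, h.hca, h.hda, h.hcb, h.hdb,
    h.haa', h.hbb', h.hcc', h.hdd', h.hba', h.hdc', h.hca', h.hda', h.hcb', h.hdb']
  abel

theorem T0_c (h : Rel A B C D) : T0 A B C D * C = D * T0 A B C D := by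
  simp only [T0, add_mul, mul_add, one_mul, mul_one, mul_assoc, neg_mul, mul_neg, neg_neg, h.haa, h.hbb, h.hcc, h.hdd, h.hba, h.hdc, h.hca, h.hda, h.hcb, h.hdb,
    h.haa', h.hbb', h.hcc', h.hdd', h.hba', h.hdc', h.hca', h.hda', h.hcb', h.hdb']
  abel

theorem T0_d (h : Rel A B C D) : T0 A B C D * D = A * (C * T0 A B C D) := by
  simp only [T0, add_mul, mul_add, one_mul, mul_one, mul_assoc, neg_mul, mul_neg, neg_neg, h.haa, h.hbb, h.hcc, h.hdd, h.hba, h.hdc, h.hca, h.hda, h.hcb, h.hdb,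
    h.haa', h.hbb', h.hcc', h.hdd', h.hba', h.hdc', h.hca', h.hda', h.hcb', h.hdb']
  abel

theorem T0_T1 (h : Rel A B C D) : T0 A B C D * T1 A B C D = (16 : ℕ) • (1 : M) := by
  simp only [T0, T1, add_mul, mul_add, sub_mul, mul_sub, one_mul, mul_one, mul_assoc, neg_mul, mul_neg, neg_neg, h.haa, h.hbb, h.hcc, h.hdd, h.hba, h.hdc, h.hca, h.hda, h.hcb, h.hdb,
    h.haa', h.hbb', h.hcc', h.hdd', h.hba', h.hdc', h.hca', h.hda', h.hcb', h.hdb']
  abel

theorem T1_T0 (h : Rel A B C D) : T1 A B C D * T0 A B C D = (16 : ℕ) • (1 : M) := by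
  simp only [T0, T1, add_mul, mul_add, sub_mul, mul_sub, one_mul, mul_one, mul_assoc, neg_mul, mul_neg, neg_neg, h.haa, h.hbb, h.hcc, h.hdd, h.hba, h.hdc, h.hca, h.hda, h.hcb, h.hdb,
    h.haa', h.hbb', h.hcc', h.hdd', h.hba', h.hdc', h.hca', h.hda', h.hcb', h.hdb']
  abel

section Orbits

variable {T : M} (h : Rel A B C D) (ha : T * A = -(A * (B * (D * T)))) (hb : T * B = A * T) (hc : T * C = D * T)
  (hd : T * D = A * (C * T))

include ha in
theorem ta' (y : M) : T * (A * y) = -(A * (B * (D * (T * y)))) := by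
  rw [← mul_assoc, ha, neg_mul]
  simp only [mul_assoc]

include hb in
theorem tb' (y : M) : T * (B * y) = A * (T * y) := by
  rw [← mul_assoc, hb, mul_assoc]

include hc in
theorem tc' (y : M) : T * (C * y) = D * (T * y) := by
  rw [← mul_assoc, hc, mul_assoc]

include hd in
theorem td' (y : M) : T * (D * y) = A * (C * (T * y)) := by
  rw [← mul_assoc, hd]
  simp only [mul_assoc]

include h ha hb hc hd

theorem five_a : T * (T * (T * (T * (T * A)))) = A * (T * (T * (T * (T * T)))) := by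
  simp only [ha, hb, hc, hd, ta' ha, tb' hb, tc' hc, td' hd, mul_assoc, neg_mul, mul_neg, neg_neg, h.haa, h.hbb, h.hcc, h.hdd, h.hba, h.hdc, h.hca, h.hda, h.hcb, h.hdb,
    h.haa', h.hbb', h.hcc', h.hdd', h.hba', h.hdc', h.hca', h.hda', h.hcb', h.hdb']

theorem five_b : T * (T * (T * (T * (T * B)))) = B * (T * (T * (T * (T * T)))) := by
  simp only [ha, hb, hc, hd, ta' ha, tb' hb, tc' hc, td' hd, mul_assoc, neg_mul, mul_neg, neg_neg, h.haa, h.hbb, h.hcc, h.hdd, h.hba, h.hdc, h.hca, h.hda, h.hcb, h.hdb,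
    h.haa', h.hbb', h.hcc', h.hdd', h.hba', h.hdc', h.hca', h.hda', h.hcb', h.hdb']

theorem five_c : T * (T * (T * (T * (T * C)))) = C * (T * (T * (T * (T * T)))) := by
  simp only [ha, hb, hc, hd, ta' ha, tb' hb, tc' hc, td' hd, mul_assoc, neg_mul, mul_neg, neg_neg, h.haa, h.hbb, h.hcc, h.hdd, h.hba, h.hdc, h.hca, h.hda, h.hcb, h.hdb,
    h.haa', h.hbb', h.hcc', h.hdd', h.hba', h.hdc', h.hca', h.hda', h.hcb', h.hdb']

theorem five_d : T * (T * (T * (T * (T * D)))) = D * (T * (T * (T * (T * T)))) := by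
  simp only [ha, hb, hc, hd, ta' ha, tb' hb, tc' hc, td' hd, mul_assoc, neg_mul, mul_neg, neg_neg, h.haa, h.hbb, h.hcc, h.hdd, h.hba, h.hdc, h.hca, h.hda, h.hcb, h.hdb,
    h.haa', h.hbb', h.hcc', h.hdd', h.hba', h.hdc', h.hca', h.hda', h.hcb', h.hdb']

end Orbits

end Cfsg.Agent.Lib.TwoSix.Word
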