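import Cfsg.Agent.Lib.TwoSix.Comm32
import Cfsg.Agent.Lib.TwoSix.Word32

/-!
# The element of order five normalizing the group of order `32`
-/

set_option autoImplicit false

open scoped MatrixGroups Matrix Polynomial
open Cfsg Module
open Cfsg.Agent.Lib.Classical.Symp.SpGL

namespace Cfsg.Agent.Lib.TwoSix

variable {F : Type*} [Field F]

namespace Extra

variable {R : Subgroup (GL I4 F)} {a₀ b₀ c₀ d₀ : GL I4 F}

theorem rel (hF : Extra R a₀ b₀ c₀ d₀) : Word.Rel (a₀ : Matrix I4 I4 F) b₀ c₀ d₀ :=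
  ⟨hF.haa, hF.hbb, hF.hcc, hF.hdd, by rw [hF.hab, neg_neg], by rw [hF.hcd, neg_neg], hF.hac.symm, hF.had.symm,
    hF.hbc.symm, hF.hbd.symm⟩

/-- The effect on the form of the element `1 + e`. -/
theorem form_step {e : GL I4 F} (he : e ∈ spGL 2 F) (hee : (e : Matrix I4 I4 F) * e = -1) (u v : I4 → F) :
    sympForm 2 F ((1 + (e : Matrix I4 I4 F)) *ᵥ u) ((1 + (e : Matrix I4 I4 F)) *ᵥ v) = 2 * sympForm 2 F u v := by
  have h1 := spGL_form he u v
  have h3 := spGL_form he ((e : Matrix I4 I4 F) *ᵥ u) v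
  rw [Matrix.mulVec_mulVec, hee, Matrix.neg_mulVec, Matrix.one_mulVec, sympForm_neg_left] at h3
  rw [Matrix.add_mulVec, Matrix.add_mulVec, Matrix.one_mulVec, Matrix.one_mulVec, sympForm_add_left, sympForm_add_right,
    sympForm_add_right, h1, ← h3]
  ring

theorem exists_T (hF : Extra R a₀ b₀ c₀ d₀) (hRf : R ≤ spGL 2 F) (h2 : (2 : F) ≠ 0) :
    ∃ T : GL I4 F, T ∈ spGL 2 F ∧ T ∈ Cfsg.Geo.subgroupNormalizer R ∧ T ^ 5 = 1 ∧ T ≠ 1 := by
  classical
  have hrel := hF.rel
  set A := (a₀ : Matrix I4 I4 F) with hA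
  set B := (b₀ : Matrix I4 I4 F) with hB
  set C := (c₀ : Matrix I4 I4 F) with hC
  set D := (d₀ : Matrix I4 I4 F) with hD
  set T₀ := Word.T0 A B C D with hT₀
  set T₁ := Word.T1 A B C D with hT₁
  have h4 : (4 : F) ≠ 0 := Pauli.four_ne h2
  set ι : F := (4 : F)⁻¹ with hι
  have hιι : ι * ι * 16 = 1 := by
    rw [hι]
    field_simp
    norm_num
  have h01 : (ι • T₀) * (ι • T₁) = 1 := by
    rw [Matrix.smul_mul, Matrix.mul_smul, smul_smul, hT₀, hT₁, Word.T0_T1 hrel, ← Nat.cast_smul_eq_nsmul F, smul_smul]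
    push_cast
    rw [hιι, one_smul]
  have h10 : (ι • T₁) * (ι • T₀) = 1 := by
    rw [Matrix.smul_mul, Matrix.mul_smul, smul_smul, hT₀, hT₁, Word.T1_T0 hrel, ← Nat.cast_smul_eq_nsmul F, smul_smul]
    push_cast
    rw [hιι, one_smul]
  let T : GL I4 F := ⟨ι • T₀, ι • T₁, h01, h10⟩
  have hTval : (T : Matrix I4 I4 F) = ι • T₀ := rfl
  have hTa : (T : Matrix I4 I4 F) * A = -(A * (B * (D * (T : Matrix I4 I4 F)))) := by
    rw [hTval, Matrix.smul_mul, hT₀, Word.T0_a hrel]
    simp only [Matrix.mul_smul, smul_neg]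
  have hTb : (T : Matrix I4 I4 F) * B = A * (T : Matrix I4 I4 F) := by
    rw [hTval, Matrix.smul_mul, hT₀, Word.T0_b hrel]
    simp only [Matrix.mul_smul]
  have hTc : (T : Matrix I4 I4 F) * C = D * (T : Matrix I4 I4 F) := by
    rw [hTval, Matrix.smul_mul, hT₀, Word.T0_c hrel]
    simp only [Matrix.mul_smul]
  have hTd : (T : Matrix I4 I4 F) * D = A * (C * (T : Matrix I4 I4 F)) := by
    rw [hTval, Matrix.smul_mul, hT₀, Word.T0_d hrel]
    simp only [Matrix.mul_smul]
  -- the form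
  have hTsp : T ∈ spGL 2 F := by
    rw [mem_spGL_iff]
    intro u v
    have hac : (a₀ * c₀ : GL I4 F) ∈ spGL 2 F := hRf (R.mul_mem hF.mem_a hF.mem_c)
    have hab : (a₀ * b₀ : GL I4 F) ∈ spGL 2 F := hRf (R.mul_mem hF.mem_a hF.mem_b)
    have hacc : ((a₀ * c₀ : GL I4 F) : Matrix I4 I4 F) * ((a₀ * c₀ : GL I4 F) : Matrix I4 I4 F) = -1 := by
      rw [Units.val_mul]
      change A * C * (A * C) = -1
      simp only [mul_assoc, hrel.hca', hrel.haa', hrel.hcc]
    have habb : ((a₀ * b₀ : GL I4 F) : Matrix I4 I4 F) * ((a₀ * b₀ : GL I4 F) : Matrix I4 I4 F) = -1 := by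
      rw [Units.val_mul]
      change A * B * (A * B) = -1
      simp only [mul_assoc, hrel.hba', mul_neg, hrel.haa', hrel.hbb]
    have hT₀mv : ∀ t : I4 → F, T₀ *ᵥ t = (1 + C) *ᵥ ((1 + D) *ᵥ ((1 + ((a₀ * c₀ : GL I4 F) : Matrix I4 I4 F)) *ᵥ ((1 + ((a₀ * b₀ : GL I4 F) : Matrix I4 I4 F)) *ᵥ t))) := by
      intro t
      simp only [Matrix.mulVec_mulVec, hT₀, Word.T0, Units.val_mul, mul_assoc]
      rfl
    rw [hTval, Matrix.smul_mulVec, Matrix.smul_mulVec, sympForm_smul_left, sympForm_smul_right, hT₀mv, hT₀mv,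
      form_step (hRf hF.mem_c) hF.hcc, form_step (hRf hF.mem_d) hF.hdd, form_step hac hacc, form_step hab habb]
    linear_combination (sympForm 2 F u v) * hιι
  -- the normalizer
  have hconj : ∀ h w : GL I4 F, w ∈ R → (T : Matrix I4 I4 F) * h = w * (T : Matrix I4 I4 F) → T * h * T⁻¹ ∈ R := by
    intro h w hw hrel'
    have e : T * h = w * T := Units.ext hrel'
    rw [e]
    simpa using hw
  have hnegmem : ∀ w : GL I4 F, w ∈ R → -w ∈ R := by
    intro w hw
    rw [← neg_one_mul]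
    exact R.mul_mem hF.mem_m hw
  have hTnorm : T ∈ Cfsg.Geo.subgroupNormalizer R := by
    apply mem_norm_of_conj hF.fin
    have hle : R ≤ Subgroup.comap (MulAut.conj T).toMonoidHom R := by
      apply hF.gens
      · rw [Subgroup.mem_comap]
        change T * (-1) * T⁻¹ ∈ R
        apply hconj _ (-1) hF.mem_m
        simp
      · rw [Subgroup.mem_comap]
        change T * a₀ * T⁻¹ ∈ R
        apply hconj _ (-(a₀ * (b₀ * d₀))) (hnegmem _ (R.mul_mem hF.mem_a (R.mul_mem hF.mem_b hF.mem_d)))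
        rw [hTa, Units.val_neg, Units.val_mul, Units.val_mul, neg_mul]
        simp only [mul_assoc]
        rfl
      · rw [Subgroup.mem_comap]
        change T * b₀ * T⁻¹ ∈ R
        exact hconj _ a₀ hF.mem_a hTb
      · rw [Subgroup.mem_comap]
        change T * c₀ * T⁻¹ ∈ R
        exact hconj _ d₀ hF.mem_d hTc
      · rw [Subgroup.mem_comap]
        change T * d₀ * T⁻¹ ∈ R
        apply hconj _ (a₀ * c₀) (R.mul_mem hF.mem_a hF.mem_c)
        rw [hTd, Units.val_mul]
        simp only [mul_assoc]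
        rfl
    intro h hh
    exact hle hh
  -- the fifth power
  have hT5val : ((T ^ 5 : GL I4 F) : Matrix I4 I4 F) = (T : Matrix I4 I4 F) * ((T : Matrix I4 I4 F) * ((T : Matrix I4 I4 F) * ((T : Matrix I4 I4 F) * (T : Matrix I4 I4 F)))) := by
    rw [Units.val_pow_eq_pow_val]
    simp only [pow_succ, pow_zero, one_mul, mul_assoc]
  have hf5 : ∀ h : Matrix I4 I4 F, (T : Matrix I4 I4 F) * ((T : Matrix I4 I4 F) * ((T : Matrix I4 I4 F) * ((T : Matrix I4 I4 F) * ((T : Matrix I4 I4 F) * h)))) =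
      h * ((T : Matrix I4 I4 F) * ((T : Matrix I4 I4 F) * ((T : Matrix I4 I4 F) * ((T : Matrix I4 I4 F) * (T : Matrix I4 I4 F))))) →
      ((T ^ 5 : GL I4 F) : Matrix I4 I4 F) * h = h * ((T ^ 5 : GL I4 F) : Matrix I4 I4 F) := by
    intro h hh
    rw [hT5val, ← hh]
    simp only [mul_assoc]
  have hcent : R ≤ Subgroup.centralizer ({T ^ 5} : Set (GL I4 F)) := by
    apply hF.gens
    · rw [Subgroup.mem_centralizer_singleton_iff]
      apply Units.ext
      simp
    · rw [Subgroup.mem_centralizer_singleton_iff]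
      exact Units.ext (hf5 A (Word.five_a hrel hTa hTb hTc hTd)).symm
    · rw [Subgroup.mem_centralizer_singleton_iff]
      exact Units.ext (hf5 B (Word.five_b hrel hTa hTb hTc hTd)).symm
    · rw [Subgroup.mem_centralizer_singleton_iff]
      exact Units.ext (hf5 C (Word.five_c hrel hTa hTb hTc hTd)).symm
    · rw [Subgroup.mem_centralizer_singleton_iff]
      exact Units.ext (hf5 D (Word.five_d hrel hTa hTb hTc hTd)).symm
  obtain ⟨s, hs⟩ := hF.comm ((T ^ 5 : GL I4 F) : Matrix I4 I4 F) (by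
    intro h hh
    have := Subgroup.mem_centralizer_singleton_iff.mp (hcent hh)
    exact (congrArg Units.val this).symm)
  have hss : s * s = 1 := spGL_scalar_sq (Subgroup.pow_mem _ hTsp 5) hs
  -- the element is not scalar
  have hTne : ∀ t : F, (T : Matrix I4 I4 F) ≠ t • 1 := by
    intro t ht
    have ht0 : t ≠ 0 := by
      rintro rfl
      rw [zero_smul] at ht
      exact T.ne_zero ht
    rw [ht] at hTb
    simp only [Matrix.smul_mul, Matrix.one_mul, Matrix.mul_smul, Matrix.mul_one] at hTb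
    have hBA : B = A := smul_right_injective _ ht0 hTb
    have h1 := hF.hab
    rw [← hB, ← hA, hBA] at h1
    have h3 : (a₀ * a₀ : GL I4 F) = 1 := hF.haa'
    apply neg_ne_self h2 (a := a₀ * a₀)
    rw [Units.val_mul]
    exact h1
  rcases Pauli.sign_cases hss with h1 | h1
  · refine ⟨T, hTsp, hTnorm, ?_, ?_⟩
    · apply Units.ext
      rw [hs, h1, one_smul]
      rfl
    · intro h
      apply hTne 1
      rw [h]
      simp
  · refine ⟨-T, ?_, ?_, ?_, ?_⟩
    · rw [← neg_one_mul]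
      exact mul_mem (hRf hF.mem_m) hTsp
    · rw [← neg_one_mul]
      refine mul_mem (hF.mem_norm_self hF.mem_m) hTnorm
    · apply Units.ext
      rw [Odd.neg_pow (by decide : Odd 5), Units.val_neg, hs, h1]
      simp
    · intro h
      apply hTne (-1)
      have e : T = -1 := by
        rw [← h, neg_neg]
      rw [e]
      simp

/-- Elements of order five modulo scalars. -/
theorem conj_five [Fintype F] {p : ℕ} [Fact p.Prime] [CharP F p] (hF : Extra R a₀ b₀ c₀ d₀) (hRf : R ≤ spGL 2 F)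
    (hcard : Fintype.card F = p) (h2 : (2 : F) ≠ 0) (hord : orderOf (p : ZMod 5) = 4) {x : GL I4 F} (hx : x ∈ spGL 2 F)
    {s : F} (hs : ((x ^ 5 : GL I4 F) : Matrix I4 I4 F) = s • 1) :
    ∃ g ∈ spGL 2 F, g⁻¹ * x * g ∈ Cfsg.Geo.subgroupNormalizer R := by
  classical
  have hp : p.Prime := Fact.out
  haveI : Fact (Nat.Prime 5) := ⟨by norm_num⟩
  have hpne : p ≠ 5 := by
    rintro rfl
    have h0 : ((5 : ℕ) : ZMod 5) = 0 := rfl
    rw [h0, orderOf_zero] at hord
    norm_num at hord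
  have hpc : Nat.Coprime 5 p := by
    rw [Nat.coprime_comm, hp.coprime_iff_not_dvd]
    intro h1
    exact hpne ((Nat.prime_dvd_prime_iff_eq hp (by norm_num)).mp h1)
  have hirr := Pauli.irr_five (F := F) hcard hpc.symm hord
  have hss : s * s = 1 := spGL_scalar_sq (Subgroup.pow_mem _ hx 5) hs
  obtain ⟨T, hTsp, hTnorm, hT5, hT1⟩ := hF.exists_T hRf h2
  haveI : Finite (spGL 2 F) := inferInstance
  have hmain : ∀ x' : GL I4 F, x' ∈ spGL 2 F → x' ^ 5 = 1 → ∃ g ∈ spGL 2 F, g⁻¹ * x' * g ∈ Cfsg.Geo.subgroupNormalizer R := by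
    intro x' hx' hx'5
    obtain ⟨g, m, hgm⟩ := exists_conj_pow (H := spGL 2 F) (q := 5) (u := ⟨T, hTsp⟩) (v := ⟨x', hx'⟩)
      (Subtype.ext hT5) (fun h => hT1 (congrArg Subtype.val h)) (Subtype.ext hx'5) (by
        intro z w hz hz1 hw hzw
        obtain ⟨k, hk⟩ := comm_five hirr (z := z.1) (y := w.1) (congrArg Subtype.val hz) (fun h => hz1 (Subtype.ext h))
          (congrArg Subtype.val hw) (congrArg Subtype.val hzw)
        exact ⟨k, Subtype.ext hk⟩)
    refine ⟨g, g.2, ?_⟩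
    have e : (g : GL I4 F)⁻¹ * x' * g = T ^ m := by
      have := congrArg Subtype.val hgm
      simpa using this
    rw [e]
    exact Subgroup.pow_mem _ hTnorm m
  rcases Pauli.sign_cases hss with h1 | h1
  · apply hmain x hx
    apply Units.ext
    rw [hs, h1, one_smul]
    rfl
  · obtain ⟨g, hg, hgx⟩ := hmain (-x) (by
      rw [← neg_one_mul]
      exact mul_mem (hRf hF.mem_m) hx) (by
      apply Units.ext
      rw [Odd.neg_pow (by decide : Odd 5), Units.val_neg, hs, h1]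
      simp)
    refine ⟨g, hg, ?_⟩
    have e : g⁻¹ * x * g = -1 * (g⁻¹ * (-x) * g) := by
      apply Units.ext
      simp
    rw [e]
    exact mul_mem (hF.mem_norm_self hF.mem_m) hgx

end Extra

end Cfsg.Agent.Lib.TwoSix
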