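import Cfsg.Agent.Lib.TwoSix.Struct
import Cfsg.Agent.S5998

/-!
# The frame of a symplectic-type group of order `64` in dimension `4`
-/

set_option autoImplicit false

open scoped MatrixGroups Matrix
open Cfsg Module

namespace Cfsg.Agent.Lib.TwoSix

open Cfsg.Agent.S5998 (mat_of_vec basisGL sum_diagonal mem_normalizer_of_conj)

section Model

variable (F : Type*) [Field F]

/-- The diagonal Pauli matrix on the first qubit. -/
def Z₁ : Matrix (Fin 4) (Fin 4) F := Matrix.diagonal ![1, 1, -1, -1]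
/-- The diagonal Pauli matrix on the second qubit. -/
def Z₂ : Matrix (Fin 4) (Fin 4) F := Matrix.diagonal ![1, -1, 1, -1]
/-- The flip on the first qubit. -/
def X₁ : Matrix (Fin 4) (Fin 4) F := !![0, 0, 1, 0; 0, 0, 0, 1; 1, 0, 0, 0; 0, 1, 0, 0]
/-- The flip on the second qubit. -/
def X₂ : Matrix (Fin 4) (Fin 4) F := !![0, 1, 0, 0; 1, 0, 0, 0; 0, 0, 0, 1; 0, 0, 1, 0]

end Model

section Frame

variable {F : Type*} [Field F] {V : Type*} [AddCommGroup V] [Module F V]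

/-- The standard frame of two commuting anticommuting pairs of involutions. -/
theorem exists_frame [FiniteDimensional F V] (hV : finrank F V = 4) (h2 : (2 : F) ≠ 0) (fu fv fg fh : V →ₗ[F] V)
    (hu : ∀ x, fu (fu x) = x) (hv : ∀ x, fv (fv x) = x) (hg : ∀ x, fg (fg x) = x) (hh : ∀ x, fh (fh x) = x)
    (huv : ∀ x, fu (fv x) = -fv (fu x)) (hgh : ∀ x, fg (fh x) = -fh (fg x)) (hug : ∀ x, fu (fg x) = fg (fu x))
    (huh : ∀ x, fu (fh x) = fh (fu x)) (hvg : ∀ x, fv (fg x) = fg (fv x)) (hvh : ∀ x, fv (fh x) = fh (fv x)) :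
    ∃ b : Basis (Fin 4) F V,
      (fu (b 0) = b 0 ∧ fu (b 1) = b 1 ∧ fu (b 2) = -b 2 ∧ fu (b 3) = -b 3) ∧
      (fg (b 0) = b 0 ∧ fg (b 1) = -b 1 ∧ fg (b 2) = b 2 ∧ fg (b 3) = -b 3) ∧
      (fv (b 0) = b 2 ∧ fv (b 1) = b 3 ∧ fv (b 2) = b 0 ∧ fv (b 3) = b 1) ∧
      (fh (b 0) = b 1 ∧ fh (b 1) = b 0 ∧ fh (b 2) = b 3 ∧ fh (b 3) = b 2) := by
  classical
  have hinj : ∀ (f : V →ₗ[F] V), (∀ x, f (f x) = x) → ∀ x, x ≠ 0 → f x ≠ 0 := by
    intro f hf x hx h
    apply hx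
    rw [← hf x, h, map_zero]
  -- a common fixed vector
  have hnt : Nontrivial V := by
    apply Module.nontrivial_of_finrank_pos (R := F)
    omega
  obtain ⟨w, hw⟩ := exists_ne (0 : V)
  obtain ⟨w₁, hw₁0, hw₁⟩ : ∃ w₁ : V, w₁ ≠ 0 ∧ fu w₁ = w₁ := by
    by_cases h : w + fu w = 0
    · refine ⟨fv w, hinj fv hv w hw, ?_⟩
      have e : fu w = -w := by
        rw [eq_neg_iff_add_eq_zero, add_comm]
        exact h
      rw [huv, e, map_neg, neg_neg]
    · refine ⟨_, h, ?_⟩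
      rw [map_add, hu, add_comm]
  obtain ⟨e₀, he₀0, he₀u, he₀g⟩ : ∃ e₀ : V, e₀ ≠ 0 ∧ fu e₀ = e₀ ∧ fg e₀ = e₀ := by
    by_cases h : w₁ + fg w₁ = 0
    · refine ⟨fh w₁, hinj fh hh _ hw₁0, ?_, ?_⟩
      · rw [huh, hw₁]
      · have e : fg w₁ = -w₁ := by
          rw [eq_neg_iff_add_eq_zero, add_comm]
          exact h
        rw [hgh, e, map_neg, neg_neg]
    · refine ⟨_, h, ?_, ?_⟩
      · rw [map_add, hug, hw₁]
      · rw [map_add, hg, add_comm]
  let vv : Fin 4 → V := ![e₀, fh e₀, fv e₀, fv (fh e₀)]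
  have hne : ∀ i, vv i ≠ 0 := by
    intro i
    fin_cases i
    · exact he₀0
    · exact hinj fh hh _ he₀0
    · exact hinj fv hv _ he₀0
    · exact hinj fv hv _ (hinj fh hh _ he₀0)
  have u0 : fu e₀ = e₀ := he₀u
  have u1 : fu (fh e₀) = fh e₀ := by rw [huh, he₀u]
  have u2 : fu (fv e₀) = -fv e₀ := by rw [huv, he₀u]
  have u3 : fu (fv (fh e₀)) = -fv (fh e₀) := by rw [huv, huh, he₀u]
  have g0 : fg e₀ = e₀ := he₀g
  have g1 : fg (fh e₀) = -fh e₀ := by rw [hgh, he₀g]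
  have g2 : fg (fv e₀) = fv e₀ := by rw [← hvg, he₀g]
  have g3 : fg (fv (fh e₀)) = -fv (fh e₀) := by rw [← hvg, hgh, he₀g, map_neg]
  have hli : LinearIndependent F vv := by
    rw [Fintype.linearIndependent_iff]
    intro c hc
    rw [Fin.sum_univ_four] at hc
    change c 0 • e₀ + c 1 • fh e₀ + c 2 • fv e₀ + c 3 • fv (fh e₀) = 0 at hc
    have h1 := congrArg fu hc
    simp only [map_add, map_smul, map_zero, u0, u1, u2, u3, smul_neg] at h1
    have h3 : (2 : F) • (c 0 • e₀ + c 1 • fh e₀) = 0 := by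
      rw [two_smul]
      linear_combination (norm := module) hc + h1
    have h4 : (2 : F) • (c 2 • fv e₀ + c 3 • fv (fh e₀)) = 0 := by
      rw [two_smul]
      linear_combination (norm := module) hc - h1
    have h5 := (smul_eq_zero.mp h3).resolve_left h2
    have h6 := (smul_eq_zero.mp h4).resolve_left h2
    have h7 := congrArg fg h5
    have h8 := congrArg fg h6
    simp only [map_add, map_smul, map_zero, g0, g1, g2, g3, smul_neg] at h7 h8
    have h9 : (2 : F) • (c 0 • e₀) = 0 := by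
      rw [two_smul]
      linear_combination (norm := module) h5 + h7
    have h10 : (2 : F) • (c 1 • fh e₀) = 0 := by
      rw [two_smul]
      linear_combination (norm := module) h5 - h7
    have h11 : (2 : F) • (c 2 • fv e₀) = 0 := by
      rw [two_smul]
      linear_combination (norm := module) h6 + h8
    have h12 : (2 : F) • (c 3 • fv (fh e₀)) = 0 := by
      rw [two_smul]
      linear_combination (norm := module) h6 - h8
    have h13 := (smul_eq_zero.mp ((smul_eq_zero.mp h9).resolve_left h2)).resolve_right (hne 0)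
    have h14 := (smul_eq_zero.mp ((smul_eq_zero.mp h10).resolve_left h2)).resolve_right (hne 1)
    have h15 := (smul_eq_zero.mp ((smul_eq_zero.mp h11).resolve_left h2)).resolve_right (hne 2)
    have h16 := (smul_eq_zero.mp ((smul_eq_zero.mp h12).resolve_left h2)).resolve_right (hne 3)
    intro i
    fin_cases i
    · exact h13
    · exact h14
    · exact h15
    · exact h16
  let b : Basis (Fin 4) F V := basisOfLinearIndependentOfCardEqFinrank hli (by simp [hV])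
  have hb : ∀ i, b i = vv i := fun i => by simp [b]
  have b0 : b 0 = e₀ := by rw [hb]; rfl
  have b1 : b 1 = fh e₀ := by rw [hb]; rfl
  have b2 : b 2 = fv e₀ := by rw [hb]; rfl
  have b3 : b 3 = fv (fh e₀) := by rw [hb]; rfl
  refine ⟨b, ⟨?_, ?_, ?_, ?_⟩, ⟨?_, ?_, ?_, ?_⟩, ⟨?_, ?_, ?_, ?_⟩, ⟨?_, ?_, ?_, ?_⟩⟩
  · rw [b0, u0]
  · rw [b1, u1]
  · rw [b2, u2]
  · rw [b3, u3]
  · rw [b0, g0]
  · rw [b1, g1]
  · rw [b2, g2]
  · rw [b3, g3]
  · rw [b0, b2]
  · rw [b1, b3]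
  · rw [b2, b0, hv]
  · rw [b3, b1, hv]
  · rw [b0, b1]
  · rw [b1, b0, hh]
  · rw [b2, b3, hvh]
  · rw [b3, b2, ← hvh, hh]

end Frame

section Data

variable {F : Type*} [Field F]

/-- The frame data of the group. -/
structure Pauli (R : Subgroup (GL (Fin 4) F)) (i : F) (ι u v g h P : GL (Fin 4) F) : Prop where
  fin : Finite R
  card : Nat.card R = 64
  mem_ι : ι ∈ R
  mem_u : u ∈ R
  mem_v : v ∈ R
  mem_g : g ∈ R
  mem_h : h ∈ R
  hi : i * i = -1
  hι : (ι : Matrix (Fin 4) (Fin 4) F) = i • 1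
  gens : ∀ K : Subgroup (GL (Fin 4) F), ι ∈ K → u ∈ K → v ∈ K → g ∈ K → h ∈ K → R ≤ K
  signs : ∀ a ∈ R, ∀ b ∈ R, (a : Matrix (Fin 4) (Fin 4) F) * b = b * a ∨ (a : Matrix (Fin 4) (Fin 4) F) * b = -(b * a)
  comm : ∀ M : Matrix (Fin 4) (Fin 4) F, (∀ s ∈ R, M * (s : Matrix (Fin 4) (Fin 4) F) = s * M) → ∃ c : F, M = c • 1
  four : ∀ a ∈ R, a ^ 4 = 1
  hU : (u : Matrix (Fin 4) (Fin 4) F) * P = P * Z₁ F
  hV : (v : Matrix (Fin 4) (Fin 4) F) * P = P * X₁ F
  hG : (g : Matrix (Fin 4) (Fin 4) F) * P = P * Z₂ F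
  hH : (h : Matrix (Fin 4) (Fin 4) F) * P = P * X₂ F

theorem exists_pauli (h2 : (2 : F) ≠ 0) (R : Subgroup (GL (Fin 4) F)) (hs : Cfsg.Geo.IsSymplecticTypeGroup 2 R)
    (hcomm : ∀ M : Matrix (Fin 4) (Fin 4) F, (∀ s ∈ Cfsg.Geo.matrixSet R, M * s = s * M) → ∃ c : F, M = c • (1 : Matrix (Fin 4) (Fin 4) F))
    (hR : Nat.card R = 2 ^ 6) (hZ : Nat.card (Subgroup.center R) = 4) :
    ∃ (i : F) (ι u v g h P : GL (Fin 4) F), Pauli R i ι u v g h P := by
  classical
  haveI hfin : Finite R := Nat.finite_of_card_ne_zero (by rw [hR]; norm_num)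
  have hexp : Monoid.exponent R = 4 := by
    rw [hs.exponent_eq]
    norm_num
  have h4 : ∀ x : R, x ^ 4 = 1 := fun x => by
    have := Monoid.pow_exponent_eq_one x
    rwa [hexp] at this
  have hcomm' : ∀ M : Matrix (Fin 4) (Fin 4) F, (∀ s ∈ R, M * (s : Matrix (Fin 4) (Fin 4) F) = s * M) → ∃ c : F, M = c • 1 := by
    intro M hM
    apply hcomm
    rintro _ ⟨s, hs, rfl⟩
    exact hM s hs
  obtain ⟨z, u, v, g, h, hzc, hzz, hu2, hv2, hg2, hh2, huv, hgh, hug, huh, hvg, hvh, hgens, hsign⟩ :=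
    Struct.exists_gens (G := R) (by rw [hR]; norm_num) h4 hs.cyclic_of_characteristic hZ
  -- central elements are scalars
  have hscal : ∀ ζ ∈ Subgroup.center R, ∃ c : F, ((ζ : GL (Fin 4) F) : Matrix (Fin 4) (Fin 4) F) = c • 1 := by
    intro ζ hζ
    apply hcomm'
    intro s hs
    have := Subgroup.mem_center_iff.mp hζ ⟨s, hs⟩
    exact (congrArg (fun a : R => ((a : GL (Fin 4) F) : Matrix (Fin 4) (Fin 4) F)) this).symm
  have hval : ∀ a b : R, ((a * b : R) : GL (Fin 4) F) = (a : GL (Fin 4) F) * b := fun _ _ => rfl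
  obtain ⟨i, hzi⟩ := hscal z hzc
  have hcoe : ∀ a b : R, (((a * b : R) : GL (Fin 4) F) : Matrix (Fin 4) (Fin 4) F) =
      ((a : GL (Fin 4) F) : Matrix (Fin 4) (Fin 4) F) * ((b : GL (Fin 4) F) : Matrix (Fin 4) (Fin 4) F) := fun _ _ => rfl
  have hcoe1 : (((1 : R) : GL (Fin 4) F) : Matrix (Fin 4) (Fin 4) F) = 1 := rfl
  have hzzm : ((z * z : R) : GL (Fin 4) F).val = (i * i) • (1 : Matrix (Fin 4) (Fin 4) F) := by
    rw [hcoe, hzi]
    simp [smul_smul]
  have hii1 : i * i ≠ 1 := by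
    intro h1
    apply hzz
    apply Subtype.ext
    apply Units.ext
    rw [hzzm, h1, one_smul]
    rfl
  have hi4 : (i * i) * (i * i) = 1 := by
    have h5 := h4 z
    have h6 : z * z * (z * z) = 1 := by
      rw [← h5]
      simp only [pow_succ, pow_zero, one_mul, mul_assoc]
    have h7 : (((z * z * (z * z) : R) : GL (Fin 4) F) : Matrix (Fin 4) (Fin 4) F) = ((i * i) * (i * i)) • 1 := by
      rw [hcoe, hzzm]
      simp [smul_smul]
    rw [h6, hcoe1] at h7
    have h8 := congrFun (congrFun h7 0) 0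
    simpa using h8.symm
  have hi : i * i = -1 := by
    have h5 : (i * i - 1) * (i * i + 1) = 0 := by linear_combination hi4
    rcases mul_eq_zero.mp h5 with h6 | h6
    · exact absurd (sub_eq_zero.mp h6) hii1
    · linear_combination h6
  have hJ : ((z * z : R) : GL (Fin 4) F).val = -1 := by
    rw [hzzm, hi]
    simp
  -- from commutators to signs
  have hcommval : ∀ a b : R, a * b * a⁻¹ * b⁻¹ = z * z →
      ((a : GL (Fin 4) F) : Matrix (Fin 4) (Fin 4) F) * ((b : GL (Fin 4) F) : Matrix (Fin 4) (Fin 4) F) =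
        -(((b : GL (Fin 4) F) : Matrix (Fin 4) (Fin 4) F) * ((a : GL (Fin 4) F) : Matrix (Fin 4) (Fin 4) F)) := by
    intro a b hab
    have e : a * b = (z * z) * (b * a) := by
      rw [← hab]
      group
    have h1 : (((a * b : R) : GL (Fin 4) F) : Matrix (Fin 4) (Fin 4) F) = (((z * z * (b * a) : R) : GL (Fin 4) F) : Matrix (Fin 4) (Fin 4) F) := by rw [e]
    rw [hcoe a b, hcoe (z * z) (b * a), hcoe b a, hJ] at h1
    simpa using h1
  let fu := Matrix.toLin' ((u : GL (Fin 4) F) : Matrix (Fin 4) (Fin 4) F)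
  let fv := Matrix.toLin' ((v : GL (Fin 4) F) : Matrix (Fin 4) (Fin 4) F)
  let fg := Matrix.toLin' ((g : GL (Fin 4) F) : Matrix (Fin 4) (Fin 4) F)
  let fh := Matrix.toLin' ((h : GL (Fin 4) F) : Matrix (Fin 4) (Fin 4) F)
  have hinv : ∀ a : R, a * a = 1 → ∀ x, Matrix.toLin' ((a : GL (Fin 4) F) : Matrix (Fin 4) (Fin 4) F) (Matrix.toLin' ((a : GL (Fin 4) F) : Matrix (Fin 4) (Fin 4) F) x) = x := by
    intro a ha x
    simp only [Matrix.toLin'_apply]
    rw [Matrix.mulVec_mulVec, ← hcoe, ha, hcoe1, Matrix.one_mulVec]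
  have hanti : ∀ a b : R, a * b * a⁻¹ * b⁻¹ = z * z → ∀ x, Matrix.toLin' ((a : GL (Fin 4) F) : Matrix (Fin 4) (Fin 4) F) (Matrix.toLin' ((b : GL (Fin 4) F) : Matrix (Fin 4) (Fin 4) F) x) =
      -Matrix.toLin' ((b : GL (Fin 4) F) : Matrix (Fin 4) (Fin 4) F) (Matrix.toLin' ((a : GL (Fin 4) F) : Matrix (Fin 4) (Fin 4) F) x) := by
    intro a b hab x
    simp only [Matrix.toLin'_apply]
    rw [Matrix.mulVec_mulVec, Matrix.mulVec_mulVec, hcommval a b hab, Matrix.neg_mulVec]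
  have hcm : ∀ a b : R, a * b = b * a → ∀ x, Matrix.toLin' ((a : GL (Fin 4) F) : Matrix (Fin 4) (Fin 4) F) (Matrix.toLin' ((b : GL (Fin 4) F) : Matrix (Fin 4) (Fin 4) F) x) =
      Matrix.toLin' ((b : GL (Fin 4) F) : Matrix (Fin 4) (Fin 4) F) (Matrix.toLin' ((a : GL (Fin 4) F) : Matrix (Fin 4) (Fin 4) F) x) := by
    intro a b hab x
    simp only [Matrix.toLin'_apply]
    rw [Matrix.mulVec_mulVec, Matrix.mulVec_mulVec, ← hcoe, ← hcoe, hab]
  obtain ⟨bb, ⟨h1, h2', h3, h4'⟩, ⟨h5, h6, h7, h8⟩, ⟨h9, h10, h11, h12⟩, ⟨h13, h14, h15, h16⟩⟩ :=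
    exists_frame (V := Fin 4 → F) (by simp) h2 fu fv fg fh (hinv u hu2) (hinv v hv2) (hinv g hg2) (hinv h hh2)
      (hanti u v huv) (hanti g h hgh) (hcm u g hug) (hcm u h huh) (hcm v g hvg) (hcm v h hvh)
  let P := basisGL bb
  have hzcval : ∀ ζ ∈ Subgroup.center R, ∃ c : F, c * c * (c * c) = 1 ∧ ((ζ : GL (Fin 4) F) : Matrix (Fin 4) (Fin 4) F) = c • 1 := by
    intro ζ hζ
    obtain ⟨c, hc⟩ := hscal ζ hζ
    refine ⟨c, ?_, hc⟩
    have h5 := h4 ζ
    have h6 : ζ * ζ * (ζ * ζ) = 1 := by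
      rw [← h5]
      simp only [pow_succ, pow_zero, one_mul, mul_assoc]
    have h7 : (((ζ * ζ * (ζ * ζ) : R) : GL (Fin 4) F) : Matrix (Fin 4) (Fin 4) F) = (c * c * (c * c)) • 1 := by
      rw [hcoe, hcoe, hc]
      simp [smul_smul, mul_assoc]
    rw [h6, hcoe1] at h7
    have h8 := congrFun (congrFun h7 0) 0
    simpa using h8.symm
  refine ⟨i, z, u, v, g, h, P, hfin, by rw [hR]; norm_num, z.2, u.2, v.2, g.2, h.2, hi, hzi, ?_, ?_, hcomm', ?_, ?_, ?_, ?_, ?_⟩
  · -- generation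
    intro K hKz hKu hKv hKg hKh r hr
    obtain ⟨a, b, c, d, hc⟩ := hgens ⟨r, hr⟩
    set ζ : R := ⟨r, hr⟩ * v ^ a * u ^ b * h ^ c * g ^ d with hζ
    have hζK : (ζ : GL (Fin 4) F) ∈ K := by
      obtain ⟨c', hc'4, hc'⟩ := hzcval ζ hc
      have hroots : (c' - 1) * (c' + 1) * (c' - i) * (c' + i) = 0 := by
        linear_combination hc'4 + (-c' * c' + 1) * hi
      have hpw : ∀ k : ℕ, (((z ^ k : R) : GL (Fin 4) F) : Matrix (Fin 4) (Fin 4) F) = i ^ k • 1 := by
        intro k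
        induction k with
        | zero => simp
        | succ k ih =>
          rw [pow_succ, hcoe, ih, hzi, pow_succ]
          simp [smul_smul, mul_comm]
      have hzK : ∀ k : ℕ, ((z ^ k : R) : GL (Fin 4) F) ∈ K := by
        intro k
        have : ((z ^ k : R) : GL (Fin 4) F) = (z : GL (Fin 4) F) ^ k := by simp
        rw [this]
        exact K.pow_mem hKz k
      have hζz : ∀ k : ℕ, c' = i ^ k → (ζ : GL (Fin 4) F) ∈ K := by
        intro k hk
        have : (ζ : GL (Fin 4) F) = ((z ^ k : R) : GL (Fin 4) F) := by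
          apply Units.ext
          rw [hc', hpw, hk]
        rw [this]
        exact hzK k
      rcases mul_eq_zero.mp hroots with h5 | h5
      · rcases mul_eq_zero.mp h5 with h6 | h6
        · rcases mul_eq_zero.mp h6 with h7 | h7
          · exact hζz 0 (by simpa using sub_eq_zero.mp h7)
          · refine hζz 2 ?_
            rw [pow_two, hi]
            linear_combination h7
        · exact hζz 1 (by simpa using sub_eq_zero.mp h6)
      · refine hζz 3 ?_
        have e : i ^ 3 = -i := by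
          rw [pow_succ, pow_two, hi]
          ring
        rw [e]
        linear_combination h5
    have e : r = (ζ : GL (Fin 4) F) * ((g : GL (Fin 4) F) ^ d)⁻¹ * ((h : GL (Fin 4) F) ^ c)⁻¹ * ((u : GL (Fin 4) F) ^ b)⁻¹ * ((v : GL (Fin 4) F) ^ a)⁻¹ := by
      rw [hζ]
      simp only [Subgroup.coe_mul, Subgroup.coe_pow]
      group
    rw [e]
    exact K.mul_mem (K.mul_mem (K.mul_mem (K.mul_mem hζK (K.inv_mem (K.pow_mem hKg d))) (K.inv_mem (K.pow_mem hKh c)))
      (K.inv_mem (K.pow_mem hKu b))) (K.inv_mem (K.pow_mem hKv a))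
  · intro a ha b hb
    rcases hsign ⟨a, ha⟩ ⟨b, hb⟩ with h' | h'
    · left
      have e : (⟨a, ha⟩ : R) * ⟨b, hb⟩ = ⟨b, hb⟩ * ⟨a, ha⟩ := by
        have h1 : (⟨a, ha⟩ : R) * ⟨b, hb⟩ = ((⟨a, ha⟩ : R) * ⟨b, hb⟩ * (⟨a, ha⟩ : R)⁻¹ * (⟨b, hb⟩ : R)⁻¹) * (⟨b, hb⟩ * ⟨a, ha⟩) := by group
        rw [h', one_mul] at h1
        exact h1
      exact congrArg (fun x : R => ((x : GL (Fin 4) F) : Matrix (Fin 4) (Fin 4) F)) e
    · right
      exact hcommval ⟨a, ha⟩ ⟨b, hb⟩ h'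
  · intro a ha
    have := congrArg Subtype.val (h4 ⟨a, ha⟩)
    simpa using this
  · apply mat_of_vec bb _ (Z₁ F)
    intro j
    rw [Z₁, sum_diagonal]
    fin_cases j
    · simpa [fu] using h1
    · simpa [fu] using h2'
    · simpa [fu] using h3
    · simpa [fu] using h4'
  · apply mat_of_vec bb _ (X₁ F)
    intro j
    rw [Fin.sum_univ_four]
    fin_cases j
    · simpa [fv, X₁] using h9
    · simpa [fv, X₁] using h10
    · simpa [fv, X₁] using h11
    · simpa [fv, X₁] using h12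
  · apply mat_of_vec bb _ (Z₂ F)
    intro j
    rw [Z₂, sum_diagonal]
    fin_cases j
    · simpa [fg] using h5
    · simpa [fg] using h6
    · simpa [fg] using h7
    · simpa [fg] using h8
  · apply mat_of_vec bb _ (X₂ F)
    intro j
    rw [Fin.sum_univ_four]
    fin_cases j
    · simpa [fh, X₂] using h13
    · simpa [fh, X₂] using h14
    · simpa [fh, X₂] using h15
    · simpa [fh, X₂] using h16

end Data

end Cfsg.Agent.Lib.TwoSix
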