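import Cfsg.Agent.Lib.TwoSix.Types

/-!
# Explicit elements of the Clifford group
-/

set_option autoImplicit false

open scoped MatrixGroups Matrix
open Cfsg Module

namespace Cfsg.Agent.Lib.TwoSix

variable {F : Type*} [Field F]

theorem Z₁_eq : Z₁ F = !![1, 0, 0, 0; 0, 1, 0, 0; 0, 0, -1, 0; 0, 0, 0, -1] := by
  ext a b
  fin_cases a <;> fin_cases b <;> simp [Z₁]

theorem Z₂_eq : Z₂ F = !![1, 0, 0, 0; 0, -1, 0, 0; 0, 0, 1, 0; 0, 0, 0, -1] := by
  ext a b
  fin_cases a <;> fin_cases b <;> simp [Z₂]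

/-- The element `S H ⊗ 1` of the Clifford group. -/
def Ma (i : F) : Matrix (Fin 4) (Fin 4) F := !![1, 0, 1, 0; 0, 1, 0, 1; i, 0, -i, 0; 0, i, 0, -i]
/-- The element `S H ⊗ S H` of the Clifford group. -/
def Mb (i : F) : Matrix (Fin 4) (Fin 4) F := !![1, 1, 1, 1; i, -i, i, -i; i, i, -i, -i; -1, 1, 1, -1]
/-- An element of order five modulo scalars in the Clifford group. -/
def M5 (i : F) : Matrix (Fin 4) (Fin 4) F := !![1, 1, i, -i; 1, -1, i, i; 1, 1, -i, i; 1, -1, -i, -i]

section Ids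

variable {i : F} (hi : i * i = -1)

include hi

theorem Ma_Z₁ : Ma i * Z₁ F = (i • (X₁ F * Z₁ F)) * Ma i := by
  rw [Z₁_eq]
  ext a b
  fin_cases a <;> fin_cases b <;> simp [Ma, X₁, Matrix.mul_apply, Fin.sum_univ_four, hi]

theorem Ma_X₁ : Ma i * X₁ F = Z₁ F * Ma i := by
  rw [Z₁_eq]
  ext a b
  fin_cases a <;> fin_cases b <;> simp [Ma, X₁, Matrix.mul_apply, Fin.sum_univ_four, hi]

theorem Ma_Z₂ : Ma i * Z₂ F = Z₂ F * Ma i := by
  rw [Z₂_eq]
  ext a b
  fin_cases a <;> fin_cases b <;> simp [Ma, Matrix.mul_apply, Fin.sum_univ_four, hi]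

theorem Ma_X₂ : Ma i * X₂ F = X₂ F * Ma i := by
  ext a b
  fin_cases a <;> fin_cases b <;> simp [Ma, X₂, Matrix.mul_apply, Fin.sum_univ_four, hi]

theorem Mb_Z₁ : Mb i * Z₁ F = (i • (X₁ F * Z₁ F)) * Mb i := by
  rw [Z₁_eq]
  ext a b
  fin_cases a <;> fin_cases b <;> simp [Mb, X₁, Matrix.mul_apply, Fin.sum_univ_four, hi]

theorem Mb_X₁ : Mb i * X₁ F = Z₁ F * Mb i := by
  rw [Z₁_eq]
  ext a b
  fin_cases a <;> fin_cases b <;> simp [Mb, X₁, Matrix.mul_apply, Fin.sum_univ_four, hi]

theorem Mb_Z₂ : Mb i * Z₂ F = (i • (X₂ F * Z₂ F)) * Mb i := by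
  rw [Z₂_eq]
  ext a b
  fin_cases a <;> fin_cases b <;> simp [Mb, X₂, Matrix.mul_apply, Fin.sum_univ_four, hi]

theorem Mb_X₂ : Mb i * X₂ F = Z₂ F * Mb i := by
  rw [Z₂_eq]
  ext a b
  fin_cases a <;> fin_cases b <;> simp [Mb, X₂, Matrix.mul_apply, Fin.sum_univ_four, hi]

theorem M5_Z₁ : M5 i * Z₁ F = X₁ F * M5 i := by
  rw [Z₁_eq]
  ext a b
  fin_cases a <;> fin_cases b <;> simp [M5, X₁, Matrix.mul_apply, Fin.sum_univ_four, hi]

theorem M5_X₁ : M5 i * X₁ F = ((-i) • (X₁ F * Z₁ F * X₂ F)) * M5 i := by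
  rw [Z₁_eq]
  ext a b
  fin_cases a <;> fin_cases b <;> simp [M5, X₁, X₂, Matrix.mul_apply, Fin.sum_univ_four, hi]

theorem M5_Z₂ : M5 i * Z₂ F = X₂ F * M5 i := by
  rw [Z₂_eq]
  ext a b
  fin_cases a <;> fin_cases b <;> simp [M5, X₂, Matrix.mul_apply, Fin.sum_univ_four, hi]

theorem M5_X₂ : M5 i * X₂ F = (X₁ F * Z₂ F) * M5 i := by
  rw [Z₂_eq]
  ext a b
  fin_cases a <;> fin_cases b <;> simp [M5, X₁, X₂, Matrix.mul_apply, Fin.sum_univ_four, hi]

theorem Ma_sq : Ma i * Ma i = !![1 + i, 0, 1 - i, 0; 0, 1 + i, 0, 1 - i; 1 + i, 0, -1 + i, 0; 0, 1 + i, 0, -1 + i] := by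
  ext a b
  fin_cases a <;> fin_cases b <;> simp [Ma, Matrix.mul_apply, Fin.sum_univ_four, hi] <;>
    first | ring1 | linear_combination hi | linear_combination -hi | linear_combination 2 * hi | linear_combination -2 * hi | linear_combination 3 * hi | linear_combination -3 * hi | linear_combination 4 * hi | linear_combination -4 * hi | linear_combination 8 * hi | linear_combination -8 * hi | linear_combination 16 * hi | linear_combination -16 * hi

theorem Ma_cube : Ma i * Ma i * Ma i = (2 + 2 * i) • 1 := by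
  rw [Ma_sq hi]
  ext a b
  fin_cases a <;> fin_cases b <;> simp [Ma, Matrix.mul_apply, Fin.sum_univ_four, hi] <;>
    first | ring1 | linear_combination hi | linear_combination -hi | linear_combination 2 * hi | linear_combination -2 * hi | linear_combination 3 * hi | linear_combination -3 * hi | linear_combination 4 * hi | linear_combination -4 * hi | linear_combination 8 * hi | linear_combination -8 * hi | linear_combination 16 * hi | linear_combination -16 * hi

theorem Mb_sq : Mb i * Mb i = !![2 * i, 2, 2, -2 * i; 2 * i, -2, 2, 2 * i; 2 * i, 2, -2, 2 * i; 2 * i, -2, -2, -2 * i] := by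
  ext a b
  fin_cases a <;> fin_cases b <;> simp [Mb, Matrix.mul_apply, Fin.sum_univ_four, hi] <;>
    first | ring1 | linear_combination hi | linear_combination -hi | linear_combination 2 * hi | linear_combination -2 * hi | linear_combination 3 * hi | linear_combination -3 * hi | linear_combination 4 * hi | linear_combination -4 * hi | linear_combination 8 * hi | linear_combination -8 * hi | linear_combination 16 * hi | linear_combination -16 * hi

theorem Mb_cube : Mb i * Mb i * Mb i = (8 * i) • 1 := by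
  rw [Mb_sq hi]
  ext a b
  fin_cases a <;> fin_cases b <;> simp [Mb, Matrix.mul_apply, Fin.sum_univ_four, hi] <;>
    first | ring1 | linear_combination hi | linear_combination -hi | linear_combination 2 * hi | linear_combination -2 * hi | linear_combination 3 * hi | linear_combination -3 * hi | linear_combination 4 * hi | linear_combination -4 * hi | linear_combination 8 * hi | linear_combination -8 * hi | linear_combination 16 * hi | linear_combination -16 * hi

theorem M5_sq : M5 i * M5 i = !![2, 2 * i, 2 * i, -2; 2 * i, 2, 2, -2 * i; 2, -2 * i, 2 * i, 2; -2 * i, 2, -2, -2 * i] := by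
  ext a b
  fin_cases a <;> fin_cases b <;> simp [M5, Matrix.mul_apply, Fin.sum_univ_four, hi] <;>
    first | ring1 | linear_combination hi | linear_combination -hi | linear_combination 2 * hi | linear_combination -2 * hi | linear_combination 3 * hi | linear_combination -3 * hi | linear_combination 4 * hi | linear_combination -4 * hi | linear_combination 8 * hi | linear_combination -8 * hi | linear_combination 16 * hi | linear_combination -16 * hi

theorem M5_four : M5 i * M5 i * (M5 i * M5 i) = !![8 * i, 8 * i, 8 * i, 8 * i; 8 * i, -8 * i, 8 * i, -8 * i; 8, 8, -8, -8; -8, 8, 8, -8] := by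
  rw [M5_sq hi]
  ext a b
  fin_cases a <;> fin_cases b <;> simp [M5, Matrix.mul_apply, Fin.sum_univ_four, hi] <;>
    first | ring1 | linear_combination hi | linear_combination -hi | linear_combination 2 * hi | linear_combination -2 * hi | linear_combination 3 * hi | linear_combination -3 * hi | linear_combination 4 * hi | linear_combination -4 * hi | linear_combination 8 * hi | linear_combination -8 * hi | linear_combination 16 * hi | linear_combination -16 * hi

theorem M5_five : M5 i * M5 i * M5 i * M5 i * M5 i = (32 * i) • 1 := by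
  have e : M5 i * M5 i * M5 i * M5 i * M5 i = M5 i * M5 i * (M5 i * M5 i) * M5 i := by
    simp only [Matrix.mul_assoc]
  rw [e, M5_four hi]
  ext a b
  fin_cases a <;> fin_cases b <;> simp [M5, Matrix.mul_apply, Fin.sum_univ_four, hi] <;>
    first | ring1 | linear_combination hi | linear_combination -hi | linear_combination 2 * hi | linear_combination -2 * hi | linear_combination 3 * hi | linear_combination -3 * hi | linear_combination 4 * hi | linear_combination -4 * hi | linear_combination 8 * hi | linear_combination -8 * hi | linear_combination 16 * hi | linear_combination -16 * hi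

end Ids

namespace Pauli

variable {R : Subgroup (GL (Fin 4) F)} {i : F} {ι u v g h P : GL (Fin 4) F}

theorem norm_a (hF : Pauli R i ι u v g h P) (T₀ : GL (Fin 4) F) {c : F} (hT : (T₀ : Matrix (Fin 4) (Fin 4) F) = c • Ma i) :
    P * T₀ * P⁻¹ ∈ Cfsg.Geo.subgroupNormalizer R := by
  have hi := hF.hi
  refine hF.norm T₀ (hF.model_i (hF.model_X₁.mul hF.model_Z₁)) hF.model_Z₁ hF.model_Z₂ hF.model_X₂ ?_ ?_ ?_ ?_
  · rw [hT, Matrix.smul_mul, Ma_Z₁ hi, Matrix.mul_smul]
  · rw [hT, Matrix.smul_mul, Ma_X₁ hi, Matrix.mul_smul]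
  · rw [hT, Matrix.smul_mul, Ma_Z₂ hi, Matrix.mul_smul]
  · rw [hT, Matrix.smul_mul, Ma_X₂ hi, Matrix.mul_smul]

theorem norm_b (hF : Pauli R i ι u v g h P) (T₀ : GL (Fin 4) F) {c : F} (hT : (T₀ : Matrix (Fin 4) (Fin 4) F) = c • Mb i) :
    P * T₀ * P⁻¹ ∈ Cfsg.Geo.subgroupNormalizer R := by
  have hi := hF.hi
  refine hF.norm T₀ (hF.model_i (hF.model_X₁.mul hF.model_Z₁)) hF.model_Z₁ (hF.model_i (hF.model_X₂.mul hF.model_Z₂)) hF.model_Z₂ ?_ ?_ ?_ ?_
  · rw [hT, Matrix.smul_mul, Mb_Z₁ hi, Matrix.mul_smul]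
  · rw [hT, Matrix.smul_mul, Mb_X₁ hi, Matrix.mul_smul]
  · rw [hT, Matrix.smul_mul, Mb_Z₂ hi, Matrix.mul_smul]
  · rw [hT, Matrix.smul_mul, Mb_X₂ hi, Matrix.mul_smul]

theorem norm_5 (hF : Pauli R i ι u v g h P) (T₀ : GL (Fin 4) F) {c : F} (hT : (T₀ : Matrix (Fin 4) (Fin 4) F) = c • M5 i) :
    P * T₀ * P⁻¹ ∈ Cfsg.Geo.subgroupNormalizer R := by
  have hi := hF.hi
  have hneg : IsModel R P ((-i) • (X₁ F * Z₁ F * X₂ F)) := by
    have := hF.model_neg (hF.model_i ((hF.model_X₁.mul hF.model_Z₁).mul hF.model_X₂))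
    rwa [← neg_smul] at this
  refine hF.norm T₀ hF.model_X₁ hneg hF.model_X₂ (hF.model_X₁.mul hF.model_Z₂) ?_ ?_ ?_ ?_
  · rw [hT, Matrix.smul_mul, M5_Z₁ hi, Matrix.mul_smul]
  · rw [hT, Matrix.smul_mul, M5_X₁ hi, Matrix.mul_smul]
  · rw [hT, Matrix.smul_mul, M5_Z₂ hi, Matrix.mul_smul]
  · rw [hT, Matrix.smul_mul, M5_X₂ hi, Matrix.mul_smul]

end Pauli

end Cfsg.Agent.Lib.TwoSix
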