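import Cfsg.Agent.Lib.TwoSix.Pos

/-!
# The negative direction: elements that never normalize the group
-/

set_option autoImplicit false

open scoped MatrixGroups Matrix Polynomial
open Cfsg Module

namespace Cfsg.Agent.Lib.TwoSix

variable {F : Type*} [Field F]

namespace Pauli

variable {R : Subgroup (GL (Fin 4) F)} {i : F} {ι u v g h P : GL (Fin 4) F}

theorem scalar_of_three (hF : Pauli R i ι u v g h P) (h2 : (2 : F) ≠ 0) (h3 : (3 : F) ≠ 0) {y : GL (Fin 4) F}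
    (hy : y ∈ Cfsg.Geo.subgroupNormalizer R) (hy3 : y ^ 3 = 1)
    (ht : Matrix.trace (y : Matrix (Fin 4) (Fin 4) F) * Matrix.trace ((y⁻¹ : GL (Fin 4) F) : Matrix (Fin 4) (Fin 4) F) = 7) :
    ∃ c : F, (y : Matrix (Fin 4) (Fin 4) F) = c • 1 := by
  haveI : Fact (Nat.Prime 3) := ⟨Nat.prime_three⟩
  haveI := hF.fin
  have hf := hF.trace_formula h2 hy (by decide : Odd 3) hy3
  have hc := count_mod (H := R) (y := y) (fun a ha => norm_conj hy ha) hy3
  rw [hF.card] at hc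
  rw [mul_assoc, ht] at hf
  have h24 : (24 : F) ≠ 0 := by
    have e : (24 : F) = 2 * 2 * 2 * 3 := by norm_num
    rw [e]
    exact mul_ne_zero (mul_ne_zero (mul_ne_zero h2 h2) h2) h3
  have h12 : (12 : F) ≠ 0 := by
    have e : (12 : F) = 2 * 2 * 3 := by norm_num
    rw [e]
    exact mul_ne_zero (mul_ne_zero h2 h2) h3
  rcases hF.card_cases h2 (y := y) with h | h | h | h | h
  · exfalso
    rw [h] at hf
    apply h24
    push_cast at hf
    linear_combination -hf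
  · exfalso
    rw [h] at hc
    exact absurd hc (by decide)
  · exfalso
    rw [h] at hf
    apply h12
    push_cast at hf
    linear_combination -hf
  · exfalso
    rw [h] at hc
    exact absurd hc (by decide)
  · exact hF.scalar_of_card h

theorem scalar_of_five (hF : Pauli R i ι u v g h P) (h2 : (2 : F) ≠ 0) (h5 : (5 : F) ≠ 0) {y : GL (Fin 4) F}
    (hy : y ∈ Cfsg.Geo.subgroupNormalizer R) (hy5 : y ^ 5 = 1) {t : F} (hq : t * t + t - 1 = 0)
    (ht : Matrix.trace (y : Matrix (Fin 4) (Fin 4) F) * Matrix.trace ((y⁻¹ : GL (Fin 4) F) : Matrix (Fin 4) (Fin 4) F) = 3 * t + 5) :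
    ∃ c : F, (y : Matrix (Fin 4) (Fin 4) F) = c • 1 := by
  haveI : Fact (Nat.Prime 5) := ⟨by norm_num⟩
  haveI := hF.fin
  have hf := hF.trace_formula h2 hy (by decide : Odd 5) hy5
  have hc := count_mod (H := R) (y := y) (fun a ha => norm_conj hy ha) hy5
  rw [hF.card] at hc
  rw [mul_assoc, ht] at hf
  rcases hF.card_cases h2 (y := y) with h | h | h | h | h
  · exfalso
    rw [h] at hf
    push_cast at hf
    have h4 : (4 : F) ≠ 0 := four_ne h2
    have h1 : 3 * t + 4 = 0 := by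
      apply mul_left_cancel₀ h4
      linear_combination -hf
    apply h5
    linear_combination (3 * t - 1) * h1 - 9 * hq
  · exfalso
    rw [h] at hc
    exact absurd hc (by decide)
  · exfalso
    rw [h] at hc
    exact absurd hc (by decide)
  · exfalso
    rw [h] at hc
    exact absurd hc (by decide)
  · exact hF.scalar_of_card h

theorem trace_conj (g x : GL (Fin 4) F) :
    Matrix.trace ((g⁻¹ * x * g : GL (Fin 4) F) : Matrix (Fin 4) (Fin 4) F) = Matrix.trace (x : Matrix (Fin 4) (Fin 4) F) := by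
  have hGG : (g : Matrix (Fin 4) (Fin 4) F) * ((g⁻¹ : GL (Fin 4) F) : Matrix (Fin 4) (Fin 4) F) = 1 := by
    rw [← Units.val_mul, mul_inv_cancel, Units.val_one]
  rw [Units.val_mul, Units.val_mul, Matrix.trace_mul_comm, ← Matrix.mul_assoc, hGG, Matrix.one_mul]

theorem trace_conj_inv (g x : GL (Fin 4) F) :
    Matrix.trace (((g⁻¹ * x * g)⁻¹ : GL (Fin 4) F) : Matrix (Fin 4) (Fin 4) F) = Matrix.trace ((x⁻¹ : GL (Fin 4) F) : Matrix (Fin 4) (Fin 4) F) := by
  have e : (g⁻¹ * x * g)⁻¹ = g⁻¹ * x⁻¹ * g := by group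
  rw [e, trace_conj]

theorem conj_pow_eq_one (g x : GL (Fin 4) F) {n : ℕ} (hx : x ^ n = 1) : (g⁻¹ * x * g) ^ n = 1 := by
  have := conj_pow (a := g⁻¹) (b := x) (i := n)
  rw [inv_inv] at this
  rw [this, hx]
  simp

theorem scalar_of_conj {g x : GL (Fin 4) F} {c : F} (h : ((g⁻¹ * x * g : GL (Fin 4) F) : Matrix (Fin 4) (Fin 4) F) = c • 1) :
    (x : Matrix (Fin 4) (Fin 4) F) = c • 1 := by
  have e : x = g * (g⁻¹ * x * g) * g⁻¹ := by group
  have hgg : (g : Matrix (Fin 4) (Fin 4) F) * ((g⁻¹ : GL (Fin 4) F) : Matrix (Fin 4) (Fin 4) F) = 1 := by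
    rw [← Units.val_mul, mul_inv_cancel, Units.val_one]
  rw [e, Units.val_mul, Units.val_mul, h]
  simp only [Matrix.mul_smul, Matrix.smul_mul, Matrix.mul_one, hgg]

end Pauli

/-- The element of order three with eigenvalues `(ω, ω, ω, 1)`. -/
theorem exists_x3 {ω : F} (hω : ω * ω + ω + 1 = 0) :
    ∃ x : GL (Fin 4) F, (x : Matrix (Fin 4) (Fin 4) F) = Matrix.diagonal ![ω, ω, ω, 1] ∧
      ((x⁻¹ : GL (Fin 4) F) : Matrix (Fin 4) (Fin 4) F) = Matrix.diagonal ![ω * ω, ω * ω, ω * ω, 1] := by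
  have h3 : ω * (ω * ω) = 1 := by linear_combination (ω - 1) * hω
  have h3' : ω * ω * ω = 1 := by linear_combination (ω - 1) * hω
  refine ⟨⟨Matrix.diagonal ![ω, ω, ω, 1], Matrix.diagonal ![ω * ω, ω * ω, ω * ω, 1], ?_, ?_⟩, rfl, rfl⟩
  · rw [Matrix.diagonal_mul_diagonal, ← Matrix.diagonal_one]
    congr 1
    ext j
    fin_cases j <;> simp [h3]
  · rw [Matrix.diagonal_mul_diagonal, ← Matrix.diagonal_one]
    congr 1
    ext j
    fin_cases j <;> simp [h3']

/-- The element of order five with eigenvalues `(ζ, ζ⁻¹, 1, 1)`. -/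
def A5 (t : F) : Matrix (Fin 4) (Fin 4) F := !![0, -1, 0, 0; 1, t, 0, 0; 0, 0, 1, 0; 0, 0, 0, 1]
/-- The inverse of `A5`. -/
def B5 (t : F) : Matrix (Fin 4) (Fin 4) F := !![t, 1, 0, 0; -1, 0, 0, 0; 0, 0, 1, 0; 0, 0, 0, 1]
/-- The square of `A5`. -/
def C5 (t : F) : Matrix (Fin 4) (Fin 4) F := !![-1, -t, 0, 0; t, -t, 0, 0; 0, 0, 1, 0; 0, 0, 0, 1]

theorem A5_mul_B5 (t : F) : A5 t * B5 t = 1 := by
  ext a b
  fin_cases a <;> fin_cases b <;> simp [A5, B5, Matrix.mul_apply, Fin.sum_univ_four]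

theorem B5_mul_A5 (t : F) : B5 t * A5 t = 1 := by
  ext a b
  fin_cases a <;> fin_cases b <;> simp [A5, B5, Matrix.mul_apply, Fin.sum_univ_four]

theorem A5_sq {t : F} (hq : t * t + t - 1 = 0) : A5 t * A5 t = C5 t := by
  ext a b
  fin_cases a <;> fin_cases b <;> simp [A5, C5, Matrix.mul_apply, Fin.sum_univ_four] <;>
    first | ring1 | linear_combination hq

theorem C5_sq {t : F} (hq : t * t + t - 1 = 0) : C5 t * C5 t = B5 t := by
  ext a b
  fin_cases a <;> fin_cases b <;> simp [C5, B5, Matrix.mul_apply, Fin.sum_univ_four] <;>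
    first | ring1 | linear_combination hq | linear_combination -hq

theorem A5_five {t : F} (hq : t * t + t - 1 = 0) : A5 t * A5 t * A5 t * A5 t * A5 t = 1 := by
  have e : A5 t * A5 t * A5 t * A5 t * A5 t = (A5 t * A5 t) * (A5 t * A5 t) * A5 t := by
    simp only [Matrix.mul_assoc]
  rw [e, A5_sq hq, C5_sq hq, B5_mul_A5]

theorem A5_det (t : F) : (A5 t).det = 1 := by
  simp [A5, Matrix.det_succ_row_zero, Fin.sum_univ_succ, Fin.succAbove]

theorem exists_x5 {t : F} (hq : t * t + t - 1 = 0) :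
    ∃ x : GL (Fin 4) F, (x : Matrix (Fin 4) (Fin 4) F) = A5 t ∧ ((x⁻¹ : GL (Fin 4) F) : Matrix (Fin 4) (Fin 4) F) = B5 t ∧
      x ^ 5 = 1 :=
  ⟨⟨A5 t, B5 t, A5_mul_B5 t, B5_mul_A5 t⟩, rfl, rfl, by
    apply Units.ext
    rw [Units.val_pow_eq_pow_val, Units.val_one]
    have := A5_five hq
    simpa [pow_succ] using this⟩

/-- A transvection. -/
theorem exists_transvection : ∃ (x : GL (Fin 4) F) (a b : Fin 4 → F), (x : Matrix (Fin 4) (Fin 4) F) = 1 + Matrix.vecMulVec a b ∧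
    ((x⁻¹ : GL (Fin 4) F) : Matrix (Fin 4) (Fin 4) F) = 1 - Matrix.vecMulVec a b ∧ b ⬝ᵥ a = 0 ∧ a 0 ≠ 0 ∧ b 1 ≠ 0 := by
  set a₀ : Fin 4 → F := Pi.single 0 1 with ha₀
  set b₀ : Fin 4 → F := Pi.single 1 1 with hb₀
  have hdot : b₀ ⬝ᵥ a₀ = 0 := by
    simp [ha₀, hb₀]
  have hN : Matrix.vecMulVec a₀ b₀ * Matrix.vecMulVec a₀ b₀ = 0 := by
    rw [Matrix.vecMulVec_mul_vecMulVec, hdot]
    simp
  refine ⟨⟨1 + Matrix.vecMulVec a₀ b₀, 1 - Matrix.vecMulVec a₀ b₀, ?_, ?_⟩,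
    a₀, b₀, rfl, rfl, hdot, by simp [ha₀], by simp [hb₀]⟩
  · simp only [Matrix.mul_sub, Matrix.add_mul, Matrix.one_mul, Matrix.mul_one, hN]
    abel
  · simp only [Matrix.sub_mul, Matrix.mul_add, Matrix.one_mul, Matrix.mul_one, hN]
    abel

end Cfsg.Agent.Lib.TwoSix
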