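import Cfsg.Agent.Lib.TwoSix.Elem32
import Cfsg.Agent.Lib.Classical.Symp.SpGL

/-!
# Elements of the symplectic group that never normalize the group of order `32`
-/

set_option autoImplicit false

open scoped MatrixGroups Matrix
open Cfsg Module
open Cfsg.Agent.Lib.Classical.Symp.SpGL

namespace Cfsg.Agent.Lib.TwoSix

variable {F : Type*} [Field F]

theorem sympForm_coords (u v : I4 → F) : sympForm 2 F u v =
    u (Sum.inr 0) * v (Sum.inl 0) + u (Sum.inr 1) * v (Sum.inl 1) - u (Sum.inl 0) * v (Sum.inr 0) - u (Sum.inl 1) * v (Sum.inr 1) := by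
  simp [sympForm, Matrix.J, dotProduct, Matrix.mulVec, Fintype.sum_sum_type, Fin.sum_univ_two]
  ring

/-- A block acting on the first hyperbolic plane. -/
def blk (a b c d : F) : Matrix I4 I4 F :=
  Matrix.fromBlocks !![a, 0; 0, 1] !![b, 0; 0, 0] !![c, 0; 0, 0] !![d, 0; 0, 1]

theorem blk_mul (a b c d a' b' c' d' : F) : blk a b c d * blk a' b' c' d' =
    blk (a * a' + b * c') (a * b' + b * d') (c * a' + d * c') (c * b' + d * d') := by
  simp only [blk, Matrix.fromBlocks_multiply]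
  simp [Matrix.mul_fin_two]

theorem blk_one : blk (1 : F) 0 0 1 = 1 := by
  rw [blk, ← Matrix.fromBlocks_one]
  simp [Matrix.one_fin_two, ← Matrix.ext_iff, Fin.forall_fin_two]

theorem blk_trace (a b c d : F) : Matrix.trace (blk a b c d) = a + d + 2 := by
  simp [blk, Matrix.trace, Fintype.sum_sum_type, Fin.sum_univ_two]
  ring

theorem blk_apply_00 (a b c d : F) : blk a b c d (Sum.inl 0) (Sum.inl 0) = a := by simp [blk]
theorem blk_apply_11 (a b c d : F) : blk a b c d (Sum.inl 1) (Sum.inl 1) = 1 := by simp [blk]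
theorem blk_apply_01 (a b c d : F) : blk a b c d (Sum.inl 0) (Sum.inr 0) = b := by simp [blk]

theorem blk_form {a b c d : F} (h : a * d - b * c = 1) (u v : I4 → F) :
    sympForm 2 F (blk a b c d *ᵥ u) (blk a b c d *ᵥ v) = sympForm 2 F u v := by
  rw [sympForm_coords, sympForm_coords]
  simp [blk, Matrix.mulVec, dotProduct, Fintype.sum_sum_type, Fin.sum_univ_two]
  linear_combination (u (Sum.inr 0) * v (Sum.inl 0) - u (Sum.inl 0) * v (Sum.inr 0)) * h

/-- The group element of a block of determinant one. -/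
def blkGL {a b c d : F} (h : a * d - b * c = 1) : GL I4 F where
  val := blk a b c d
  inv := blk d (-b) (-c) a
  val_inv := by
    rw [blk_mul, ← blk_one]
    congr 1
    · linear_combination h
    · ring
    · ring
    · linear_combination h
  inv_val := by
    rw [blk_mul, ← blk_one]
    congr 1
    · linear_combination h
    · ring
    · ring
    · linear_combination h

theorem blkGL_coe {a b c d : F} (h : a * d - b * c = 1) : (blkGL h : Matrix I4 I4 F) = blk a b c d := rfl
theorem blkGL_inv_coe {a b c d : F} (h : a * d - b * c = 1) :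
    (((blkGL h)⁻¹ : GL I4 F) : Matrix I4 I4 F) = blk d (-b) (-c) a := rfl

theorem blkGL_mem {a b c d : F} (h : a * d - b * c = 1) : blkGL h ∈ spGL 2 F := by
  rw [mem_spGL_iff]
  intro u v
  exact blk_form h u v

theorem blkGL_ns {a b c d : F} (h : a * d - b * c = 1) (hn : a ≠ 1 ∨ b ≠ 0) :
    ∀ z : F, (blkGL h : Matrix I4 I4 F) ≠ z • (1 : Matrix I4 I4 F) := by
  intro z hz
  rw [blkGL_coe] at hz
  have h0 := congrFun (congrFun hz (Sum.inl 0)) (Sum.inl 0)
  have h1 := congrFun (congrFun hz (Sum.inl 1)) (Sum.inl 1)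
  have h3 := congrFun (congrFun hz (Sum.inl 0)) (Sum.inr 0)
  rw [blk_apply_00] at h0
  rw [blk_apply_11] at h1
  rw [blk_apply_01] at h3
  simp at h0 h1 h3
  rcases hn with hn | hn
  · apply hn
    rw [h0, ← h1]
  · exact hn h3

namespace Extra

variable {R : Subgroup (GL I4 F)} {a₀ b₀ c₀ d₀ : GL I4 F}

/-- The hypothesis of the statement. -/
def Moved (R : Subgroup (GL I4 F)) (r : ℕ) : Prop :=
  ∀ x ∈ spGL 2 F, (∃ z : F, ((x ^ r : GL I4 F) : Matrix I4 I4 F) = z • (1 : Matrix I4 I4 F)) →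
    (∀ z : F, (x : Matrix I4 I4 F) ≠ z • (1 : Matrix I4 I4 F)) →
    ∃ g ∈ spGL 2 F, g⁻¹ * x * g ∈ Cfsg.Geo.subgroupNormalizer R

/-- Order three. -/
theorem neg_three (hFr : Extra R a₀ b₀ c₀ d₀) (h2 : (2 : F) ≠ 0) (h3 : (3 : F) ≠ 0) (hL : Moved R 3) : False := by
  classical
  have hdet : (0 : F) * (-1) - (-1) * 1 = 1 := by ring
  set x := blkGL hdet with hx
  have hx3 : x ^ 3 = 1 := by
    apply Units.ext
    rw [pow_succ, pow_two]
    simp only [Units.val_mul, Units.val_one, hx, blkGL_coe]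
    rw [blk_mul, blk_mul, ← blk_one]
    congr 1 <;> ring
  have hns := blkGL_ns hdet (Or.inr (by simp))
  obtain ⟨g₀, _, hg⟩ := hL x (blkGL_mem hdet) ⟨1, by rw [hx3]; simp⟩ hns
  have hy3 := conj_pow_eq_one g₀ x hx3
  have htr : Matrix.trace ((g₀⁻¹ * x * g₀ : GL I4 F) : Matrix I4 I4 F) *
      Matrix.trace (((g₀⁻¹ * x * g₀)⁻¹ : GL I4 F) : Matrix I4 I4 F) = 1 := by
    rw [trace_conj, trace_conj_inv, hx, blkGL_coe, blkGL_inv_coe, blk_trace, blk_trace]
    ring
  obtain ⟨c, hc⟩ := hFr.scalar_of_three h2 h3 hg hy3 htr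
  exact hns c (scalar_of_conj hc)

/-- Order five, characteristic different from five. -/
theorem neg_five (hFr : Extra R a₀ b₀ c₀ d₀) (h2 : (2 : F) ≠ 0) (h5 : (5 : F) ≠ 0) {t : F} (hq : t * t + t - 1 = 0)
    (hL : Moved R 5) : False := by
  classical
  have hdet : (0 : F) * t - (-1) * 1 = 1 := by ring
  set x := blkGL hdet with hx
  have hx5 : x ^ 5 = 1 := by
    apply Units.ext
    rw [pow_succ, pow_succ, pow_succ, pow_two]
    simp only [Units.val_mul, Units.val_one, hx, blkGL_coe]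
    rw [blk_mul, blk_mul, blk_mul, blk_mul, ← blk_one]
    congr 1
    · linear_combination (1 - t) * hq
    · linear_combination (-t ^ 2 + t + 1) * hq
    · linear_combination (t ^ 2 - t - 1) * hq
    · linear_combination (t ^ 3 - t ^ 2 - 2 * t + 1) * hq
  have hns := blkGL_ns hdet (Or.inr (by simp))
  obtain ⟨g₀, _, hg⟩ := hL x (blkGL_mem hdet) ⟨1, by rw [hx5]; simp⟩ hns
  have hy5 := conj_pow_eq_one g₀ x hx5
  have htr : Matrix.trace ((g₀⁻¹ * x * g₀ : GL I4 F) : Matrix I4 I4 F) *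
      Matrix.trace (((g₀⁻¹ * x * g₀)⁻¹ : GL I4 F) : Matrix I4 I4 F) = 3 * t + 5 := by
    rw [trace_conj, trace_conj_inv, hx, blkGL_coe, blkGL_inv_coe, blk_trace, blk_trace]
    linear_combination hq
  obtain ⟨c, hc⟩ := hFr.scalar_of_five h2 h5 hg hy5 hq htr
  exact hns c (scalar_of_conj hc)

/-- Elements of order the characteristic: transvections. -/
theorem neg_transvection (hFr : Extra R a₀ b₀ c₀ d₀) (h2 : (2 : F) ≠ 0) {r : ℕ} (hr : (r : F) = 0)
    (hL : Moved R r) : False := by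
  classical
  have hdet : (1 : F) * 1 - 1 * 0 = 1 := by ring
  set x := blkGL hdet with hx
  have hpow : ∀ k : ℕ, (x ^ k : GL I4 F).val = blk 1 (k : F) 0 1 := by
    intro k
    induction k with
    | zero => simp [blk_one]
    | succ k ih =>
      rw [pow_succ, Units.val_mul, ih, hx, blkGL_coe, blk_mul]
      push_cast
      congr 1 <;> ring
  have hxr : x ^ r = 1 := by
    apply Units.ext
    rw [hpow, hr, blk_one]
    rfl
  have hns := blkGL_ns hdet (Or.inr (by simp))
  obtain ⟨g₀, _, hg⟩ := hL x (blkGL_mem hdet) ⟨1, by rw [hxr]; simp⟩ hns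
  set a : I4 → F := Pi.single (Sum.inl 0) 1 with ha
  set b : I4 → F := Pi.single (Sum.inr 0) 1 with hb
  have hv : ∀ c : F, blk 1 c 0 1 = 1 + c • Matrix.vecMulVec a b := by
    intro c
    ext i j
    rcases i with i | i <;> rcases j with j | j <;> fin_cases i <;> fin_cases j <;>
      simp [blk, Matrix.vecMulVec_apply, Matrix.one_apply, ha, hb, Pi.single_apply]
  have hx1 : (x : Matrix I4 I4 F) = 1 + Matrix.vecMulVec a b := by
    rw [hx, blkGL_coe, hv, one_smul]
  have hxi : ((x⁻¹ : GL I4 F) : Matrix I4 I4 F) = 1 - Matrix.vecMulVec a b := by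
    rw [hx, blkGL_inv_coe]
    have h1 := hv (-1)
    simp only [mul_zero, neg_zero] at h1 ⊢
    rw [h1]
    simp [sub_eq_add_neg]
  obtain ⟨c, hc⟩ := hFr.not_conj_transvection h2 hx1 hxi hg
  exact hns c hc

/-- Elements of large prime order. -/
theorem neg_big (hFr : Extra R a₀ b₀ c₀ d₀) (h2 : (2 : F) ≠ 0) [Fintype F] {r : ℕ} [Fact r.Prime] (hr2 : r ≠ 2) (hr3 : r ≠ 3) (hr5 : r ≠ 5)
    (hdvd : r ∣ Nat.card (spGL 2 F)) (hL : Moved R r) : False := by
  classical
  haveI : Finite (spGL 2 F) := inferInstance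
  obtain ⟨x, hx⟩ := exists_prime_orderOf_dvd_card' r hdvd
  have hxr : x ^ r = 1 := by rw [← hx]; exact pow_orderOf_eq_one x
  have hX : (x : GL I4 F) ^ r = 1 := by
    have := congrArg Subtype.val hxr
    simpa using this
  have hns : ∀ c : F, ((x : GL I4 F) : Matrix I4 I4 F) ≠ c • 1 := by
    intro c hc
    -- a scalar in the symplectic group has order at most two
    have hcc : c * c = 1 := by
      have h1 := x.2 (Pi.single (Sum.inl 0) 1) (Pi.single (Sum.inr 0) 1)
      change sympForm 2 F (((x : GL I4 F) : Matrix I4 I4 F) *ᵥ _) (((x : GL I4 F) : Matrix I4 I4 F) *ᵥ _) = _ at h1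
      rw [hc, Matrix.smul_mulVec, Matrix.smul_mulVec, Matrix.one_mulVec, Matrix.one_mulVec, sympForm_coords, sympForm_coords] at h1
      simpa using h1
    have h1 : (x : GL I4 F) ^ 2 = 1 := by
      apply Units.ext
      rw [Units.val_pow_eq_pow_val, hc, smul_pow, pow_two c, hcc]
      simp
    have h4 : x ^ 2 = 1 := by
      apply Subtype.ext
      simpa using h1
    have h6 : r ∣ 2 := by
      rw [← hx]
      exact orderOf_dvd_of_pow_eq_one h4
    exact hr2 ((Nat.prime_dvd_prime_iff_eq Fact.out Nat.prime_two).mp h6)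
  obtain ⟨g₀, _, hy⟩ := hL x x.2 ⟨1, by rw [hX]; simp⟩ hns
  have hyr := conj_pow_eq_one g₀ (x : GL I4 F) hX
  obtain ⟨c, hc⟩ := hFr.scalar_of_norm h2 hr2 hr3 hr5 hy hyr
  exact hns c (scalar_of_conj hc)

end Extra

end Cfsg.Agent.Lib.TwoSix
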