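import Cfsg.Agent.Lib.TwoSix.Frame
import Cfsg.Agent.Lib.Classical.Herm.SSCent

/-!
# Elements normalizing a symplectic-type group of order `64`, and a trace formula
-/

set_option autoImplicit false

open scoped MatrixGroups Matrix
open Cfsg Module

namespace Cfsg.Agent.Lib.TwoSix

variable {F : Type*} [Field F]

theorem mem_norm_of_conj {n : ℕ} {R : Subgroup (GL (Fin n) F)} (hfin : Finite R) {g : GL (Fin n) F}
    (hg : ∀ h ∈ R, g * h * g⁻¹ ∈ R) : g ∈ Cfsg.Geo.subgroupNormalizer R := by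
  change g ∈ Subgroup.normalizer (R : Set (GL (Fin n) F))
  rw [Subgroup.mem_normalizer_iff]
  intro h
  refine ⟨hg h, fun hh => ?_⟩
  let φ : R → R := fun x => ⟨g * x * g⁻¹, hg x x.2⟩
  have hφ : Function.Injective φ := by
    intro x y hxy
    have h1 : g * (x : GL (Fin n) F) * g⁻¹ = g * (y : GL (Fin n) F) * g⁻¹ := congrArg Subtype.val hxy
    exact Subtype.ext (by simpa using h1)
  obtain ⟨x, hx⟩ := Finite.surjective_of_injective hφ ⟨g * h * g⁻¹, hh⟩
  have h1 : g * (x : GL (Fin n) F) * g⁻¹ = g * h * g⁻¹ := congrArg Subtype.val hx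
  have h2 : (x : GL (Fin n) F) = h := by simpa using h1
  rw [← h2]
  exact x.2

theorem conj_eq' {n : ℕ} {P g₀ a w : GL (Fin n) F} {A₀ W : Matrix (Fin n) (Fin n) F}
    (h1 : (a : Matrix (Fin n) (Fin n) F) * P = P * A₀) (h2 : (w : Matrix (Fin n) (Fin n) F) * P = P * W)
    (h3 : (g₀ : Matrix (Fin n) (Fin n) F) * A₀ = W * g₀) : (P * g₀ * P⁻¹) * a * (P * g₀ * P⁻¹)⁻¹ = w := by
  rw [mul_inv_eq_iff_eq_mul]
  apply Units.ext
  have hPP : ((P⁻¹ : GL (Fin n) F) : Matrix (Fin n) (Fin n) F) * (P : Matrix (Fin n) (Fin n) F) = 1 := by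
    rw [← Units.val_mul, inv_mul_cancel, Units.val_one]
  have hPP' : (P : Matrix (Fin n) (Fin n) F) * ((P⁻¹ : GL (Fin n) F) : Matrix (Fin n) (Fin n) F) = 1 := by
    rw [← Units.val_mul, mul_inv_cancel, Units.val_one]
  have h4 : ((P⁻¹ : GL (Fin n) F) : Matrix (Fin n) (Fin n) F) * a = A₀ * ((P⁻¹ : GL (Fin n) F) : Matrix (Fin n) (Fin n) F) := by
    calc ((P⁻¹ : GL (Fin n) F) : Matrix (Fin n) (Fin n) F) * a
        = ((P⁻¹ : GL (Fin n) F) : Matrix (Fin n) (Fin n) F) * (a * ((P : Matrix (Fin n) (Fin n) F) * ((P⁻¹ : GL (Fin n) F) : Matrix (Fin n) (Fin n) F))) := by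
          rw [hPP', Matrix.mul_one]
      _ = ((P⁻¹ : GL (Fin n) F) : Matrix (Fin n) (Fin n) F) * ((a : Matrix (Fin n) (Fin n) F) * P) * ((P⁻¹ : GL (Fin n) F) : Matrix (Fin n) (Fin n) F) := by
          simp only [Matrix.mul_assoc]
      _ = _ := by rw [h1, ← Matrix.mul_assoc, hPP, Matrix.one_mul]
  simp only [Units.val_mul]
  calc (P : Matrix (Fin n) (Fin n) F) * g₀ * ((P⁻¹ : GL (Fin n) F) : Matrix (Fin n) (Fin n) F) * a
      = P * g₀ * (((P⁻¹ : GL (Fin n) F) : Matrix (Fin n) (Fin n) F) * a) := by simp only [Matrix.mul_assoc]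
    _ = P * ((g₀ : Matrix (Fin n) (Fin n) F) * A₀) * ((P⁻¹ : GL (Fin n) F) : Matrix (Fin n) (Fin n) F) := by
        rw [h4]; simp only [Matrix.mul_assoc]
    _ = ((P : Matrix (Fin n) (Fin n) F) * W) * g₀ * ((P⁻¹ : GL (Fin n) F) : Matrix (Fin n) (Fin n) F) := by
        rw [h3]; simp only [Matrix.mul_assoc]
    _ = _ := by rw [← h2]; simp only [Matrix.mul_assoc]

/-- Matrices realized in the group through the frame. -/
def IsModel (R : Subgroup (GL (Fin 4) F)) (P : GL (Fin 4) F) (M : Matrix (Fin 4) (Fin 4) F) : Prop :=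
  ∃ w ∈ R, (w : Matrix (Fin 4) (Fin 4) F) * P = P * M

theorem IsModel.mul {R : Subgroup (GL (Fin 4) F)} {P : GL (Fin 4) F} {M N : Matrix (Fin 4) (Fin 4) F}
    (hM : IsModel R P M) (hN : IsModel R P N) : IsModel R P (M * N) := by
  obtain ⟨w₁, h₁, e₁⟩ := hM
  obtain ⟨w₂, h₂, e₂⟩ := hN
  refine ⟨w₁ * w₂, R.mul_mem h₁ h₂, ?_⟩
  rw [Units.val_mul, Matrix.mul_assoc, e₂, ← Matrix.mul_assoc, e₁, Matrix.mul_assoc]

namespace Pauli

variable {R : Subgroup (GL (Fin 4) F)} {i : F} {ι u v g h P : GL (Fin 4) F}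

theorem model_one (_ : Pauli R i ι u v g h P) : IsModel R P (1 : Matrix (Fin 4) (Fin 4) F) :=
  ⟨1, R.one_mem, by simp⟩

theorem model_Z₁ (hF : Pauli R i ι u v g h P) : IsModel R P (Z₁ F) := ⟨u, hF.mem_u, hF.hU⟩
theorem model_Z₂ (hF : Pauli R i ι u v g h P) : IsModel R P (Z₂ F) := ⟨g, hF.mem_g, hF.hG⟩
theorem model_X₁ (hF : Pauli R i ι u v g h P) : IsModel R P (X₁ F) := ⟨v, hF.mem_v, hF.hV⟩
theorem model_X₂ (hF : Pauli R i ι u v g h P) : IsModel R P (X₂ F) := ⟨h, hF.mem_h, hF.hH⟩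

theorem model_i (hF : Pauli R i ι u v g h P) {M : Matrix (Fin 4) (Fin 4) F} (hM : IsModel R P M) :
    IsModel R P (i • M) := by
  obtain ⟨w, hw, e⟩ := hM
  refine ⟨ι * w, R.mul_mem hF.mem_ι hw, ?_⟩
  rw [Units.val_mul, hF.hι, Matrix.smul_mul, Matrix.one_mul, Matrix.smul_mul, e, Matrix.mul_smul]

theorem model_neg (hF : Pauli R i ι u v g h P) {M : Matrix (Fin 4) (Fin 4) F} (hM : IsModel R P M) :
    IsModel R P (-M) := by
  have := hF.model_i (hF.model_i hM)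
  rwa [smul_smul, hF.hi, neg_smul, one_smul] at this

/-- The normalizer criterion through the frame. -/
theorem norm (hF : Pauli R i ι u v g h P) (T₀ : GL (Fin 4) F) {W₁ W₂ W₃ W₄ : Matrix (Fin 4) (Fin 4) F}
    (h₁ : IsModel R P W₁) (h₂ : IsModel R P W₂) (h₃ : IsModel R P W₃) (h₄ : IsModel R P W₄)
    (e₁ : (T₀ : Matrix (Fin 4) (Fin 4) F) * Z₁ F = W₁ * T₀) (e₂ : (T₀ : Matrix (Fin 4) (Fin 4) F) * X₁ F = W₂ * T₀)
    (e₃ : (T₀ : Matrix (Fin 4) (Fin 4) F) * Z₂ F = W₃ * T₀) (e₄ : (T₀ : Matrix (Fin 4) (Fin 4) F) * X₂ F = W₄ * T₀) :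
    P * T₀ * P⁻¹ ∈ Cfsg.Geo.subgroupNormalizer R := by
  apply mem_norm_of_conj hF.fin
  obtain ⟨w₁, hw₁, f₁⟩ := h₁
  obtain ⟨w₂, hw₂, f₂⟩ := h₂
  obtain ⟨w₃, hw₃, f₃⟩ := h₃
  obtain ⟨w₄, hw₄, f₄⟩ := h₄
  have hK := hF.gens (R.comap (MulAut.conj (P * T₀ * P⁻¹)).toMonoidHom)
    (by
      change (P * T₀ * P⁻¹) * ι * (P * T₀ * P⁻¹)⁻¹ ∈ R
      have : (P * T₀ * P⁻¹) * ι * (P * T₀ * P⁻¹)⁻¹ = ι := by
        rw [mul_inv_eq_iff_eq_mul]
        apply Units.ext
        simp only [Units.val_mul, hF.hι]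
        simp [Matrix.smul_mul, Matrix.mul_smul]
      rw [this]
      exact hF.mem_ι)
    (by
      change (P * T₀ * P⁻¹) * u * (P * T₀ * P⁻¹)⁻¹ ∈ R
      rw [conj_eq' hF.hU f₁ e₁]
      exact hw₁)
    (by
      change (P * T₀ * P⁻¹) * v * (P * T₀ * P⁻¹)⁻¹ ∈ R
      rw [conj_eq' hF.hV f₂ e₂]
      exact hw₂)
    (by
      change (P * T₀ * P⁻¹) * g * (P * T₀ * P⁻¹)⁻¹ ∈ R
      rw [conj_eq' hF.hG f₃ e₃]
      exact hw₃)
    (by
      change (P * T₀ * P⁻¹) * h * (P * T₀ * P⁻¹)⁻¹ ∈ R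
      rw [conj_eq' hF.hH f₄ e₄]
      exact hw₄)
  intro y hy
  exact hK hy

theorem scalar_norm (hF : Pauli R i ι u v g h P) (s : GL (Fin 4) F) {c : F} (hs : (s : Matrix (Fin 4) (Fin 4) F) = c • 1) :
    s ∈ Cfsg.Geo.subgroupNormalizer R := by
  apply mem_norm_of_conj hF.fin
  intro y hy
  have : s * y * s⁻¹ = y := by
    rw [mul_inv_eq_iff_eq_mul]
    apply Units.ext
    simp only [Units.val_mul, hs]
    simp [Matrix.smul_mul, Matrix.mul_smul]
  rw [this]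
  exact hy

theorem mem_norm_self (hF : Pauli R i ι u v g h P) {a : GL (Fin 4) F} (ha : a ∈ R) : a ∈ Cfsg.Geo.subgroupNormalizer R :=
  mem_norm_of_conj hF.fin fun _ hy => R.mul_mem (R.mul_mem ha hy) (R.inv_mem ha)

theorem model_diag_two (hF : Pauli R i ι u v g h P) {α β : F} (hα : α = 1 ∨ α = -1) (hβ : β = 1 ∨ β = -1) :
    IsModel R P (Matrix.diagonal ![α, β, α, β]) := by
  have e1 : Matrix.diagonal ![(1 : F), 1, 1, 1] = 1 := by
    rw [← Matrix.diagonal_one]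
    congr 1
    ext k
    fin_cases k <;> rfl
  have e2 : Matrix.diagonal ![(-1 : F), -1, -1, -1] = -1 := by
    ext a b
    fin_cases a <;> fin_cases b <;> simp
  have e3 : Matrix.diagonal ![(-1 : F), 1, -1, 1] = -Z₂ F := by
    ext a b
    fin_cases a <;> fin_cases b <;> simp [Z₂]
  rcases hα with rfl | rfl <;> rcases hβ with rfl | rfl
  · rw [e1]; exact hF.model_one
  · exact hF.model_Z₂
  · rw [e3]; exact hF.model_neg hF.model_Z₂
  · rw [e2]; exact hF.model_neg hF.model_one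

theorem model_diag_one (hF : Pauli R i ι u v g h P) {α β : F} (hα : α = 1 ∨ α = -1) (hβ : β = 1 ∨ β = -1) :
    IsModel R P (Matrix.diagonal ![α, α, β, β]) := by
  have e1 : Matrix.diagonal ![(1 : F), 1, 1, 1] = 1 := by
    rw [← Matrix.diagonal_one]
    congr 1
    ext k
    fin_cases k <;> rfl
  have e2 : Matrix.diagonal ![(-1 : F), -1, -1, -1] = -1 := by
    ext a b
    fin_cases a <;> fin_cases b <;> simp
  have e3 : Matrix.diagonal ![(-1 : F), -1, 1, 1] = -Z₁ F := by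
    ext a b
    fin_cases a <;> fin_cases b <;> simp [Z₁]
  rcases hα with rfl | rfl <;> rcases hβ with rfl | rfl
  · rw [e1]; exact hF.model_one
  · exact hF.model_Z₁
  · rw [e3]; exact hF.model_neg hF.model_Z₁
  · rw [e2]; exact hF.model_neg hF.model_one

theorem sign_cases {d : F} (h : d * d = 1) : d = 1 ∨ d = -1 := by
  have h5 : (d - 1) * (d + 1) = 0 := by linear_combination h
  rcases mul_eq_zero.mp h5 with h6 | h6
  · exact Or.inl (sub_eq_zero.mp h6)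
  · exact Or.inr (by linear_combination h6)

/-- All diagonal matrices with entries `± 1` normalize the group in the frame. -/
theorem sign_norm (hF : Pauli R i ι u v g h P) (D : GL (Fin 4) F) {d₀ d₁ d₂ d₃ : F} (h0 : d₀ * d₀ = 1) (h1 : d₁ * d₁ = 1)
    (h2 : d₂ * d₂ = 1) (h3 : d₃ * d₃ = 1) (hD : (D : Matrix (Fin 4) (Fin 4) F) = Matrix.diagonal ![d₀, d₁, d₂, d₃]) :
    P * D * P⁻¹ ∈ Cfsg.Geo.subgroupNormalizer R := by
  have hm : ∀ a b : F, a * a = 1 → b * b = 1 → (a * b) * (a * b) = 1 := by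
    intro a b ha hb
    calc a * b * (a * b) = (a * a) * (b * b) := by ring
      _ = 1 := by rw [ha, hb, one_mul]
  refine hF.norm D hF.model_Z₁ ((hF.model_X₁).mul (hF.model_diag_two (sign_cases (hm d₀ d₂ h0 h2)) (sign_cases (hm d₁ d₃ h1 h3))))
    hF.model_Z₂ ((hF.model_X₂).mul (hF.model_diag_one (sign_cases (hm d₀ d₁ h0 h1)) (sign_cases (hm d₂ d₃ h2 h3)))) ?_ ?_ ?_ ?_
  · rw [hD, Z₁, Matrix.diagonal_mul_diagonal, Matrix.diagonal_mul_diagonal]
    congr 1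
    ext k
    exact mul_comm _ _
  · rw [hD]
    have e1 : d₀ = d₀ * d₂ * d₂ := by rw [mul_assoc, h2, mul_one]
    have e2 : d₁ = d₁ * d₃ * d₃ := by rw [mul_assoc, h3, mul_one]
    have e3 : d₂ = d₀ * d₂ * d₀ := by linear_combination (-d₂) * h0
    have e4 : d₃ = d₁ * d₃ * d₁ := by linear_combination (-d₃) * h1
    ext a b
    rw [Matrix.diagonal_mul, Matrix.mul_diagonal, Matrix.mul_diagonal]
    fin_cases a <;> fin_cases b <;> simp [X₁]
    · exact e1
    · exact e2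
    · exact e3
    · exact e4
  · rw [hD, Z₂, Matrix.diagonal_mul_diagonal, Matrix.diagonal_mul_diagonal]
    congr 1
    ext k
    exact mul_comm _ _
  · rw [hD]
    have e1 : d₀ = d₀ * d₁ * d₁ := by rw [mul_assoc, h1, mul_one]
    have e2 : d₁ = d₀ * d₁ * d₀ := by linear_combination (-d₁) * h0
    have e3 : d₂ = d₂ * d₃ * d₃ := by rw [mul_assoc, h3, mul_one]
    have e4 : d₃ = d₂ * d₃ * d₂ := by linear_combination (-d₃) * h2
    ext a b
    rw [Matrix.diagonal_mul, Matrix.mul_diagonal, Matrix.mul_diagonal]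
    fin_cases a <;> fin_cases b <;> simp [X₂]
    · exact e1
    · exact e2
    · exact e3
    · exact e4

/-- Every element of the group squares to `± 1`. -/
theorem sq_cases (hF : Pauli R i ι u v g h P) {a : GL (Fin 4) F} (ha : a ∈ R) :
    (a : Matrix (Fin 4) (Fin 4) F) * a = 1 ∨ (a : Matrix (Fin 4) (Fin 4) F) * a = -1 := by
  obtain ⟨c, hc⟩ := hF.comm ((a : Matrix (Fin 4) (Fin 4) F) * a) (by
    intro s hs
    rcases hF.signs a ha s hs with h1 | h1
    · rw [Matrix.mul_assoc, h1, ← Matrix.mul_assoc, h1, Matrix.mul_assoc]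
    · rw [Matrix.mul_assoc, h1, Matrix.mul_neg, ← Matrix.mul_assoc, h1, Matrix.neg_mul, neg_neg, Matrix.mul_assoc])
  have h4 := hF.four a ha
  have h5 : ((a ^ 4 : GL (Fin 4) F) : Matrix (Fin 4) (Fin 4) F) = (c * c) • 1 := by
    have e : a ^ 4 = (a * a) * (a * a) := by
      simp only [pow_succ, pow_zero, one_mul, mul_assoc]
    rw [e, Units.val_mul, Units.val_mul, hc]
    simp [smul_smul]
  rw [h4] at h5
  have h6 := congrFun (congrFun h5 0) 0
  have h7 : c * c = 1 := by simpa using h6.symm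
  rcases sign_cases h7 with rfl | rfl
  · left
    simpa using hc
  · right
    simpa using hc

end Pauli

end Cfsg.Agent.Lib.TwoSix
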