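import Mathlib

/-!
# The abstract structure of a group of symplectic type of order `64` with centre of order `4`
-/

set_option autoImplicit false

namespace Cfsg.Agent.Lib.TwoSix.Struct

open Subgroup

section Pair

variable {H : Type*} [Group H] [Finite H]

theorem comm_mul_right {J a b y : H} (hJc : ∀ x, J * x = x * J) (hab : a * b * a⁻¹ * b⁻¹ = J) :
    a * (y * b) * a⁻¹ * (y * b)⁻¹ = J * (a * y * a⁻¹ * y⁻¹) := by
  have e : a * b * a⁻¹ = J * b := by
    rw [← hab]; group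
  calc a * (y * b) * a⁻¹ * (y * b)⁻¹ = a * y * a⁻¹ * (a * b * a⁻¹) * b⁻¹ * y⁻¹ := by group
    _ = a * y * a⁻¹ * (J * b) * b⁻¹ * y⁻¹ := by rw [e]
    _ = a * y * a⁻¹ * J * y⁻¹ := by group
    _ = J * (a * y * a⁻¹) * y⁻¹ := by rw [hJc]
    _ = _ := by group

theorem mem_centralizer_iff' {a y : H} : y ∈ centralizer ({a} : Set H) ↔ a * y * a⁻¹ * y⁻¹ = 1 := by
  rw [Subgroup.mem_centralizer_singleton_iff]
  constructor
  · intro h
    rw [← h]
    group
  · intro h
    have : a * y = y * a := by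
      have h1 : a * y * a⁻¹ * y⁻¹ * (y * a) = 1 * (y * a) := by rw [h]
      simpa [mul_assoc] using h1
    exact this.symm

/-- The centralizer of a noncommuting pair has index `4`. -/
theorem card_pair {J a b : H} (hJ1 : J ≠ 1) (hJ2 : J * J = 1) (hJc : ∀ x, J * x = x * J)
    (ha : ∀ y, a * y * a⁻¹ * y⁻¹ = 1 ∨ a * y * a⁻¹ * y⁻¹ = J)
    (hb : ∀ y, b * y * b⁻¹ * y⁻¹ = 1 ∨ b * y * b⁻¹ * y⁻¹ = J) (hab : a * b * a⁻¹ * b⁻¹ = J) :
    Nat.card H = 4 * Nat.card (centralizer ({a} : Set H) ⊓ centralizer ({b} : Set H) : Subgroup H) ∧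
      ∀ y : H, ∃ e f : ℕ, y * b ^ e * a ^ f ∈ centralizer ({a} : Set H) ⊓ centralizer ({b} : Set H) := by
  classical
  have hba : b * a * b⁻¹ * a⁻¹ = J := by
    have h1 : b * a * b⁻¹ * a⁻¹ = (a * b * a⁻¹ * b⁻¹)⁻¹ := by group
    rw [h1, hab]
    exact inv_eq_of_mul_eq_one_left hJ2
  set Ca := centralizer ({a} : Set H) with hCa
  set Cb := centralizer ({b} : Set H) with hCb
  have haa : a ∈ Ca := by
    rw [hCa, Subgroup.mem_centralizer_singleton_iff]
  have hstep : ∀ (a b : H), a * b * a⁻¹ * b⁻¹ = J → (∀ y, a * y * a⁻¹ * y⁻¹ = 1 ∨ a * y * a⁻¹ * y⁻¹ = J) →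
      ∀ y : H, Xor (y * b ∈ centralizer ({a} : Set H)) (y ∈ centralizer ({a} : Set H)) := by
    intro a b hab ha y
    rw [mem_centralizer_iff', mem_centralizer_iff', comm_mul_right hJc hab]
    rcases ha y with h | h
    · right
      rw [h, mul_one]
      exact ⟨rfl, hJ1⟩
    · left
      rw [h, hJ2]
      exact ⟨rfl, fun h' => hJ1 (h'.symm ▸ rfl)⟩
  have hIa : Ca.index = 2 := Subgroup.index_eq_two_iff.mpr ⟨b, hstep a b hab ha⟩
  have hI2 : (Cb.subgroupOf Ca).index = 2 := by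
    apply Subgroup.index_eq_two_iff.mpr
    refine ⟨⟨a, haa⟩, ?_⟩
    rintro ⟨y, hy⟩
    exact hstep b a hba hb y
  have h1 := Subgroup.card_mul_index Ca
  have h2 := Subgroup.card_mul_index (Cb.subgroupOf Ca)
  have h3 : Nat.card (Cb.subgroupOf Ca) = Nat.card (Ca ⊓ Cb : Subgroup H) := by
    have e : Cb.subgroupOf Ca = (Ca ⊓ Cb).subgroupOf Ca := by
      ext x
      simp [Subgroup.mem_subgroupOf]
    rw [e]
    exact Nat.card_congr (Subgroup.subgroupOfEquivOfLe inf_le_left).toEquiv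
  rw [hIa] at h1
  rw [hI2, h3] at h2
  constructor
  · rw [← h1, ← h2]
    ring
  · intro y
    -- first the centralizer of `a`
    obtain ⟨e, he⟩ : ∃ e : ℕ, y * b ^ e ∈ Ca := by
      by_cases hy : y ∈ Ca
      · exact ⟨0, by simpa using hy⟩
      · refine ⟨1, ?_⟩
        have := hstep a b hab ha y
        rw [pow_one]
        rcases this with h | h
        · exact h.1
        · exact absurd h.1 hy
    obtain ⟨f, hf⟩ : ∃ f : ℕ, y * b ^ e * a ^ f ∈ Cb := by
      by_cases hy : y * b ^ e ∈ Cb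
      · exact ⟨0, by simpa using hy⟩
      · refine ⟨1, ?_⟩
        have := hstep b a hba hb (y * b ^ e)
        rw [pow_one]
        rcases this with h | h
        · exact h.1
        · exact absurd h.1 hy
    exact ⟨e, f, Ca.mul_mem he (Ca.pow_mem haa f), hf⟩

end Pair

section Main

variable {G : Type*} [Group G] [Finite G]

theorem center_image (φ : G ≃* G) {ζ : G} (h : ζ ∈ center G) : φ ζ ∈ center G := by
  rw [Subgroup.mem_center_iff] at h ⊢
  intro y
  have := h (φ.symm y)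
  have h2 := congrArg φ this
  simpa using h2

/-- Square commutators. -/
theorem comm_sq {x y c : G} (hc : c ∈ center G) (h : x * y * x⁻¹ * y⁻¹ = c) :
    (x * x) * y * (x * x)⁻¹ * y⁻¹ = c * c := by
  have hc' := Subgroup.mem_center_iff.mp hc
  have e : x * y * x⁻¹ = c * y := by
    rw [← h]; group
  calc (x * x) * y * (x * x)⁻¹ * y⁻¹ = x * (x * y * x⁻¹) * x⁻¹ * y⁻¹ := by group
    _ = x * (c * y) * x⁻¹ * y⁻¹ := by rw [e]
    _ = (x * c) * y * x⁻¹ * y⁻¹ := by group
    _ = (c * x) * y * x⁻¹ * y⁻¹ := by rw [hc']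
    _ = c * (x * y * x⁻¹) * y⁻¹ := by group
    _ = c * (c * y) * y⁻¹ := by rw [e]
    _ = _ := by group

/-- The squares of elements with central commutator commute. -/
theorem squares_comm {x y c : G} (hc : c ∈ center G) (h4 : c ^ 4 = 1) (h : x * y * x⁻¹ * y⁻¹ = c) :
    (x * x) * (y * y) = (y * y) * (x * x) := by
  have hc' := Subgroup.mem_center_iff.mp hc
  have hcc : c * c ∈ center G := (center G).mul_mem hc hc
  have hcc' := Subgroup.mem_center_iff.mp hcc
  have e1 : x * y = c * y * x := by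
    calc x * y = (x * y * x⁻¹ * y⁻¹) * y * x := by group
      _ = _ := by rw [h]
  have e2 : x * (y * y) = (c * c) * (y * y) * x := by
    calc x * (y * y) = (x * y) * y := by group
      _ = (c * y * x) * y := by rw [e1]
      _ = c * y * (x * y) := by group
      _ = c * y * (c * y * x) := by rw [e1]
      _ = c * (y * c) * y * x := by group
      _ = c * (c * y) * y * x := by rw [hc' y]
      _ = _ := by group
  calc (x * x) * (y * y) = x * (x * (y * y)) := by group
    _ = x * ((c * c) * (y * y) * x) := by rw [e2]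
    _ = (x * (c * c)) * (y * y) * x := by group
    _ = ((c * c) * x) * (y * y) * x := by rw [hcc']
    _ = (c * c) * (x * (y * y)) * x := by group
    _ = (c * c) * ((c * c) * (y * y) * x) * x := by rw [e2]
    _ = (c * c * (c * c)) * (y * y) * (x * x) := by group
    _ = _ := by
      have : c * c * (c * c) = 1 := by
        rw [← h4]
        simp only [pow_succ, pow_zero, one_mul, mul_assoc]
      rw [this, one_mul]

theorem exists_gens (hG : Nat.card G = 64) (h4 : ∀ x : G, x ^ 4 = 1)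
    (hchar : ∀ A : Subgroup G, A.Characteristic → IsMulCommutative A → IsCyclic A)
    (hZ : Nat.card (center G) = 4) :
    ∃ z u v g h : G, z ∈ center G ∧ z * z ≠ 1 ∧ u * u = 1 ∧ v * v = 1 ∧ g * g = 1 ∧ h * h = 1 ∧
      u * v * u⁻¹ * v⁻¹ = z * z ∧ g * h * g⁻¹ * h⁻¹ = z * z ∧ u * g = g * u ∧ u * h = h * u ∧ v * g = g * v ∧
      v * h = h * v ∧ (∀ r : G, ∃ a b c d : ℕ, r * v ^ a * u ^ b * h ^ c * g ^ d ∈ center G) ∧
      (∀ a b : G, a * b * a⁻¹ * b⁻¹ = 1 ∨ a * b * a⁻¹ * b⁻¹ = z * z) := by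
  classical
  haveI hZcomm : IsMulCommutative (center G) := ⟨⟨fun a b => Subtype.ext (Subgroup.mem_center_iff.mp b.2 a)⟩⟩
  haveI hZcyc : IsCyclic (center G) := hchar _ inferInstance hZcomm
  obtain ⟨z₀, hz₀⟩ := IsCyclic.exists_generator (α := center G)
  have hord₀ : orderOf z₀ = 4 := by
    rw [orderOf_eq_card_of_forall_mem_zpowers hz₀, hZ]
  set z : G := (z₀ : G) with hz
  have hzc : z ∈ center G := z₀.2
  have hord : orderOf z = 4 := by
    rw [hz, Subgroup.orderOf_coe]
    exact hord₀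
  have hz4 : z ^ 4 = 1 := by rw [← hord]; exact pow_orderOf_eq_one z
  have hzz : z * z ≠ 1 := by
    intro h
    have : orderOf z ∣ 2 := orderOf_dvd_of_pow_eq_one (by rw [pow_two]; exact h)
    rw [hord] at this
    omega
  set J := z * z with hJ
  have hJc : J ∈ center G := (center G).mul_mem hzc hzc
  have hJ2 : J * J = 1 := by
    rw [hJ, ← hz4]
    simp only [pow_succ, pow_zero, one_mul, mul_assoc]
  have hJcomm : ∀ x, J * x = x * J := fun x => (Subgroup.mem_center_iff.mp hJc x).symm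
  -- elements of the centre are powers of `z`
  have hZpow : ∀ ζ ∈ center G, ∃ k < 4, ζ = z ^ k := by
    intro ζ hζ
    have h1 := hz₀ ⟨ζ, hζ⟩
    rw [mem_zpowers_iff_mem_range_orderOf, hord₀] at h1
    obtain ⟨k, hk, hk'⟩ := Finset.mem_image.mp h1
    refine ⟨k, Finset.mem_range.mp hk, ?_⟩
    have := congrArg Subtype.val hk'
    simpa using this.symm
  have hsqr : ∀ ζ ∈ center G, ζ * ζ = 1 → ζ = 1 ∨ ζ = J := by
    intro ζ hζ h
    obtain ⟨k, hk, rfl⟩ := hZpow ζ hζ
    interval_cases k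
    · left; simp
    · exfalso; apply hzz; simpa using h
    · right; rw [hJ]; exact pow_two z
    · exfalso
      apply hzz
      have e : z ^ 3 * z ^ 3 = z ^ 4 * (z * z) := by group
      rw [e, hz4, one_mul] at h
      exact h
  -- subgroups containing the centre
  have hbound : ∀ A : Subgroup G, A.Characteristic → IsMulCommutative A → center G ≤ A → A = center G := by
    intro A hA hAc hle
    haveI := hchar A hA hAc
    obtain ⟨a, ha⟩ := IsCyclic.exists_generator (α := A)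
    have hc : Nat.card A = orderOf a := (orderOf_eq_card_of_forall_mem_zpowers ha).symm
    have hd : orderOf a ∣ 4 := by
      apply orderOf_dvd_of_pow_eq_one
      apply Subtype.ext
      simpa using h4 a
    have hle' : Nat.card A ≤ 4 := by
      rw [hc]
      exact Nat.le_of_dvd (by norm_num) hd
    exact (Subgroup.eq_of_le_of_card_ge hle (by rw [hZ]; exact hle')).symm
  -- the second centre
  let Q : Subgroup G := Subgroup.upperCentralSeries G 2
  have hQ : ∀ x, x ∈ Q ↔ ∀ y, x * y * x⁻¹ * y⁻¹ ∈ center G := by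
    intro x
    rw [show Q = Subgroup.upperCentralSeries G (1 + 1) from rfl, Subgroup.mem_upperCentralSeries_succ_iff, Subgroup.upperCentralSeries_one]
    rfl
  have hQφ : ∀ (φ : G ≃* G) {x : G}, x ∈ Q → φ x ∈ Q := by
    intro φ x hx
    rw [hQ] at hx ⊢
    intro y
    have h1 := center_image φ (hx (φ.symm y))
    simpa using h1
  have hQz : center G ≤ Q := by
    intro ζ hζ
    rw [hQ]
    intro y
    have : ζ * y * ζ⁻¹ * y⁻¹ = 1 := by
      rw [← Subgroup.mem_center_iff.mp hζ y]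
      group
    rw [this]
    exact (center G).one_mem
  -- squares of the second centre
  have hQsq : ∀ x ∈ Q, x * x ∈ center G := by
    let S : Set G := {w | w ∈ center G ∨ ∃ x ∈ Q, w = x * x}
    have hScomm : ∀ a ∈ S, ∀ b ∈ S, a * b = b * a := by
      rintro a (ha | ⟨x, hx, rfl⟩) b (hb | ⟨y, hy, rfl⟩)
      · exact (Subgroup.mem_center_iff.mp ha b).symm
      · exact (Subgroup.mem_center_iff.mp ha _).symm
      · exact Subgroup.mem_center_iff.mp hb _
      · exact squares_comm ((hQ x).mp hx y) (by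
          have := h4 (x * y * x⁻¹ * y⁻¹)
          exact this) rfl
    have hAc : IsMulCommutative (closure S) := Subgroup.isMulCommutative_closure hScomm
    have hAch : (closure S).Characteristic := by
      rw [Subgroup.characteristic_iff_le_comap]
      intro φ
      rw [Subgroup.closure_le]
      rintro a (ha | ⟨x, hx, rfl⟩)
      · exact subset_closure (Or.inl (center_image φ ha))
      · refine subset_closure (Or.inr ⟨φ x, hQφ φ hx, ?_⟩)
        simp
    have hA := hbound _ hAch hAc (fun ζ hζ => subset_closure (Or.inl hζ))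
    intro x hx
    rw [← hA]
    exact subset_closure (Or.inr ⟨x, hx, rfl⟩)
  have hsign : ∀ x ∈ Q, ∀ y, x * y * x⁻¹ * y⁻¹ = 1 ∨ x * y * x⁻¹ * y⁻¹ = J := by
    intro x hx y
    have hc := (hQ x).mp hx y
    apply hsqr _ hc
    rw [← comm_sq hc rfl]
    have := Subgroup.mem_center_iff.mp (hQsq x hx) y
    rw [← this]
    group
  -- a noncentral element of the second centre
  have hGZ : Nat.card (G ⧸ center G) = 16 := by
    have h1 := Subgroup.card_eq_card_quotient_mul_card_subgroup (center G)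
    rw [hG, hZ] at h1
    omega
  haveI : Fact (Nat.Prime 2) := ⟨Nat.prime_two⟩
  obtain ⟨g₀, hg₀Q, hg₀Z⟩ : ∃ g₀ ∈ Q, g₀ ∉ center G := by
    have hP : IsPGroup 2 (G ⧸ center G) := IsPGroup.of_card (n := 4) (by rw [hGZ]; norm_num)
    haveI : Finite (G ⧸ center G) := inferInstance
    haveI : Nontrivial (G ⧸ center G) := by
      apply Finite.one_lt_card_iff_nontrivial.mp
      rw [hGZ]
      norm_num
    have hzn := hP.center_nontrivial
    obtain ⟨w, hw, hw1⟩ := Subgroup.exists_ne_one_of_nontrivial (center (G ⧸ center G)) |>.imp fun _ h => h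
    obtain ⟨g₀, rfl⟩ := QuotientGroup.mk_surjective w
    refine ⟨g₀, ?_, ?_⟩
    · rw [hQ]
      intro y
      rw [← QuotientGroup.eq_one_iff]
      have := Subgroup.mem_center_iff.mp hw (y : G ⧸ center G)
      simp only [QuotientGroup.mk_mul, QuotientGroup.mk_inv]
      rw [← this]
      group
    · intro h
      apply hw1
      exact (QuotientGroup.eq_one_iff _).mpr h
  -- a partner in the second centre
  obtain ⟨h₀, hh₀Q, hh₀⟩ : ∃ h₀ ∈ Q, g₀ * h₀ * g₀⁻¹ * h₀⁻¹ = J := by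
    by_contra hcon
    push Not at hcon
    let A : Subgroup G := (center Q).map Q.subtype
    have hAcomm : IsMulCommutative A := by
      refine ⟨⟨?_⟩⟩
      rintro ⟨_, a, ha, rfl⟩ ⟨_, b, hb, rfl⟩
      apply Subtype.ext
      have h := congrArg (Subtype.val : Q → G) (Subgroup.mem_center_iff.mp hb a)
      exact h
    have hmemA : ∀ x, x ∈ A ↔ x ∈ Q ∧ ∀ y ∈ Q, y * x = x * y := by
      intro x
      constructor
      · rintro ⟨a, ha, rfl⟩
        refine ⟨a.2, fun y hy => ?_⟩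
        exact congrArg Subtype.val (Subgroup.mem_center_iff.mp ha ⟨y, hy⟩)
      · rintro ⟨hx, hx'⟩
        refine ⟨⟨x, hx⟩, ?_, rfl⟩
        rw [SetLike.mem_coe, Subgroup.mem_center_iff]
        intro y
        exact Subtype.ext (hx' y y.2)
    have hAch : A.Characteristic := by
      rw [Subgroup.characteristic_iff_le_comap]
      intro φ x hx
      rw [hmemA] at hx
      change φ x ∈ A
      rw [hmemA]
      refine ⟨hQφ φ hx.1, fun y hy => ?_⟩
      have h1 := hx.2 (φ.symm y) (hQφ φ.symm hy)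
      have h2 := congrArg φ h1
      simpa using h2
    have hA := hbound A hAch hAcomm (fun ζ hζ => (hmemA ζ).mpr ⟨hQz hζ, fun y _ => Subgroup.mem_center_iff.mp hζ y⟩)
    apply hg₀Z
    rw [← hA, hmemA]
    refine ⟨hg₀Q, fun y hy => ?_⟩
    rcases hsign g₀ hg₀Q y with h | h
    · have h1 : g₀ * y * g₀⁻¹ * y⁻¹ * (y * g₀) = 1 * (y * g₀) := by rw [h]
      have h2 : g₀ * y = y * g₀ := by simpa [mul_assoc] using h1
      exact h2.symm
    · exact absurd h (hcon y hy)
  -- normalise to involutions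
  have hnorm : ∀ x : G, x * x ∈ center G → ∃ x' : G, x' * x' = 1 ∧ (x' = x ∨ x' = z * x) := by
    intro x hx
    have h1 : (x * x) * (x * x) = 1 := by
      rw [← h4 x]
      simp only [pow_succ, pow_zero, one_mul, mul_assoc]
    rcases hsqr _ hx h1 with h | h
    · exact ⟨x, h, Or.inl rfl⟩
    · refine ⟨z * x, ?_, Or.inr rfl⟩
      have hc := Subgroup.mem_center_iff.mp hzc x
      calc z * x * (z * x) = z * (x * z) * x := by group
        _ = z * (z * x) * x := by rw [hc]
        _ = (z * z) * (x * x) := by group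
        _ = 1 := by rw [h, ← hJ, hJ2]
  have hnormcomm : ∀ x y x' : G, (x' = x ∨ x' = z * x) → x' * y * x'⁻¹ * y⁻¹ = x * y * x⁻¹ * y⁻¹ := by
    rintro x y x' (rfl | rfl)
    · rfl
    · have hc := Subgroup.mem_center_iff.mp hzc
      have : z * x * y * (z * x)⁻¹ * y⁻¹ = z * (x * y * x⁻¹) * z⁻¹ * y⁻¹ := by group
      rw [this, (hc (x * y * x⁻¹)).symm]
      group
  have hnormcomm' : ∀ x y x' : G, (x' = x ∨ x' = z * x) → y * x' * y⁻¹ * x'⁻¹ = y * x * y⁻¹ * x⁻¹ := by
    rintro x y x' (rfl | rfl)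
    · rfl
    · have hc := Subgroup.mem_center_iff.mp hzc
      have : y * (z * x) * y⁻¹ * (z * x)⁻¹ = (y * z) * x * y⁻¹ * x⁻¹ * z⁻¹ := by group
      rw [this, hc y]
      have : z * y * x * y⁻¹ * x⁻¹ * z⁻¹ = z * (y * x * y⁻¹ * x⁻¹) * z⁻¹ := by group
      rw [this, (hc (y * x * y⁻¹ * x⁻¹)).symm]
      group
  have hnormQ : ∀ x x' : G, x ∈ Q → (x' = x ∨ x' = z * x) → x' ∈ Q := by
    rintro x x' hx (rfl | rfl)
    · exact hx
    · exact Q.mul_mem (hQz hzc) hx
  obtain ⟨u, hu2, hu⟩ := hnorm g₀ (hQsq g₀ hg₀Q)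
  obtain ⟨v, hv2, hv⟩ := hnorm h₀ (hQsq h₀ hh₀Q)
  have huQ := hnormQ _ _ hg₀Q hu
  have hvQ := hnormQ _ _ hh₀Q hv
  have huv : u * v * u⁻¹ * v⁻¹ = J := by
    rw [hnormcomm _ _ _ hu, hnormcomm' _ _ _ hv, hh₀]
  -- the first pair
  obtain ⟨hcard1, hdec1⟩ := card_pair (J := J) hzz hJ2 hJcomm (hsign u huQ) (hsign v hvQ) huv
  set C : Subgroup G := centralizer ({u} : Set G) ⊓ centralizer ({v} : Set G) with hCdef
  have hC16 : Nat.card C = 16 := by
    rw [hG] at hcard1
    omega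
  have hCu : ∀ x ∈ C, x * u = u * x := fun x hx => Subgroup.mem_centralizer_singleton_iff.mp hx.1
  have hCv : ∀ x ∈ C, x * v = v * x := fun x hx => Subgroup.mem_centralizer_singleton_iff.mp hx.2
  have hZC : center G ≤ C := fun ζ hζ =>
    ⟨Subgroup.mem_centralizer_singleton_iff.mpr (Subgroup.mem_center_iff.mp hζ u).symm,
      Subgroup.mem_centralizer_singleton_iff.mpr (Subgroup.mem_center_iff.mp hζ v).symm⟩
  have hCcent : ∀ x ∈ C, (∀ y ∈ C, x * y = y * x) → x ∈ center G := by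
    intro x hx hxC
    rw [Subgroup.mem_center_iff]
    intro r
    obtain ⟨e, f, hef⟩ := hdec1 r
    have hr : r = (r * v ^ e * u ^ f) * (u ^ f)⁻¹ * (v ^ e)⁻¹ := by group
    have h1 : Commute x (r * v ^ e * u ^ f) := hxC _ hef
    have h2 : Commute x (u ^ f) := Commute.pow_right (hCu x hx : Commute x u) f
    have h3 : Commute x (v ^ e) := Commute.pow_right (hCv x hx : Commute x v) e
    have h4' : Commute x r := by
      rw [hr]
      exact (h1.mul_right h2.inv_right).mul_right h3.inv_right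
    exact h4'.symm.eq
  -- the second pair lives in `C`
  let Z₁ : Subgroup C := (center G).subgroupOf C
  have hZ₁card : Nat.card Z₁ = 4 := by
    rw [← hZ]
    exact Nat.card_congr (Subgroup.subgroupOfEquivOfLe hZC).toEquiv
  have hZ₁cent : Z₁ ≤ center C := by
    intro ζ hζ
    rw [Subgroup.mem_center_iff]
    intro y
    apply Subtype.ext
    exact Subgroup.mem_center_iff.mp (Subgroup.mem_subgroupOf.mp hζ) y
  haveI hZ₁n : Z₁.Normal := ⟨fun n hn g => by
    have := Subgroup.mem_center_iff.mp (hZ₁cent hn) g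
    rw [this]
    simpa using hn⟩
  have hq4 : Nat.card (C ⧸ Z₁) = 2 ^ 2 := by
    have h1 := Subgroup.card_eq_card_quotient_mul_card_subgroup Z₁
    rw [hC16, hZ₁card] at h1
    norm_num
    omega
  have hqcomm : ∀ a b : C ⧸ Z₁, a * b = b * a := (IsPGroup.isMulCommutative_of_card_eq_prime_sq hq4).is_comm.comm
  have hCnc : ¬ ∀ a b : C, a * b = b * a := by
    intro h
    have hle : C ≤ center G := fun x hx => hCcent x hx fun y hy => congrArg Subtype.val (h ⟨x, hx⟩ ⟨y, hy⟩)
    have := Subgroup.card_le_of_le hle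
    rw [hC16, hZ] at this
    omega
  have hCsq : ∀ x ∈ C, x * x ∈ center G := by
    intro x hx
    by_contra hne
    apply hCnc
    let f : C →* C ⧸ Z₁ := QuotientGroup.mk' Z₁
    have hxb : ((⟨x, hx⟩ : C) : C ⧸ Z₁) ^ 2 ≠ 1 := by
      intro h
      apply hne
      have h1 : ((⟨x, hx⟩ * ⟨x, hx⟩ : C) : C ⧸ Z₁) = 1 := by
        rw [QuotientGroup.mk_mul, ← pow_two]
        exact h
      have h2 := (QuotientGroup.eq_one_iff _).mp h1
      exact Subgroup.mem_subgroupOf.mp h2
    have hxo : orderOf ((⟨x, hx⟩ : C) : C ⧸ Z₁) = Nat.card (C ⧸ Z₁) := by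
      have h1 : ((⟨x, hx⟩ : C) : C ⧸ Z₁) ^ 2 ^ 2 = 1 := by
        rw [← hq4]
        exact pow_card_eq_one'
      rw [hq4]
      exact orderOf_eq_prime_pow hxb h1
    haveI : IsCyclic (C ⧸ Z₁) := isCyclic_of_orderOf_eq_card _ hxo
    have hker : f.ker ≤ center C := by
      rw [QuotientGroup.ker_mk']
      exact hZ₁cent
    exact (f.isMulCommutative_of_isCyclic_of_ker_le_center hker).is_comm.comm
  have hCsign : ∀ x ∈ C, ∀ y ∈ C, x * y * x⁻¹ * y⁻¹ = 1 ∨ x * y * x⁻¹ * y⁻¹ = J := by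
    intro x hx y hy
    have hc : x * y * x⁻¹ * y⁻¹ ∈ center G := by
      have h1 := hqcomm ((⟨x, hx⟩ : C) : C ⧸ Z₁) ((⟨y, hy⟩ : C) : C ⧸ Z₁)
      have h2 : ((⟨x, hx⟩ * ⟨y, hy⟩ * (⟨x, hx⟩ : C)⁻¹ * (⟨y, hy⟩ : C)⁻¹ : C) : C ⧸ Z₁) = 1 := by
        simp only [QuotientGroup.mk_mul, QuotientGroup.mk_inv]
        rw [h1]
        group
      have h3 := (QuotientGroup.eq_one_iff _).mp h2
      exact Subgroup.mem_subgroupOf.mp h3
    apply hsqr _ hc
    rw [← comm_sq hc rfl]
    have := Subgroup.mem_center_iff.mp (hCsq x hx) y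
    rw [← this]
    group
  obtain ⟨g₁, hg₁C, hg₁Z⟩ : ∃ g₁ ∈ C, g₁ ∉ center G := by
    by_contra hcon
    push Not at hcon
    have := Subgroup.card_le_of_le hcon
    rw [hC16, hZ] at this
    omega
  obtain ⟨h₁, hh₁C, hh₁⟩ : ∃ h₁ ∈ C, g₁ * h₁ * g₁⁻¹ * h₁⁻¹ = J := by
    by_contra hcon
    push Not at hcon
    apply hg₁Z
    apply hCcent g₁ hg₁C
    intro y hy
    rcases hCsign g₁ hg₁C y hy with h | h
    · have h1 : g₁ * y * g₁⁻¹ * y⁻¹ * (y * g₁) = 1 * (y * g₁) := by rw [h]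
      simpa [mul_assoc] using h1
    · exact absurd h (hcon y hy)
  have hnormC : ∀ x x' : G, x ∈ C → (x' = x ∨ x' = z * x) → x' ∈ C := by
    rintro x x' hx (rfl | rfl)
    · exact hx
    · exact C.mul_mem (hZC hzc) hx
  obtain ⟨g, hg2, hg⟩ := hnorm g₁ (hCsq g₁ hg₁C)
  obtain ⟨h, hh2, hh⟩ := hnorm h₁ (hCsq h₁ hh₁C)
  have hgC := hnormC _ _ hg₁C hg
  have hhC := hnormC _ _ hh₁C hh
  have hgh : g * h * g⁻¹ * h⁻¹ = J := by
    rw [hnormcomm _ _ _ hg, hnormcomm' _ _ _ hh, hh₁]
  -- the pair inside `C`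
  have hJC : J ∈ C := hZC hJc
  obtain ⟨hcard2, hdec2⟩ := card_pair (H := C) (J := ⟨J, hJC⟩) (a := ⟨g, hgC⟩) (b := ⟨h, hhC⟩)
    (fun h' => hzz (congrArg Subtype.val h')) (Subtype.ext hJ2) (fun x => Subtype.ext (hJcomm x))
    (fun y => by
      rcases hCsign g hgC y y.2 with h' | h'
      · exact Or.inl (Subtype.ext h')
      · exact Or.inr (Subtype.ext h'))
    (fun y => by
      rcases hCsign h hhC y y.2 with h' | h'
      · exact Or.inl (Subtype.ext h')
      · exact Or.inr (Subtype.ext h'))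
    (Subtype.ext hgh)
  set D : Subgroup C := centralizer ({⟨g, hgC⟩} : Set C) ⊓ centralizer ({⟨h, hhC⟩} : Set C) with hDdef
  have hD4 : Nat.card D = 4 := by
    rw [hC16] at hcard2
    omega
  have hZD : Z₁ ≤ D := fun ζ hζ =>
    ⟨Subgroup.mem_centralizer_singleton_iff.mpr (Subgroup.mem_center_iff.mp (hZ₁cent hζ) _).symm,
      Subgroup.mem_centralizer_singleton_iff.mpr (Subgroup.mem_center_iff.mp (hZ₁cent hζ) _).symm⟩
  have hDZ : D = Z₁ := (Subgroup.eq_of_le_of_card_ge hZD (by rw [hZ₁card, hD4])).symm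
  have hgens : ∀ r : G, ∃ a b c d : ℕ, r * v ^ a * u ^ b * h ^ c * g ^ d ∈ center G := by
    intro r
    obtain ⟨e, f, hef⟩ := hdec1 r
    obtain ⟨e', f', hef'⟩ := hdec2 ⟨_, hef⟩
    rw [hDZ] at hef'
    refine ⟨e, f, e', f', ?_⟩
    have := Subgroup.mem_subgroupOf.mp hef'
    simpa using this
  have hgu := (hCu g hgC).symm
  have hhu := (hCu h hhC).symm
  have hgv := (hCv g hgC).symm
  have hhv := (hCv h hhC).symm
  -- all commutators
  have hCQ : ∀ x ∈ C, x ∈ Q := by
    intro x hx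
    rw [hQ]
    intro y
    obtain ⟨e, f, hef⟩ := hdec1 y
    have hy : y = (y * v ^ e * u ^ f) * ((u ^ f)⁻¹ * (v ^ e)⁻¹) := by group
    have h2 : Commute x (u ^ f) := Commute.pow_right (hCu x hx : Commute x u) f
    have h3 : Commute x (v ^ e) := Commute.pow_right (hCv x hx : Commute x v) e
    have h5 : Commute x ((u ^ f)⁻¹ * (v ^ e)⁻¹) := h2.inv_right.mul_right h3.inv_right
    generalize y * v ^ e * u ^ f = c at hef hy
    generalize (u ^ f)⁻¹ * (v ^ e)⁻¹ = w at hy h5
    subst hy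
    have e1 : x * (c * w) * x⁻¹ * (c * w)⁻¹ = x * c * x⁻¹ * c⁻¹ := by
      have h6 : x * (c * w) = x * c * w := by group
      have h7 : x * c * w * x⁻¹ = x * c * (w * x⁻¹) := by group
      have h8 : w * x⁻¹ = x⁻¹ * w := (h5.symm.inv_right).eq
      rw [h6, h7, h8]
      group
    rw [e1]
    rcases hCsign x hx c hef with h' | h'
    · rw [h']
      exact (center G).one_mem
    · rw [h']
      exact hJc
  have hQtop : ∀ r : G, r ∈ Q := by
    intro r
    obtain ⟨a, b, c, d, hr⟩ := hgens r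
    have e : r = (r * v ^ a * u ^ b * h ^ c * g ^ d) * (g ^ d)⁻¹ * (h ^ c)⁻¹ * (u ^ b)⁻¹ * (v ^ a)⁻¹ := by group
    rw [e]
    exact Q.mul_mem (Q.mul_mem (Q.mul_mem (Q.mul_mem (hQz hr) (Q.inv_mem (Q.pow_mem (hCQ g hgC) d)))
      (Q.inv_mem (Q.pow_mem (hCQ h hhC) c))) (Q.inv_mem (Q.pow_mem huQ b))) (Q.inv_mem (Q.pow_mem hvQ a))
  have hgenSign : ∀ a b : G, a * b * a⁻¹ * b⁻¹ = 1 ∨ a * b * a⁻¹ * b⁻¹ = J := fun a b => hsign a (hQtop a) b
  exact ⟨z, u, v, g, h, hzc, hzz, hu2, hv2, hg2, hh2, huv, hgh, hgu, hhu, hgv, hhv, hgens, hgenSign⟩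

end Main

end Cfsg.Agent.Lib.TwoSix.Struct
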