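import Cfsg.Agent.Lib.TwoSix.Struct

/-!
# The abstract structure of a group of symplectic type of order `32` with centre of order `2`
-/

set_option autoImplicit false

namespace Cfsg.Agent.Lib.TwoSix.Struct

open Subgroup

/-- A nontrivial normal subgroup of a `p`-group meets the centre. -/
theorem exists_central_of_normal {H : Type*} [Group H] [Finite H] {p : ℕ} [Fact p.Prime] (hp : IsPGroup p H)
    (N : Subgroup H) [hN : N.Normal] (hne : N ≠ ⊥) : ∃ n ∈ N, n ≠ 1 ∧ n ∈ center H := by
  have hP : IsPGroup p (ConjAct H) := hp.of_equiv ConjAct.toConjAct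
  haveI : Nontrivial N := (Subgroup.nontrivial_iff_ne_bot N).mpr hne
  have hdvd : p ∣ Nat.card N := by
    obtain ⟨n, hn0, hn⟩ := (IsPGroup.to_subgroup hp N).nontrivial_iff_card.mp inferInstance
    exact hn.symm ▸ dvd_pow_self _ (ne_of_gt hn0)
  have hfix : (1 : N) ∈ MulAction.fixedPoints (ConjAct H) N := fun g => smul_one g
  obtain ⟨b, hb, hb1⟩ := hP.exists_fixed_point_of_prime_dvd_card_of_fixed_point N hdvd hfix
  refine ⟨b, b.2, fun h => hb1 (Subtype.ext h.symm), ?_⟩
  rw [Subgroup.mem_center_iff]
  intro g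
  have h1 := congrArg Subtype.val (hb (ConjAct.toConjAct g))
  rw [ConjAct.Subgroup.val_conj_smul, ConjAct.toConjAct_smul] at h1
  calc g * b = (g * b * g⁻¹) * g := by group
    _ = b * g := by rw [h1]

section Main

variable {G : Type*} [Group G] [Finite G]

theorem card_double {K L : Subgroup G} (hle : K ≤ L) {x : G} (hx : x ∈ L) (hxK : x ∉ K) :
    2 * Nat.card K ≤ Nat.card L := by
  obtain ⟨k, hk⟩ := Subgroup.card_dvd_of_le hle
  have hpos : 0 < Nat.card L := Nat.card_pos
  have hK : 0 < Nat.card K := Nat.card_pos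
  have hk0 : k ≠ 0 := by
    rintro rfl
    omega
  have hk1 : k ≠ 1 := by
    rintro rfl
    apply hxK
    have := Subgroup.eq_of_le_of_card_ge hle (by omega)
    rw [this]
    exact hx
  have : 2 ≤ k := by omega
  rw [hk]
  nlinarith

theorem exists_gens32 (hG : Nat.card G = 32) (h4 : ∀ x : G, x ^ 4 = 1)
    (hchar : ∀ A : Subgroup G, A.Characteristic → IsMulCommutative A → IsCyclic A)
    (hZ : Nat.card (center G) = 2)
    (hminus : ∀ A : Subgroup G, IsMulCommutative A → (∀ x ∈ A, x * x = 1) → Nat.card A < 8) :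
    ∃ z a b c d : G, z ∈ center G ∧ z ≠ 1 ∧ z * z = 1 ∧ a * a = 1 ∧ b * b = 1 ∧ c * c = z ∧ d * d = z ∧
      a * b * a⁻¹ * b⁻¹ = z ∧ c * d * c⁻¹ * d⁻¹ = z ∧ a * c = c * a ∧ a * d = d * a ∧ b * c = c * b ∧ b * d = d * b ∧
      (∀ r : G, ∃ e f e' f' : ℕ, r * b ^ e * a ^ f * d ^ e' * c ^ f' ∈ center G) ∧
      (∀ x y : G, x * y * x⁻¹ * y⁻¹ = 1 ∨ x * y * x⁻¹ * y⁻¹ = z) ∧ (∀ x : G, x * x = 1 ∨ x * x = z) := by
  classical
  haveI : Fact (Nat.Prime 2) := ⟨Nat.prime_two⟩
  haveI hZnt : Nontrivial (center G) := by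
    apply Finite.one_lt_card_iff_nontrivial.mp
    rw [hZ]
    norm_num
  obtain ⟨z₀, hz₀⟩ : ∃ z₀ : center G, z₀ ≠ 1 := exists_ne 1
  set J : G := (z₀ : G) with hJ
  have hJc : J ∈ center G := z₀.2
  have hJ1 : J ≠ 1 := fun h => hz₀ (Subtype.ext h)
  have hJ2 : J * J = 1 := by
    have h1 : z₀ ^ 2 = 1 := by
      rw [← hZ]
      exact pow_card_eq_one'
    have := congrArg Subtype.val h1
    simpa [pow_two] using this
  have hJcomm : ∀ x, J * x = x * J := fun x => (Subgroup.mem_center_iff.mp hJc x).symm
  have hsqr : ∀ ζ ∈ center G, ζ = 1 ∨ ζ = J := by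
    intro ζ hζ
    by_cases h1 : ζ = 1
    · exact Or.inl h1
    · right
      obtain ⟨y, _, hy⟩ := (Nat.card_eq_two_iff' (1 : center G)).mp hZ
      have e1 : (⟨ζ, hζ⟩ : center G) = y := hy _ (fun h => h1 (congrArg Subtype.val h))
      have e2 : z₀ = y := hy _ hz₀
      rw [← e2] at e1
      exact congrArg Subtype.val e1
  -- the second centre
  let Q : Subgroup G := Subgroup.upperCentralSeries G 2
  have hQ : ∀ x, x ∈ Q ↔ ∀ y, x * y * x⁻¹ * y⁻¹ ∈ center G := by
    intro x
    rw [show Q = Subgroup.upperCentralSeries G (1 + 1) from rfl, Subgroup.mem_upperCentralSeries_succ_iff, Subgroup.upperCentralSeries_one]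
    rfl
  have hQφ : ∀ (φ : G ≃* G) {x : G}, x ∈ Q → φ x ∈ Q := by
    intro φ x hx
    rw [hQ] at hx ⊢
    intro y
    have h1 := center_image φ (hx (φ.symm y))
    simpa using h1
  have hQz : center G ≤ Q := by
    intro ζ hζ
    rw [hQ]
    intro y
    have : ζ * y * ζ⁻¹ * y⁻¹ = 1 := by
      rw [← Subgroup.mem_center_iff.mp hζ y]
      group
    rw [this]
    exact (center G).one_mem
  have hsign : ∀ x ∈ Q, ∀ y, x * y * x⁻¹ * y⁻¹ = 1 ∨ x * y * x⁻¹ * y⁻¹ = J := fun x hx y => hsqr _ ((hQ x).mp hx y)
  have hcc : ∀ ζ ∈ center G, ζ * ζ = 1 := by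
    intro ζ hζ
    rcases hsqr ζ hζ with rfl | rfl
    · simp
    · exact hJ2
  have hQsq : ∀ x ∈ Q, x * x ∈ center G := by
    intro x hx
    rw [Subgroup.mem_center_iff]
    intro y
    have hc := (hQ x).mp hx y
    have h1 := comm_sq hc rfl
    rw [hcc _ hc] at h1
    have h2 : (x * x) * y * (x * x)⁻¹ * y⁻¹ * (y * (x * x)) = 1 * (y * (x * x)) := by rw [h1]
    have h3 : (x * x) * y = y * (x * x) := by simpa [mul_assoc] using h2
    exact h3.symm
  have hcomm_of : ∀ x y : G, x * y * x⁻¹ * y⁻¹ = 1 → x * y = y * x := by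
    intro x y h
    have h1 : x * y * x⁻¹ * y⁻¹ * (y * x) = 1 * (y * x) := by rw [h]
    simpa [mul_assoc] using h1
  have hGZ : Nat.card (G ⧸ center G) = 16 := by
    have h1 := Subgroup.card_eq_card_quotient_mul_card_subgroup (center G)
    rw [hG, hZ] at h1
    omega
  obtain ⟨g₀, hg₀Q, hg₀Z⟩ : ∃ g₀ ∈ Q, g₀ ∉ center G := by
    have hP : IsPGroup 2 (G ⧸ center G) := IsPGroup.of_card (n := 4) (by rw [hGZ]; norm_num)
    haveI : Finite (G ⧸ center G) := inferInstance
    haveI : Nontrivial (G ⧸ center G) := by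
      apply Finite.one_lt_card_iff_nontrivial.mp
      rw [hGZ]
      norm_num
    have hzn := hP.center_nontrivial
    obtain ⟨w, hw, hw1⟩ := Subgroup.exists_ne_one_of_nontrivial (center (G ⧸ center G)) |>.imp fun _ h => h
    obtain ⟨g₀, rfl⟩ := QuotientGroup.mk_surjective w
    refine ⟨g₀, ?_, ?_⟩
    · rw [hQ]
      intro y
      rw [← QuotientGroup.eq_one_iff]
      have := Subgroup.mem_center_iff.mp hw (y : G ⧸ center G)
      simp only [QuotientGroup.mk_mul, QuotientGroup.mk_inv]
      rw [← this]
      group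
    · intro h
      apply hw1
      exact (QuotientGroup.eq_one_iff _).mpr h
  -- all commutators lie in the centre
  have hall : ∀ x y : G, x * y * x⁻¹ * y⁻¹ = 1 ∨ x * y * x⁻¹ * y⁻¹ = J := by
    by_cases hpair : ∃ u ∈ Q, ∃ v ∈ Q, u * v * u⁻¹ * v⁻¹ = J
    · obtain ⟨u, huQ, v, hvQ, huv⟩ := hpair
      obtain ⟨hcard1, hdec1⟩ := card_pair (J := J) hJ1 hJ2 hJcomm (hsign u huQ) (hsign v hvQ) huv
      set C : Subgroup G := centralizer ({u} : Set G) ⊓ centralizer ({v} : Set G) with hCdef
      have hC8 : Nat.card C = 8 := by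
        rw [hG] at hcard1
        omega
      have hCu : ∀ x ∈ C, x * u = u * x := fun x hx => Subgroup.mem_centralizer_singleton_iff.mp hx.1
      have hCv : ∀ x ∈ C, x * v = v * x := fun x hx => Subgroup.mem_centralizer_singleton_iff.mp hx.2
      have hZC : center G ≤ C := fun ζ hζ =>
        ⟨Subgroup.mem_centralizer_singleton_iff.mpr (Subgroup.mem_center_iff.mp hζ u).symm,
          Subgroup.mem_centralizer_singleton_iff.mpr (Subgroup.mem_center_iff.mp hζ v).symm⟩
      let Z₁ : Subgroup C := (center G).subgroupOf C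
      have hZ₁card : Nat.card Z₁ = 2 := by
        rw [← hZ]
        exact Nat.card_congr (Subgroup.subgroupOfEquivOfLe hZC).toEquiv
      have hZ₁cent : Z₁ ≤ center C := by
        intro ζ hζ
        rw [Subgroup.mem_center_iff]
        intro y
        apply Subtype.ext
        exact Subgroup.mem_center_iff.mp (Subgroup.mem_subgroupOf.mp hζ) y
      haveI hZ₁n : Z₁.Normal := ⟨fun n hn g => by
        have := Subgroup.mem_center_iff.mp (hZ₁cent hn) g
        rw [this]
        simpa using hn⟩
      have hq4 : Nat.card (C ⧸ Z₁) = 2 ^ 2 := by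
        have h1 := Subgroup.card_eq_card_quotient_mul_card_subgroup Z₁
        rw [hC8, hZ₁card] at h1
        norm_num
        omega
      have hqcomm : ∀ a b : C ⧸ Z₁, a * b = b * a := (IsPGroup.isMulCommutative_of_card_eq_prime_sq hq4).is_comm.comm
      have hCsign : ∀ x ∈ C, ∀ y ∈ C, x * y * x⁻¹ * y⁻¹ = 1 ∨ x * y * x⁻¹ * y⁻¹ = J := by
        intro x hx y hy
        apply hsqr
        have h1 := hqcomm ((⟨x, hx⟩ : C) : C ⧸ Z₁) ((⟨y, hy⟩ : C) : C ⧸ Z₁)
        have h2 : ((⟨x, hx⟩ * ⟨y, hy⟩ * (⟨x, hx⟩ : C)⁻¹ * (⟨y, hy⟩ : C)⁻¹ : C) : C ⧸ Z₁) = 1 := by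
          simp only [QuotientGroup.mk_mul, QuotientGroup.mk_inv]
          rw [h1]
          group
        have h3 := (QuotientGroup.eq_one_iff _).mp h2
        exact Subgroup.mem_subgroupOf.mp h3
      have hCQ : ∀ x ∈ C, x ∈ Q := by
        intro x hx
        rw [hQ]
        intro y
        obtain ⟨e, f, hef⟩ := hdec1 y
        have hy : y = (y * v ^ e * u ^ f) * ((u ^ f)⁻¹ * (v ^ e)⁻¹) := by group
        have h2 : Commute x (u ^ f) := Commute.pow_right (hCu x hx : Commute x u) f
        have h3 : Commute x (v ^ e) := Commute.pow_right (hCv x hx : Commute x v) e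
        have h5 : Commute x ((u ^ f)⁻¹ * (v ^ e)⁻¹) := h2.inv_right.mul_right h3.inv_right
        generalize y * v ^ e * u ^ f = c at hef hy
        generalize (u ^ f)⁻¹ * (v ^ e)⁻¹ = w at hy h5
        subst hy
        have e1 : x * (c * w) * x⁻¹ * (c * w)⁻¹ = x * c * x⁻¹ * c⁻¹ := by
          have h6 : x * (c * w) = x * c * w := by group
          have h7 : x * c * w * x⁻¹ = x * c * (w * x⁻¹) := by group
          have h8 : w * x⁻¹ = x⁻¹ * w := (h5.symm.inv_right).eq
          rw [h6, h7, h8]
          group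
        rw [e1]
        rcases hCsign x hx c hef with h' | h'
        · rw [h']
          exact (center G).one_mem
        · rw [h']
          exact hJc
      intro x y
      apply hsign x
      obtain ⟨e, f, hef⟩ := hdec1 x
      have e1 : x = (x * v ^ e * u ^ f) * (u ^ f)⁻¹ * (v ^ e)⁻¹ := by group
      rw [e1]
      exact Q.mul_mem (Q.mul_mem (hCQ _ hef) (Q.inv_mem (Q.pow_mem huQ f))) (Q.inv_mem (Q.pow_mem hvQ e))
    · -- the second centre is abelian: a contradiction
      exfalso
      push Not at hpair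
      have hQab : ∀ x ∈ Q, ∀ y ∈ Q, x * y = y * x := by
        intro x hx y hy
        rcases hsign x hx y with h | h
        · exact hcomm_of _ _ h
        · exact absurd h (hpair x hx y hy)
      have hQc : IsMulCommutative Q := ⟨⟨fun a b => Subtype.ext (hQab a a.2 b b.2)⟩⟩
      have hQch : Q.Characteristic := by
        rw [Subgroup.characteristic_iff_le_comap]
        intro φ x hx
        exact hQφ φ hx
      haveI hQcyc : IsCyclic Q := hchar Q hQch hQc
      obtain ⟨t₀, ht₀⟩ := IsCyclic.exists_generator (α := Q)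
      set t : G := (t₀ : G) with ht
      have hcardQ : Nat.card Q = orderOf t₀ := (orderOf_eq_card_of_forall_mem_zpowers ht₀).symm
      have hordt : orderOf t = orderOf t₀ := by
        rw [ht, Subgroup.orderOf_coe]
      have hd4 : orderOf t ∣ 4 := orderOf_dvd_of_pow_eq_one (h4 t)
      have hQ2 : 2 * Nat.card (center G) ≤ Nat.card Q := card_double hQz hg₀Q hg₀Z
      have hQ4 : Nat.card Q = 4 := by
        rw [hZ] at hQ2
        have h1 : Nat.card Q ∣ 4 := by
          rw [hcardQ, ← hordt]
          exact hd4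
        have h2 := Nat.le_of_dvd (by norm_num) h1
        omega
      have hordt4 : orderOf t = 4 := by
        rw [hordt, ← hcardQ, hQ4]
      have htQ : t ∈ Q := t₀.2
      have ht4 : t ^ 4 = 1 := h4 t
      have htt : t * t = J := by
        rcases hsqr _ (hQsq t htQ) with h | h
        · exfalso
          have h1 : orderOf t ∣ 2 := orderOf_dvd_of_pow_eq_one (by rw [pow_two]; exact h)
          rw [hordt4] at h1
          omega
        · exact h
      have hQpow : ∀ q ∈ Q, ∃ k < 4, q = t ^ k := by
        intro q hq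
        have h1 := ht₀ ⟨q, hq⟩
        rw [mem_zpowers_iff_mem_range_orderOf, ← hordt, hordt4] at h1
        obtain ⟨k, hk, hk'⟩ := Finset.mem_image.mp h1
        refine ⟨k, Finset.mem_range.mp hk, ?_⟩
        have := congrArg Subtype.val hk'
        simpa using this.symm
      have hQinv : ∀ q ∈ Q, q * q = 1 → q ∈ center G := by
        intro q hq hqq
        obtain ⟨k, hk, rfl⟩ := hQpow q hq
        interval_cases k
        · simpa using (center G).one_mem
        · exfalso
          rw [pow_one, htt] at hqq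
          exact hJ1 hqq
        · rw [pow_two, htt]
          exact hJc
        · exfalso
          have e : t ^ 3 * t ^ 3 = t ^ 4 * (t * t) := by group
          rw [e, ht4, one_mul, htt] at hqq
          exact hJ1 hqq
      -- `t` is not central
      have htZ : t ∉ center G := by
        intro h
        apply hg₀Z
        obtain ⟨k, _, hk⟩ := hQpow g₀ hg₀Q
        rw [hk]
        exact (center G).pow_mem h k
      obtain ⟨b, hb⟩ : ∃ b, t * b * t⁻¹ * b⁻¹ = J := by
        by_contra hcon
        push Not at hcon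
        apply htZ
        rw [Subgroup.mem_center_iff]
        intro y
        rcases hsign t htQ y with h | h
        · exact (hcomm_of _ _ h).symm
        · exact absurd h (hcon y)
      -- the centralizer of `t`
      set C : Subgroup G := centralizer ({t} : Set G) with hCdef
      have hCmem : ∀ y, y ∈ C ↔ t * y * t⁻¹ * y⁻¹ = 1 := fun y => mem_centralizer_iff'
      have hIC : C.index = 2 := by
        apply Subgroup.index_eq_two_iff.mpr
        refine ⟨b, ?_⟩
        intro y
        rw [hCmem, hCmem, comm_mul_right hJcomm hb]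
        rcases hsign t htQ y with h | h
        · right
          rw [h, mul_one]
          exact ⟨rfl, hJ1⟩
        · left
          rw [h, hJ2]
          exact ⟨rfl, fun h' => hJ1 (h'.symm ▸ rfl)⟩
      have hC16 : Nat.card C = 16 := by
        have h1 := Subgroup.card_mul_index C
        rw [hIC, hG] at h1
        omega
      haveI hCn : C.Normal := Subgroup.normal_of_index_eq_two hIC
      haveI hQn : Q.Normal := by haveI := hQch; infer_instance
      let H := G ⧸ Q
      have hHcard : Nat.card H = 8 := by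
        have h1 := Subgroup.card_eq_card_quotient_mul_card_subgroup Q
        rw [hG, hQ4] at h1
        change Nat.card (G ⧸ Q) = 8
        omega
      have hHp : IsPGroup 2 H := IsPGroup.of_card (n := 3) (by rw [hHcard]; norm_num)
      let N : Subgroup H := C.map (QuotientGroup.mk' Q)
      haveI hNn : N.Normal := Subgroup.Normal.map hCn _ (QuotientGroup.mk'_surjective Q)
      have hCQne : ∃ y ∈ C, y ∉ Q := by
        by_contra hcon
        push Not at hcon
        have := Subgroup.card_le_of_le (H := C) (K := Q) hcon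
        rw [hC16, hQ4] at this
        omega
      have hNne : N ≠ ⊥ := by
        obtain ⟨y, hy, hyQ⟩ := hCQne
        intro h
        have h1 : (QuotientGroup.mk' Q) y ∈ N := Subgroup.mem_map_of_mem _ hy
        rw [h, Subgroup.mem_bot] at h1
        exact hyQ ((QuotientGroup.eq_one_iff _).mp h1)
      obtain ⟨n, hnN, hn1, hnc⟩ := exists_central_of_normal hHp N hNne
      obtain ⟨y, hyC, rfl⟩ := hnN
      have hyQ : y ∉ Q := fun h => hn1 ((QuotientGroup.eq_one_iff _).mpr h)
      have hyt : t * y = y * t := hcomm_of _ _ ((hCmem y).mp hyC)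
      have hycomm : ∀ q ∈ Q, y * q = q * y := by
        intro q hq
        obtain ⟨k, _, rfl⟩ := hQpow q hq
        exact ((Commute.pow_left (show Commute t y from hyt) k).symm).eq
      have hcentral : ∀ s g : G, (QuotientGroup.mk' Q) s = (QuotientGroup.mk' Q) y → g * s * g⁻¹ * s⁻¹ ∈ Q := by
        intro s g hs
        have h1 := Subgroup.mem_center_iff.mp hnc ((QuotientGroup.mk' Q) g)
        rw [← QuotientGroup.eq_one_iff]
        have h2 : ((g * s * g⁻¹ * s⁻¹ : G) : H) = (QuotientGroup.mk' Q) g * (QuotientGroup.mk' Q) s * ((QuotientGroup.mk' Q) g)⁻¹ * ((QuotientGroup.mk' Q) s)⁻¹ := rfl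
        rw [h2, hs, h1]
        group
      -- squares of `y`
      have hyy : y * y ∈ center G := by
        apply hQinv
        · rw [hQ]
          intro g
          have hc := hcentral y g rfl
          have he : g * y * g⁻¹ = (g * y * g⁻¹ * y⁻¹) * y := by group
          have h1 : g * (y * y) * g⁻¹ * (y * y)⁻¹ = (g * y * g⁻¹ * y⁻¹) * (g * y * g⁻¹ * y⁻¹) := by
            set c := g * y * g⁻¹ * y⁻¹ with hcdef
            have h2 : g * (y * y) * g⁻¹ = (g * y * g⁻¹) * (g * y * g⁻¹) := by group
            rw [h2, he]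
            have h3 : c * y * (c * y) = c * (y * c) * y := by group
            rw [h3, hycomm c hc]
            group
          have h5 : ∀ w : G, w * g * w⁻¹ * g⁻¹ = (g * w * g⁻¹ * w⁻¹)⁻¹ := by intro w; group
          rw [h5, h1]
          exact (center G).inv_mem (hQsq _ hc)
        · have := h4 y
          calc y * y * (y * y) = y ^ 4 := by simp only [pow_succ, pow_zero, one_mul, mul_assoc]
            _ = 1 := this
      obtain ⟨s, hsmk, hss, hsC⟩ : ∃ s : G, (QuotientGroup.mk' Q) s = (QuotientGroup.mk' Q) y ∧ s * s = 1 ∧ (∀ q ∈ Q, s * q = q * s) := by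
        rcases hsqr _ hyy with h | h
        · exact ⟨y, rfl, h, hycomm⟩
        · refine ⟨y * t⁻¹, ?_, ?_, ?_⟩
          · rw [map_mul, map_inv]
            have : (QuotientGroup.mk' Q) t = 1 := (QuotientGroup.eq_one_iff _).mpr htQ
            rw [this]
            simp
          · have h1 : y * t⁻¹ * (y * t⁻¹) = y * (t⁻¹ * y) * t⁻¹ := by group
            have h2 : t⁻¹ * y = y * t⁻¹ := by
              have := hycomm t⁻¹ (Q.inv_mem htQ)
              exact this.symm
            rw [h1, h2]
            have h3 : y * (y * t⁻¹) * t⁻¹ = (y * y) * (t * t)⁻¹ := by group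
            rw [h3, h, htt]
            group
          · intro q hq
            have h1 : t⁻¹ * q = q * t⁻¹ := hQab _ (Q.inv_mem htQ) _ hq
            calc y * t⁻¹ * q = y * (t⁻¹ * q) := by group
              _ = y * (q * t⁻¹) := by rw [h1]
              _ = (y * q) * t⁻¹ := by group
              _ = (q * y) * t⁻¹ := by rw [hycomm q hq]
              _ = _ := by group
      have hsQ : s ∉ Q := by
        intro h
        apply hyQ
        have h1 : (QuotientGroup.mk' Q) s = 1 := (QuotientGroup.eq_one_iff _).mpr h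
        rw [hsmk] at h1
        exact (QuotientGroup.eq_one_iff _).mp h1
      apply hsQ
      rw [hQ]
      intro g
      have hc := hcentral s g hsmk
      have he : g * s * g⁻¹ = (g * s * g⁻¹ * s⁻¹) * s := by group
      set q := g * s * g⁻¹ * s⁻¹ with hqdef
      have hqq : q * q = 1 := by
        have h1 : (g * s * g⁻¹) * (g * s * g⁻¹) = 1 := by
          have : (g * s * g⁻¹) * (g * s * g⁻¹) = g * (s * s) * g⁻¹ := by group
          rw [this, hss]
          group
        rw [he] at h1
        have h3 : q * s * (q * s) = q * (s * q) * s := by group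
        rw [h3, hsC q hc] at h1
        have h5 : q * (q * s) * s = (q * q) * (s * s) := by group
        rw [h5, hss, mul_one] at h1
        exact h1
      have hqc := hQinv q hc hqq
      have h5 : s * g * s⁻¹ * g⁻¹ = q⁻¹ := by
        rw [hqdef]
        group
      rw [h5]
      exact (center G).inv_mem hqc
  -- squares
  have hsq : ∀ x : G, x * x = 1 ∨ x * x = J := by
    intro x
    apply hsqr
    rw [Subgroup.mem_center_iff]
    intro y
    have hc : x * y * x⁻¹ * y⁻¹ ∈ center G := by
      rcases hall x y with h | h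
      · rw [h]
        exact (center G).one_mem
      · rw [h]
        exact hJc
    have h1 := comm_sq hc rfl
    rw [hcc _ hc] at h1
    exact (hcomm_of _ _ h1).symm
  have hpartner : ∀ x : G, x ∉ center G → ∃ y, x * y * x⁻¹ * y⁻¹ = J := by
    intro x hx
    by_contra hcon
    push Not at hcon
    apply hx
    rw [Subgroup.mem_center_iff]
    intro y
    rcases hall x y with h | h
    · exact (hcomm_of _ _ h).symm
    · exact absurd h (hcon y)
  -- a noncentral involution
  obtain ⟨a, haa, haZ⟩ : ∃ a : G, a * a = 1 ∧ a ∉ center G := by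
    by_contra hcon
    push Not at hcon
    have hinv : ∀ x : G, x ∉ center G → x * x = J := by
      intro x hx
      rcases hsq x with h | h
      · exact absurd (hcon x h) hx
      · exact h
    have hg₀J := hinv g₀ hg₀Z
    obtain ⟨y₀, hy₀⟩ := hpartner g₀ hg₀Z
    set C : Subgroup G := centralizer ({g₀} : Set G) with hCdef
    have hCmem : ∀ y, y ∈ C ↔ g₀ * y * g₀⁻¹ * y⁻¹ = 1 := fun y => mem_centralizer_iff'
    have hIC : C.index = 2 := by
      apply Subgroup.index_eq_two_iff.mpr
      refine ⟨y₀, ?_⟩
      intro y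
      rw [hCmem, hCmem, comm_mul_right hJcomm hy₀]
      rcases hall g₀ y with h | h
      · right
        rw [h, mul_one]
        exact ⟨rfl, hJ1⟩
      · left
        rw [h, hJ2]
        exact ⟨rfl, fun h' => hJ1 (h'.symm ▸ rfl)⟩
    have hC16 : Nat.card C = 16 := by
      have h1 := Subgroup.card_mul_index C
      rw [hIC, hG] at h1
      omega
    have hzp : Nat.card (Subgroup.zpowers g₀) ≤ 4 := by
      rw [Nat.card_zpowers]
      exact Nat.le_of_dvd (by norm_num) (orderOf_dvd_of_pow_eq_one (h4 g₀))
    obtain ⟨w, hwC, hwz⟩ : ∃ w ∈ C, w ∉ Subgroup.zpowers g₀ := by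
      by_contra hc
      push Not at hc
      have := Subgroup.card_le_of_le (H := C) (K := Subgroup.zpowers g₀) hc
      omega
    have hwg : g₀ * w = w * g₀ := hcomm_of _ _ ((hCmem w).mp hwC)
    have hJz : J ∈ Subgroup.zpowers g₀ := by
      rw [← hg₀J, ← pow_two]
      exact Subgroup.pow_mem _ (Subgroup.mem_zpowers g₀) 2
    have hcenterz : ∀ ζ ∈ center G, ζ ∈ Subgroup.zpowers g₀ := by
      intro ζ hζ
      rcases hsqr ζ hζ with rfl | rfl
      · exact Subgroup.one_mem _
      · exact hJz
    have hwZ : w ∉ center G := fun h => hwz (hcenterz w h)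
    have hww := hinv w hwZ
    have hprod : (g₀ * w) * (g₀ * w) = 1 := by
      have h1 : (g₀ * w) * (g₀ * w) = g₀ * (w * g₀) * w := by group
      rw [h1, ← hwg]
      have h2 : g₀ * (g₀ * w) * w = (g₀ * g₀) * (w * w) := by group
      rw [h2, hg₀J, hww, hJ2]
    have hc1 := hcon _ hprod
    apply hwz
    have h5 : w = g₀⁻¹ * (g₀ * w) := by group
    rw [h5]
    exact Subgroup.mul_mem _ (Subgroup.inv_mem _ (Subgroup.mem_zpowers g₀)) (hcenterz _ hc1)
  -- its partner
  obtain ⟨b, hbb, hab⟩ : ∃ b : G, b * b = 1 ∧ a * b * a⁻¹ * b⁻¹ = J := by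
    obtain ⟨b₀, hb₀⟩ := hpartner a haZ
    rcases hsq b₀ with h | h
    · exact ⟨b₀, h, hb₀⟩
    · refine ⟨a * b₀, ?_, ?_⟩
      · have e1 : b₀ * a = J * (a * b₀) := by
          have h1 : a * b₀ = J * (b₀ * a) := by
            rw [← hb₀]
            group
          rw [h1, ← mul_assoc, hJ2, one_mul]
        have h1 : a * b₀ * (a * b₀) = a * (b₀ * a) * b₀ := by group
        rw [h1, e1]
        have h2 : a * (J * (a * b₀)) * b₀ = (a * J) * a * (b₀ * b₀) := by group
        rw [h2, ← hJcomm a, h]
        have h3 : J * a * a * J = J * (a * a) * J := by group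
        rw [h3, haa, mul_one, hJ2]
      · have h1 : a * (a * b₀) * a⁻¹ * (a * b₀)⁻¹ = a * (a * b₀ * a⁻¹ * b₀⁻¹) * a⁻¹ := by group
        rw [h1, hb₀, ← hJcomm a]
        group
  have hbQ := hall b
  obtain ⟨hcard1, hdec1⟩ := card_pair (J := J) hJ1 hJ2 hJcomm (hall a) (hall b) hab
  set C : Subgroup G := centralizer ({a} : Set G) ⊓ centralizer ({b} : Set G) with hCdef
  have hC8 : Nat.card C = 8 := by
    rw [hG] at hcard1
    omega
  have hCa : ∀ x ∈ C, x * a = a * x := fun x hx => Subgroup.mem_centralizer_singleton_iff.mp hx.1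
  have hCb : ∀ x ∈ C, x * b = b * x := fun x hx => Subgroup.mem_centralizer_singleton_iff.mp hx.2
  have hZC : center G ≤ C := fun ζ hζ =>
    ⟨Subgroup.mem_centralizer_singleton_iff.mpr (Subgroup.mem_center_iff.mp hζ a).symm,
      Subgroup.mem_centralizer_singleton_iff.mpr (Subgroup.mem_center_iff.mp hζ b).symm⟩
  have hCcent : ∀ x ∈ C, (∀ y ∈ C, x * y = y * x) → x ∈ center G := by
    intro x hx hxC
    rw [Subgroup.mem_center_iff]
    intro r
    obtain ⟨e, f, hef⟩ := hdec1 r
    have hr : r = (r * b ^ e * a ^ f) * (a ^ f)⁻¹ * (b ^ e)⁻¹ := by group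
    have h1 : Commute x (r * b ^ e * a ^ f) := hxC _ hef
    have h2 : Commute x (a ^ f) := Commute.pow_right (hCa x hx : Commute x a) f
    have h3 : Commute x (b ^ e) := Commute.pow_right (hCb x hx : Commute x b) e
    have h4' : Commute x r := by
      rw [hr]
      exact (h1.mul_right h2.inv_right).mul_right h3.inv_right
    exact h4'.symm.eq
  -- elements of `C` outside the centre have square `J`
  have hCsq : ∀ x ∈ C, x ∉ center G → x * x = J := by
    intro x hxC hxZ
    rcases hsq x with h | h
    · exfalso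
      let S : Set G := {a, x, J}
      have hScomm : ∀ u ∈ S, ∀ v ∈ S, u * v = v * u := by
        have hax : a * x = x * a := (hCa x hxC).symm
        rintro u (rfl | rfl | rfl) v (rfl | rfl | rfl)
        · rfl
        · exact hax
        · exact (hJcomm _).symm
        · exact hax.symm
        · rfl
        · exact (hJcomm _).symm
        · exact hJcomm _
        · exact hJcomm _
        · rfl
      have hAc : IsMulCommutative (closure S) := Subgroup.isMulCommutative_closure hScomm
      have hAsq : ∀ w ∈ closure S, w * w = 1 := by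
        intro w hw
        induction hw using Subgroup.closure_induction with
        | mem u hu =>
          rcases hu with rfl | rfl | rfl
          · exact haa
          · exact h
          · exact hJ2
        | one => simp
        | mul u v hu hv hu' hv' =>
          have h1 : u * v = v * u := congrArg Subtype.val (hAc.is_comm.comm ⟨u, hu⟩ ⟨v, hv⟩)
          have h2 : u * v * (u * v) = u * (v * u) * v := by group
          rw [h2, ← h1]
          have h3 : u * (u * v) * v = (u * u) * (v * v) := by group
          rw [h3, hu', hv', one_mul]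
        | inv u hu hu' =>
          have h1 : u⁻¹ * u⁻¹ = (u * u)⁻¹ := by group
          rw [h1, hu', inv_one]
      have hlt := hminus _ hAc hAsq
      have haS : a ∈ closure S := subset_closure (Or.inl rfl)
      have hxS : x ∈ closure S := subset_closure (Or.inr (Or.inl rfl))
      have hJS : J ∈ closure S := subset_closure (Or.inr (Or.inr rfl))
      have hzS : center G ≤ closure S := by
        intro ζ hζ
        rcases hsqr ζ hζ with rfl | rfl
        · exact Subgroup.one_mem _
        · exact hJS
      set K : Subgroup G := closure S ⊓ centralizer ({b} : Set G) with hK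
      have hZK : center G ≤ K := fun ζ hζ => ⟨hzS hζ, (hZC hζ).2⟩
      have hxK : x ∈ K := ⟨hxS, hxC.2⟩
      have h1 := card_double hZK hxK hxZ
      have haK : a ∉ K := by
        intro h
        have h2 : a * b = b * a := by
          have := Subgroup.mem_centralizer_singleton_iff.mp h.2
          exact this
        have h3 : a * b * a⁻¹ * b⁻¹ = 1 := by
          rw [h2]
          group
        rw [hab] at h3
        exact hJ1 h3
      have h2 : 2 * Nat.card K ≤ Nat.card (closure S) := card_double (inf_le_left : K ≤ closure S) haS haK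
      rw [hZ] at h1
      omega
    · exact h
  obtain ⟨c, hcC, hcZ⟩ : ∃ c ∈ C, c ∉ center G := by
    by_contra hcon
    push Not at hcon
    have := Subgroup.card_le_of_le (H := C) (K := center G) hcon
    rw [hC8, hZ] at this
    omega
  obtain ⟨d, hdC, hcd⟩ : ∃ d ∈ C, c * d * c⁻¹ * d⁻¹ = J := by
    by_contra hcon
    push Not at hcon
    apply hcZ
    apply hCcent c hcC
    intro y hy
    rcases hall c y with h | h
    · exact hcomm_of _ _ h
    · exact absurd h (hcon y hy)
  have hdZ : d ∉ center G := by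
    intro h
    have h1 : c * d * c⁻¹ * d⁻¹ = 1 := by
      have hdc : c * d = d * c := Subgroup.mem_center_iff.mp h c
      rw [hdc]
      group
    rw [hcd] at h1
    exact hJ1 h1
  have hJC : J ∈ C := hZC hJc
  obtain ⟨hcard2, hdec2⟩ := card_pair (H := C) (J := ⟨J, hJC⟩) (a := ⟨c, hcC⟩) (b := ⟨d, hdC⟩)
    (fun h' => hJ1 (congrArg Subtype.val h')) (Subtype.ext hJ2) (fun x => Subtype.ext (hJcomm x))
    (fun y => by
      rcases hall c y with h' | h'
      · exact Or.inl (Subtype.ext h')
      · exact Or.inr (Subtype.ext h'))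
    (fun y => by
      rcases hall d y with h' | h'
      · exact Or.inl (Subtype.ext h')
      · exact Or.inr (Subtype.ext h'))
    (Subtype.ext hcd)
  set D : Subgroup C := centralizer ({⟨c, hcC⟩} : Set C) ⊓ centralizer ({⟨d, hdC⟩} : Set C) with hDdef
  have hD2 : Nat.card D = 2 := by
    rw [hC8] at hcard2
    omega
  let Z₁ : Subgroup C := (center G).subgroupOf C
  have hZ₁card : Nat.card Z₁ = 2 := by
    rw [← hZ]
    exact Nat.card_congr (Subgroup.subgroupOfEquivOfLe hZC).toEquiv
  have hZ₁cent : Z₁ ≤ center C := by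
    intro ζ hζ
    rw [Subgroup.mem_center_iff]
    intro y
    apply Subtype.ext
    exact Subgroup.mem_center_iff.mp (Subgroup.mem_subgroupOf.mp hζ) y
  have hZD : Z₁ ≤ D := fun ζ hζ =>
    ⟨Subgroup.mem_centralizer_singleton_iff.mpr (Subgroup.mem_center_iff.mp (hZ₁cent hζ) _).symm,
      Subgroup.mem_centralizer_singleton_iff.mpr (Subgroup.mem_center_iff.mp (hZ₁cent hζ) _).symm⟩
  have hDZ : D = Z₁ := (Subgroup.eq_of_le_of_card_ge hZD (by rw [hZ₁card, hD2])).symm
  have hgens : ∀ r : G, ∃ e f e' f' : ℕ, r * b ^ e * a ^ f * d ^ e' * c ^ f' ∈ center G := by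
    intro r
    obtain ⟨e, f, hef⟩ := hdec1 r
    obtain ⟨e', f', hef'⟩ := hdec2 ⟨_, hef⟩
    rw [hDZ] at hef'
    refine ⟨e, f, e', f', ?_⟩
    have := Subgroup.mem_subgroupOf.mp hef'
    simpa using this
  exact ⟨J, a, b, c, d, hJc, hJ1, hJ2, haa, hbb, hCsq c hcC hcZ, hCsq d hdC hdZ, hab, hcd, (hCa c hcC).symm, (hCa d hdC).symm,
    (hCb c hcC).symm, (hCb d hdC).symm, hgens, hall, hsq⟩

end Main

end Cfsg.Agent.Lib.TwoSix.Struct
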