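import Cfsg.Agent.Lib.TwoSix.Elem

/-!
# Normal forms of matrices annihilated by products of irreducible polynomials
-/

set_option autoImplicit false

open scoped MatrixGroups Matrix
open Cfsg Module Polynomial

namespace Cfsg.Agent.Lib.TwoSix

open Cfsg.Agent.S5998 (mat_of_vec basisGL sum_diagonal)

variable {F : Type*} [Field F]

section Two

variable {V : Type*} [AddCommGroup V] [Module F V]

/-- A pair `v, M v` for an irreducible quadratic. -/
theorem pair_zero (M : V →ₗ[F] V) {a b : F} (hq : ∀ c : F, c * c + a * c + b ≠ 0) {v : V} (hv0 : v ≠ 0)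
    (hv : M (M v) + a • M v + b • v = 0) {c d : F} (h : c • v + d • M v = 0) : c = 0 ∧ d = 0 := by
  have hMs : c • M v + d • M (M v) = 0 := by
    have := congrArg M h
    simpa using this
  have e : M (M v) = -(a • M v) - b • v := by
    linear_combination (norm := module) hv
  rw [e] at hMs
  have hN : (c * c - a * c * d + b * d * d) • v = 0 := by
    linear_combination (norm := module) (c - a * d) • h - d • hMs
  have hN0 : c * c - a * c * d + b * d * d = 0 := (smul_eq_zero.mp hN).resolve_right hv0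
  by_cases hd : d = 0
  · subst hd
    have : c * c = 0 := by linear_combination hN0
    exact ⟨by simpa using this, rfl⟩
  · exfalso
    apply hq (-c / d)
    field_simp
    linear_combination hN0

/-- Two pairs for an irreducible quadratic. -/
theorem indep_two (M : V →ₗ[F] V) {a b : F} (hq : ∀ c : F, c * c + a * c + b ≠ 0) {v₁ v₂ : V} (hv₁0 : v₁ ≠ 0)
    (hv₁ : M (M v₁) + a • M v₁ + b • v₁ = 0) (hv₂ : M (M v₂) + a • M v₂ + b • v₂ = 0)
    (hU : ∀ α β : F, v₂ ≠ α • v₁ + β • M v₁) : LinearIndependent F ![v₁, M v₁, v₂, M v₂] := by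
  rw [Fintype.linearIndependent_iff]
  intro c hc
  rw [Fin.sum_univ_four] at hc
  change c 0 • v₁ + c 1 • M v₁ + c 2 • v₂ + c 3 • M v₂ = 0 at hc
  have hMs : c 0 • M v₁ + c 1 • M (M v₁) + c 2 • M v₂ + c 3 • M (M v₂) = 0 := by
    have := congrArg M hc
    simpa using this
  have e₁ : M (M v₁) = -(a • M v₁) - b • v₁ := by
    linear_combination (norm := module) hv₁
  have e₂ : M (M v₂) = -(a • M v₂) - b • v₂ := by
    linear_combination (norm := module) hv₂
  rw [e₁, e₂] at hMs
  set N := c 2 * c 2 - a * c 2 * c 3 + b * c 3 * c 3 with hN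
  have hNv : N • v₂ = -((c 2 - a * c 3) * c 0 + c 3 * c 1 * b) • v₁ - ((c 2 - a * c 3) * c 1 - c 3 * c 0 + c 3 * c 1 * a) • M v₁ := by
    linear_combination (norm := module) (c 2 - a * c 3) • hc - c 3 • hMs
  have hN0 : N = 0 := by
    by_contra hne
    apply hU (N⁻¹ * -((c 2 - a * c 3) * c 0 + c 3 * c 1 * b)) (N⁻¹ * -((c 2 - a * c 3) * c 1 - c 3 * c 0 + c 3 * c 1 * a))
    have h1 := congrArg (fun x => N⁻¹ • x) hNv
    simp only [smul_smul, inv_mul_cancel₀ hne, one_smul, smul_sub] at h1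
    rw [h1]
    module
  have h23 : c 2 = 0 ∧ c 3 = 0 := by
    by_cases hd : c 3 = 0
    · have : c 2 * c 2 = 0 := by
        rw [hN] at hN0
        rw [hd] at hN0
        linear_combination hN0
      exact ⟨by simpa using this, hd⟩
    · exfalso
      apply hq (-c 2 / c 3)
      field_simp
      rw [hN] at hN0
      linear_combination hN0
  rw [h23.1, h23.2, zero_smul, zero_smul, add_zero, add_zero] at hc
  obtain ⟨h0, h1⟩ := pair_zero M hq hv₁0 hv₁ hc
  intro i
  fin_cases i
  · exact h0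
  · exact h1
  · exact h23.1
  · exact h23.2

end Two

section Mat

/-- The block matrix of a pair of quadratic companion blocks. -/
def blockM (a b : F) : Matrix (Fin 4) (Fin 4) F := !![0, -b, 0, 0; 1, -a, 0, 0; 0, 0, 0, -b; 0, 0, 1, -a]

/-- A quadratic block and the identity. -/
def blockE (a b : F) : Matrix (Fin 4) (Fin 4) F := !![0, -b, 0, 0; 1, -a, 0, 0; 0, 0, 1, 0; 0, 0, 0, 1]

theorem exists_outside {v w : Fin 4 → F} : ∃ x : Fin 4 → F, ∀ α β : F, x ≠ α • v + β • w := by
  classical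
  by_contra hcon
  push Not at hcon
  have htop : Submodule.span F ({v, w} : Set (Fin 4 → F)) = ⊤ := by
    rw [eq_top_iff]
    intro x _
    obtain ⟨α, β, rfl⟩ := hcon x
    exact Submodule.mem_span_pair.mpr ⟨α, β, rfl⟩
  have h1 := finrank_span_finset_le_card (R := F) ({v, w} : Finset (Fin 4 → F))
  have h2 : (({v, w} : Finset (Fin 4 → F)) : Set (Fin 4 → F)) = {v, w} := by simp
  rw [h2] at h1
  unfold Set.finrank at h1
  rw [htop, finrank_top] at h1
  have h3 : ({v, w} : Finset (Fin 4 → F)).card ≤ 2 := Finset.card_le_two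
  have h4 : finrank F (Fin 4 → F) = 4 := by simp
  omega

/-- A matrix whose square satisfies a quadratic without roots, on the whole space. -/
theorem exists_block_all (X : Matrix (Fin 4) (Fin 4) F) {a b : F} (hq : ∀ c : F, c * c + a * c + b ≠ 0)
    (hX : X * X + a • X + b • 1 = 0) : ∃ G : GL (Fin 4) F, X * (G : Matrix (Fin 4) (Fin 4) F) = (G : Matrix (Fin 4) (Fin 4) F) * blockM a b := by
  classical
  have hv : ∀ v : Fin 4 → F, X *ᵥ (X *ᵥ v) + a • (X *ᵥ v) + b • v = 0 := by
    intro v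
    have := congrArg (fun M => M *ᵥ v) hX
    simpa [Matrix.add_mulVec, Matrix.smul_mulVec, Matrix.mulVec_mulVec] using this
  have hne : ∃ v₁ : Fin 4 → F, v₁ ≠ 0 := ⟨fun _ => 1, fun h => by simpa using congrFun h 0⟩
  obtain ⟨v₁, hv₁0⟩ := hne
  obtain ⟨v₂, hv₂⟩ := exists_outside (v := v₁) (w := X *ᵥ v₁)
  have hli := indep_two (Matrix.toLin' X) hq hv₁0 (hv v₁) (hv v₂) hv₂
  let B : Basis (Fin 4) F (Fin 4 → F) := basisOfLinearIndependentOfCardEqFinrank hli (by simp)
  have hb : ∀ i, B i = (![v₁, Matrix.toLin' X v₁, v₂, Matrix.toLin' X v₂] : Fin 4 → Fin 4 → F) i := fun i => by simp [B]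
  refine ⟨basisGL B, ?_⟩
  apply mat_of_vec B X (blockM a b)
  intro j
  rw [Fin.sum_univ_four, hb 0, hb 1, hb 2, hb 3, hb j]
  have e₁ : X *ᵥ (X *ᵥ v₁) = -(a • (X *ᵥ v₁)) - b • v₁ := by
    linear_combination (norm := module) hv v₁
  have e₂ : X *ᵥ (X *ᵥ v₂) = -(a • (X *ᵥ v₂)) - b • v₂ := by
    linear_combination (norm := module) hv v₂
  fin_cases j <;> simp [blockM, e₁, e₂]
  · module
  · module

/-- Cube roots of one without a primitive root in the field: the normal forms. -/
theorem cube_type (X : Matrix (Fin 4) (Fin 4) F) (h3 : (3 : F) ≠ 0) (hq : ∀ c : F, c * c + 1 * c + 1 ≠ 0)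
    (hX : X * X * X = 1) :
    X = 1 ∨ (∃ G : GL (Fin 4) F, X * (G : Matrix (Fin 4) (Fin 4) F) = (G : Matrix (Fin 4) (Fin 4) F) * blockE (1 : F) 1) ∨
      (∃ G : GL (Fin 4) F, X * (G : Matrix (Fin 4) (Fin 4) F) = (G : Matrix (Fin 4) (Fin 4) F) * blockM (1 : F) 1) := by
  classical
  have hvv : ∀ v : Fin 4 → F, X *ᵥ (X *ᵥ (X *ᵥ v)) = v := by
    intro v
    rw [Matrix.mulVec_mulVec, Matrix.mulVec_mulVec, hX, Matrix.one_mulVec]
  by_cases h1 : ∀ v : Fin 4 → F, X *ᵥ v = v
  · left
    apply Matrix.toLin'.injective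
    apply LinearMap.ext
    intro v
    simpa using h1 v
  push Not at h1
  obtain ⟨v, hv⟩ := h1
  right
  set v₁ := X *ᵥ v - v with hv₁
  have hv₁0 : v₁ ≠ 0 := sub_ne_zero.mpr hv
  have hK : ∀ w : Fin 4 → F, X *ᵥ (X *ᵥ (X *ᵥ w - w)) + (1 : F) • (X *ᵥ (X *ᵥ w - w)) + (1 : F) • (X *ᵥ w - w) = 0 := by
    intro w
    simp only [Matrix.mulVec_sub, hvv, one_smul]
    abel
  by_cases h2 : ∃ v₂ : Fin 4 → F, X *ᵥ (X *ᵥ v₂) + (1 : F) • (X *ᵥ v₂) + (1 : F) • v₂ = 0 ∧ ∀ α β : F, v₂ ≠ α • v₁ + β • (X *ᵥ v₁)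
  · right
    obtain ⟨v₂, hv₂, hU⟩ := h2
    have hli := indep_two (Matrix.toLin' X) hq hv₁0 (hK v) hv₂ hU
    let B : Basis (Fin 4) F (Fin 4 → F) := basisOfLinearIndependentOfCardEqFinrank hli (by simp)
    have hb : ∀ i, B i = (![v₁, Matrix.toLin' X v₁, v₂, Matrix.toLin' X v₂] : Fin 4 → Fin 4 → F) i := fun i => by simp [B]
    refine ⟨basisGL B, ?_⟩
    apply mat_of_vec B X (blockM 1 1)
    intro j
    rw [Fin.sum_univ_four, hb 0, hb 1, hb 2, hb 3, hb j]
    have e₁ : X *ᵥ (X *ᵥ v₁) = -(X *ᵥ v₁) - v₁ := by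
      have := hK v
      rw [← hv₁] at this
      linear_combination (norm := module) this
    have e₂ : X *ᵥ (X *ᵥ v₂) = -(X *ᵥ v₂) - v₂ := by
      linear_combination (norm := module) hv₂
    fin_cases j <;> simp [blockM, e₁, e₂]
    · module
    · module
  · left
    push Not at h2
    -- the image of `X - 1` lies in the span of `v₁, X v₁`
    let f : (Fin 4 → F) →ₗ[F] (Fin 4 → F) := Matrix.toLin' X - LinearMap.id
    have hfr : LinearMap.range f ≤ Submodule.span F ({v₁, X *ᵥ v₁} : Set (Fin 4 → F)) := by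
      rintro _ ⟨w, rfl⟩
      obtain ⟨α, β, h⟩ := h2 (X *ᵥ w - w) (hK w)
      exact Submodule.mem_span_pair.mpr ⟨α, β, by
        have e : f w = X *ᵥ w - w := by simp [f]
        rw [e, h]⟩
    have hrank : finrank F (LinearMap.range f) ≤ 2 := by
      refine (Submodule.finrank_mono hfr).trans ?_
      have h1 := finrank_span_finset_le_card (R := F) ({v₁, X *ᵥ v₁} : Finset (Fin 4 → F))
      have h2' : (({v₁, X *ᵥ v₁} : Finset (Fin 4 → F)) : Set (Fin 4 → F)) = {v₁, X *ᵥ v₁} := by simp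
      rw [h2'] at h1
      exact h1.trans Finset.card_le_two
    have hker := LinearMap.finrank_range_add_finrank_ker f
    have h4 : finrank F (Fin 4 → F) = 4 := by simp
    rw [h4] at hker
    have hker2 : 1 < finrank F (LinearMap.ker f) := by omega
    have hmemker : ∀ w, w ∈ LinearMap.ker f ↔ X *ᵥ w = w := by
      intro w
      rw [LinearMap.mem_ker]
      have e : f w = X *ᵥ w - w := by simp [f]
      rw [e, sub_eq_zero]
    obtain ⟨e₀, he₀⟩ : ∃ e₀ : LinearMap.ker f, e₀ ≠ 0 := by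
      have : Nontrivial (LinearMap.ker f) := Module.nontrivial_of_finrank_pos (R := F) (by omega)
      exact exists_ne 0
    obtain ⟨e₁, he₁⟩ := exists_linearIndependent_pair_of_one_lt_finrank hker2 he₀
    have he₀X := (hmemker e₀.1).mp e₀.2
    have he₁X := (hmemker e₁.1).mp e₁.2
    have hli : LinearIndependent F ![v₁, Matrix.toLin' X v₁, e₀.1, e₁.1] := by
      rw [Fintype.linearIndependent_iff]
      intro c hc
      rw [Fin.sum_univ_four] at hc
      change c 0 • v₁ + c 1 • (X *ᵥ v₁) + c 2 • e₀.1 + c 3 • e₁.1 = 0 at hc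
      set u := c 0 • v₁ + c 1 • (X *ᵥ v₁) with hu
      have hKu : X *ᵥ (X *ᵥ u) + X *ᵥ u + u = 0 := by
        have e₁' := hK v
        rw [← hv₁] at e₁'
        have e₂' : X *ᵥ (X *ᵥ (X *ᵥ v₁)) = v₁ := hvv v₁
        rw [hu]
        simp only [Matrix.mulVec_add, Matrix.mulVec_smul, e₂']
        have e₃ : X *ᵥ (X *ᵥ v₁) = -(X *ᵥ v₁) - v₁ := by
          linear_combination (norm := module) e₁'
        rw [e₃]
        module
      have hXu : X *ᵥ u = u := by
        have e : u = -(c 2 • e₀.1 + c 3 • e₁.1) := by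
          linear_combination (norm := module) hc
        rw [e, Matrix.mulVec_neg, Matrix.mulVec_add, Matrix.mulVec_smul, Matrix.mulVec_smul, he₀X, he₁X]
      rw [hXu, hXu] at hKu
      have hu0 : u = 0 := by
        have h5 : (3 : F) • u = 0 := by
          linear_combination (norm := module) hKu
        exact (smul_eq_zero.mp h5).resolve_left h3
      obtain ⟨h0, h1⟩ := pair_zero (Matrix.toLin' X) hq hv₁0 (hK v) (c := c 0) (d := c 1) hu0
      rw [hu0, zero_add] at hc
      have he : c 2 • (e₀ : Fin 4 → F) + c 3 • (e₁ : Fin 4 → F) = 0 := hc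
      have he' : c 2 • e₀ + c 3 • e₁ = 0 := Subtype.ext he
      have := LinearIndependent.pair_iff.mp he₁ (c 2) (c 3) he'
      intro i
      fin_cases i
      · exact h0
      · exact h1
      · exact this.1
      · exact this.2
    let B : Basis (Fin 4) F (Fin 4 → F) := basisOfLinearIndependentOfCardEqFinrank hli (by simp)
    have hb : ∀ i, B i = (![v₁, Matrix.toLin' X v₁, e₀.1, e₁.1] : Fin 4 → Fin 4 → F) i := fun i => by simp [B]
    refine ⟨basisGL B, ?_⟩
    apply mat_of_vec B X (blockE 1 1)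
    intro j
    rw [Fin.sum_univ_four, hb 0, hb 1, hb 2, hb 3, hb j]
    have e₁' : X *ᵥ (X *ᵥ v₁) = -(X *ᵥ v₁) - v₁ := by
      have := hK v
      rw [← hv₁] at this
      linear_combination (norm := module) this
    fin_cases j <;> simp [blockE, e₁', he₀X, he₁X]
    · module

/-- The companion matrix of the fifth cyclotomic polynomial. -/
def compFive (F : Type*) [Field F] : Matrix (Fin 4) (Fin 4) F := !![0, 0, 0, -1; 1, 0, 0, -1; 0, 1, 0, -1; 0, 0, 1, -1]

/-- Fifth roots of one when the fifth cyclotomic polynomial is irreducible. -/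
theorem five_type (X : Matrix (Fin 4) (Fin 4) F) (hirr : Irreducible (Polynomial.X ^ 4 + Polynomial.X ^ 3 + Polynomial.X ^ 2 + Polynomial.X + 1 : F[X]))
    (hX : X * X * X * X * X = 1) (hne : X ≠ 1) :
    ∃ G : GL (Fin 4) F, X * (G : Matrix (Fin 4) (Fin 4) F) = (G : Matrix (Fin 4) (Fin 4) F) * compFive F := by
  classical
  obtain ⟨v, hv⟩ : ∃ v : Fin 4 → F, X *ᵥ v ≠ v := by
    by_contra h1
    push Not at h1
    apply hne
    apply Matrix.toLin'.injective
    apply LinearMap.ext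
    intro v
    simpa using h1 v
  set w := X *ᵥ v - v with hw
  have hw0 : w ≠ 0 := sub_ne_zero.mpr hv
  set Φ : F[X] := Polynomial.X ^ 4 + Polynomial.X ^ 3 + Polynomial.X ^ 2 + Polynomial.X + 1 with hΦ
  have hpow : ∀ n : ℕ, (X ^ n) *ᵥ w = (Polynomial.aeval X ((Polynomial.X : F[X]) ^ n)) *ᵥ w := by
    intro n
    simp
  have hΦw : (Polynomial.aeval X Φ) *ᵥ w = 0 := by
    have e : Polynomial.aeval X Φ * (X - 1) = 0 := by
      have : X ^ 5 = 1 := by
        rw [pow_succ, pow_succ, pow_succ, pow_succ, pow_one]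
        exact hX
      simp only [hΦ, map_add, map_pow, Polynomial.aeval_X, map_one]
      rw [← sub_eq_zero.mpr this]
      noncomm_ring
    have e' : w = (X - 1) *ᵥ v := by
      rw [hw, Matrix.sub_mulVec, Matrix.one_mulVec]
    rw [e', Matrix.mulVec_mulVec, e, Matrix.zero_mulVec]
  have hdeg : Φ.natDegree = 4 := by
    rw [hΦ]
    compute_degree!
  have hli : LinearIndependent F ![w, Matrix.toLin' X w, Matrix.toLin' X (Matrix.toLin' X w), Matrix.toLin' X (Matrix.toLin' X (Matrix.toLin' X w))] := by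
    rw [Fintype.linearIndependent_iff]
    intro c hc
    rw [Fin.sum_univ_four] at hc
    change c 0 • w + c 1 • (X *ᵥ w) + c 2 • (X *ᵥ (X *ᵥ w)) + c 3 • (X *ᵥ (X *ᵥ (X *ᵥ w))) = 0 at hc
    set g : F[X] := Polynomial.C (c 0) + Polynomial.C (c 1) * Polynomial.X + Polynomial.C (c 2) * Polynomial.X ^ 2 + Polynomial.C (c 3) * Polynomial.X ^ 3 with hg
    have hgw : (Polynomial.aeval X g) *ᵥ w = 0 := by
      rw [← hc, hg]
      simp only [map_add, map_mul, Polynomial.aeval_C, map_pow, Polynomial.aeval_X, Matrix.add_mulVec]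
      simp only [Algebra.algebraMap_eq_smul_one, Matrix.smul_mul, Matrix.one_mul, Matrix.smul_mulVec, Matrix.one_mulVec]
      congr 2
      · rw [pow_two, ← Matrix.mulVec_mulVec]
      · rw [pow_succ, pow_two, ← Matrix.mulVec_mulVec, ← Matrix.mulVec_mulVec]
    have hg0 : g = 0 := by
      by_contra hne0
      have hnd : ¬ Φ ∣ g := by
        intro hd
        have hle := Polynomial.natDegree_le_of_dvd hd hne0
        rw [hdeg] at hle
        have : g.natDegree ≤ 3 := by
          rw [hg]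
          compute_degree
        omega
      have hcop : IsCoprime Φ g := (Irreducible.coprime_iff_not_dvd hirr).mpr hnd
      obtain ⟨p, q, hpq⟩ := hcop
      have h1 := congrArg (fun P => (Polynomial.aeval X P) *ᵥ w) hpq
      simp only [map_add, map_mul, Matrix.add_mulVec, map_one, Matrix.one_mulVec] at h1
      rw [← Matrix.mulVec_mulVec, ← Matrix.mulVec_mulVec, hΦw, hgw, Matrix.mulVec_zero, Matrix.mulVec_zero, add_zero] at h1
      exact hw0 h1.symm
    have hcoef : ∀ j : Fin 4, g.coeff j = c j := by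
      intro j
      rw [hg]
      fin_cases j <;> simp [Polynomial.coeff_C, Polynomial.coeff_X, Polynomial.coeff_X_pow, Polynomial.coeff_C_mul]
    intro i
    rw [← hcoef i, hg0]
    simp
  let B : Basis (Fin 4) F (Fin 4 → F) := basisOfLinearIndependentOfCardEqFinrank hli (by simp)
  have hb : ∀ i, B i = (![w, Matrix.toLin' X w, Matrix.toLin' X (Matrix.toLin' X w), Matrix.toLin' X (Matrix.toLin' X (Matrix.toLin' X w))] : Fin 4 → Fin 4 → F) i := fun i => by simp [B]
  refine ⟨basisGL B, ?_⟩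
  apply mat_of_vec B X (compFive F)
  intro j
  rw [Fin.sum_univ_four, hb 0, hb 1, hb 2, hb 3, hb j]
  have e₁ : X *ᵥ (X *ᵥ (X *ᵥ (X *ᵥ w))) = -(X *ᵥ (X *ᵥ (X *ᵥ w))) - (X *ᵥ (X *ᵥ w)) - (X *ᵥ w) - w := by
    have h2 := hΦw
    simp only [hΦ, map_add, map_pow, Polynomial.aeval_X, map_one, Matrix.add_mulVec, Matrix.one_mulVec] at h2
    have e4 : X ^ 4 *ᵥ w = X *ᵥ (X *ᵥ (X *ᵥ (X *ᵥ w))) := by
      simp only [pow_succ, pow_zero, Matrix.one_mul, Matrix.mulVec_mulVec, Matrix.mul_assoc]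
    have e3 : X ^ 3 *ᵥ w = X *ᵥ (X *ᵥ (X *ᵥ w)) := by
      simp only [pow_succ, pow_zero, Matrix.one_mul, Matrix.mulVec_mulVec, Matrix.mul_assoc]
    have e2 : X ^ 2 *ᵥ w = X *ᵥ (X *ᵥ w) := by
      simp only [pow_succ, pow_zero, Matrix.one_mul, Matrix.mulVec_mulVec, Matrix.mul_assoc]
    rw [e4, e3, e2] at h2
    linear_combination (norm := module) h2
  have e₁' := e₁
  simp only [Matrix.mulVec_mulVec, Matrix.mul_assoc] at e₁'
  fin_cases j <;> simp [compFive]
  · rw [e₁']
    module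

end Mat

end Cfsg.Agent.Lib.TwoSix
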