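import Cfsg.Agent.Lib.TwoSix.UThree

/-!
# Elements of order three and five modulo scalars in the unitary group
-/

set_option autoImplicit false

open scoped MatrixGroups Matrix Polynomial
open Cfsg Module
open Cfsg.Agent.Lib.Classical.Herm.Basic Cfsg.Agent.Lib.Classical.Herm.Form
open Cfsg.Agent.Lib.Classical.Herm.GU Cfsg.Agent.Lib.Classical.Herm.SU
open Cfsg.Agent.S5998 (mat_of_vec basisGL sum_diagonal)

namespace Cfsg.Agent.Lib.TwoSix

variable {F : Type*} [Field F] [Fintype F] {p : ℕ}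

namespace Pauli

variable {R : Subgroup (GL (Fin 4) F)} {i : F} {ι u v g h P : GL (Fin 4) F}

theorem conj_three_U [Fact p.Prime] [CharP F p] (hFr : Pauli R i ι u v g h P) (hPU : P ∈ Cfsg.GU 4 F p)
    (hF : Fintype.card F = p ^ 2) (hp4 : p % 4 = 3) (hp3 : p % 3 = 1) (h2 : (2 : F) ≠ 0) (x : GL (Fin 4) F) (hxU : x ∈ Cfsg.GU 4 F p)
    {s : F} (hs : ((x ^ 3 : GL (Fin 4) F) : Matrix (Fin 4) (Fin 4) F) = s • 1)
    (hns : ∀ c : F, (x : Matrix (Fin 4) (Fin 4) F) ≠ c • 1) :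
    ∃ g ∈ Cfsg.GU 4 F p ⊓ Cfsg.Geo.specialLinear (Fin 4) F, g⁻¹ * x * g ∈ Cfsg.Geo.subgroupNormalizer R := by
  classical
  have hp : p.Prime := Fact.out
  have hi := hFr.hi
  have hpne : p ≠ 3 := by
    rintro rfl
    omega
  have h3 : (3 : F) ≠ 0 := by
    intro h
    have h1 : ((3 : ℕ) : F) = 0 := by exact_mod_cast h
    rw [CharP.cast_eq_zero_iff F p] at h1
    exact hpne ((Nat.prime_dvd_prime_iff_eq hp Nat.prime_three).mp h1)
  have hc3 : Nat.Coprime 3 p := by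
    rw [Nat.coprime_comm, hp.coprime_iff_not_dvd]
    intro h1
    exact hpne ((Nat.prime_dvd_prime_iff_eq hp Nat.prime_three).mp h1)
  have hsn : s ^ (p + 1) = 1 := by
    have h1 : x ^ 3 ∈ Cfsg.GU 4 F p := Subgroup.pow_mem _ hxU 3
    exact norm_of_scalar hF h1 hs
  obtain ⟨k, hk⟩ : ∃ k, p + 2 = 3 * k := ⟨(p + 2) / 3, by omega⟩
  set w := s ^ k with hw
  have hw3 : w * w * w = s := by
    have e : w * w * w = s ^ (3 * k) := by
      rw [hw, ← pow_add, ← pow_add]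
      congr 1
      ring
    rw [e, ← hk, show p + 2 = (p + 1) + 1 by ring, pow_succ, hsn, one_mul]
  have hwn : w ^ (p + 1) = 1 := by
    rw [hw, ← pow_mul, mul_comm, pow_mul, hsn, one_pow]
  have hw0 : w ≠ 0 := by
    rintro h0
    rw [h0, zero_pow (by omega)] at hwn
    exact zero_ne_one hwn
  -- the cube root of one
  obtain ⟨ω, hω⟩ : ∃ ω : F, ω * ω + ω + 1 = 0 := by
    haveI : Fact (Nat.Prime 3) := ⟨Nat.prime_three⟩
    have hd : 3 ∣ Fintype.card Fˣ := by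
      rw [Fintype.card_units, hF]
      obtain ⟨m, hm⟩ : ∃ m, p = 3 * m + 1 := ⟨p / 3, by omega⟩
      refine ⟨m * (3 * m + 2), ?_⟩
      rw [hm]
      have : (3 * m + 1) ^ 2 = 3 * (m * (3 * m + 2)) + 1 := by ring
      omega
    obtain ⟨ζ, hζ⟩ := exists_prime_orderOf_dvd_card 3 hd
    refine ⟨ζ, ?_⟩
    have h1 : (ζ : F) ^ 3 = 1 := by
      have := congrArg Units.val (hζ ▸ pow_orderOf_eq_one ζ)
      simpa using this
    have h4 : (ζ : F) ≠ 1 := by
      intro h5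
      have : ζ = 1 := Units.ext h5
      rw [this, orderOf_one] at hζ
      norm_num at hζ
    have h5 : ((ζ : F) - 1) * ((ζ : F) * ζ + ζ + 1) = 0 := by linear_combination h1
    exact (mul_eq_zero.mp h5).resolve_left (sub_ne_zero.mpr h4)
  have hω3 : ω ^ 3 = 1 := by linear_combination (ω - 1) * hω
  have hωp : ω ^ p = ω := by
    obtain ⟨m, hm⟩ : ∃ m, p = 3 * m + 1 := ⟨p / 3, by omega⟩
    rw [hm, pow_succ, pow_mul, hω3, one_pow, one_mul]
  set X := (x : Matrix (Fin 4) (Fin 4) F) with hX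
  have hX3 : X * X * X = s • 1 := by
    rw [← hs, pow_succ, pow_two]
    rfl
  obtain ⟨s₁, hs₁⟩ := exists_scalar_GL (inv_ne_zero hw0)
  have hs₁U : s₁ ∈ Cfsg.GU 4 F p := by
    change Preserves p (s₁ : Matrix (Fin 4) (Fin 4) F)
    rw [hs₁]
    apply scalar_preserves4
    rw [inv_pow, hwn, inv_one]
  let x' : GL (Fin 4) F := s₁ * x
  have hx'U : x' ∈ Cfsg.GU 4 F p := Subgroup.mul_mem _ hs₁U hxU
  have hx'v : (x' : Matrix (Fin 4) (Fin 4) F) = w⁻¹ • X := by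
    change ((s₁ * x : GL (Fin 4) F) : Matrix (Fin 4) (Fin 4) F) = _
    rw [Units.val_mul, hs₁, Matrix.smul_mul, Matrix.one_mul]
  have hX'3 : (w⁻¹ • X) * (w⁻¹ • X) * (w⁻¹ • X) = 1 := by
    simp only [Matrix.smul_mul, Matrix.mul_smul, smul_smul]
    rw [hX3, smul_smul, ← hw3]
    have e : w⁻¹ * (w⁻¹ * w⁻¹) * (w * w * w) = 1 := by
      field_simp
    rw [e, one_smul]
  have hx'3 : x' ^ 3 = 1 := by
    apply Units.ext
    rw [Units.val_pow_eq_pow_val, hx'v, Units.val_one, pow_succ, pow_two]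
    exact hX'3
  have hord := ord_of_scalar hF x hc3 hs
  have hdiag : ∀ {d : Fin 4 → F} {T₀ : GL (Fin 4) F} {bb bb₀ : Basis (Fin 4) F (Fin 4 → F)},
      (∀ j, (x' : Matrix (Fin 4) (Fin 4) F) *ᵥ bb j = d j • bb j) → (∀ j, (T₀ : Matrix (Fin 4) (Fin 4) F) *ᵥ bb₀ j = d j • bb₀ j) →
      ∃ G : GL (Fin 4) F, (w⁻¹ • X) * (G : Matrix (Fin 4) (Fin 4) F) = (G : Matrix (Fin 4) (Fin 4) F) * (T₀ : Matrix (Fin 4) (Fin 4) F) := by
    intro d T₀ bb bb₀ h1 h2'
    rw [hx'v] at h1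
    obtain ⟨G, _, hG⟩ := exists_conj_of_diag4 bb d h1 (basisGL bb₀) (diag_relation _ bb₀ d h2')
    exact ⟨G, hG.symm⟩
  rcases cube_unit_type hF h2 h3 hω hωp x' hx'U hx'3 with h1 | ⟨bb, hbb⟩ | ⟨bb, hbb⟩
  · exfalso
    apply hns w
    rw [hx'v] at h1
    rw [← smul_right_inj (inv_ne_zero hw0), h1, smul_smul, inv_mul_cancel₀ hw0, one_smul]
  · -- the type `(1, 1, ω, ω²)`
    obtain ⟨T₀, hT₀⟩ := exists_GL_of_cube (Tb_cube hi h2)
    have hT₀U : T₀ ∈ Cfsg.GU 4 F p := by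
      change Preserves p (T₀ : Matrix (Fin 4) (Fin 4) F)
      rw [hT₀]
      exact Tb_preserves hF hp4 hi h2
    have hT₀3 : T₀ ^ 3 = 1 := by
      apply Units.ext
      rw [Units.val_pow_eq_pow_val, hT₀, Units.val_one, pow_succ, pow_two]
      exact Tb_cube hi h2
    have htr : Matrix.trace (T₀ : Matrix (Fin 4) (Fin 4) F) = 1 := by
      rw [hT₀]
      exact Tb_trace hi h2
    rcases cube_unit_type hF h2 h3 hω hωp T₀ hT₀U hT₀3 with h5 | ⟨bb₀, hbb₀⟩ | ⟨bb₀, hbb₀⟩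
    · exfalso
      rw [h5] at htr
      simp only [Matrix.trace_one, Fintype.card_fin] at htr
      apply h3
      push_cast at htr
      linear_combination htr
    · obtain ⟨G, hG⟩ := hdiag hbb hbb₀
      exact hFr.conj_model_U hPU hF T₀ x G hwn hT₀U (hFr.norm_b T₀ (c := i * 2⁻¹) hT₀) hxU hG hord
    · exfalso
      have h5 := trace_of_eigenbasis4 _ bb₀ _ hbb₀
      rw [htr] at h5
      simp at h5
      apply h3
      linear_combination h5 + 2 * hω
  · -- the type `(ω, ω, ω², ω²)`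
    obtain ⟨T₀, hT₀⟩ := exists_GL_of_cube (Ta_cube hi h2)
    have hT₀U : T₀ ∈ Cfsg.GU 4 F p := by
      change Preserves p (T₀ : Matrix (Fin 4) (Fin 4) F)
      rw [hT₀]
      exact Ta_preserves hF hp4 hi h2
    have hT₀3 : T₀ ^ 3 = 1 := by
      apply Units.ext
      rw [Units.val_pow_eq_pow_val, hT₀, Units.val_one, pow_succ, pow_two]
      exact Ta_cube hi h2
    have htr : Matrix.trace (T₀ : Matrix (Fin 4) (Fin 4) F) = -2 := by
      rw [hT₀]
      exact Ta_trace hi h2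
    rcases cube_unit_type hF h2 h3 hω hωp T₀ hT₀U hT₀3 with h5 | ⟨bb₀, hbb₀⟩ | ⟨bb₀, hbb₀⟩
    · exfalso
      rw [h5] at htr
      simp only [Matrix.trace_one, Fintype.card_fin] at htr
      apply mul_ne_zero h2 h3
      push_cast at htr
      linear_combination htr
    · exfalso
      have h5 := trace_of_eigenbasis4 _ bb₀ _ hbb₀
      rw [htr] at h5
      simp at h5
      apply h3
      linear_combination -h5 - hω
    · obtain ⟨G, hG⟩ := hdiag hbb hbb₀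
      exact hFr.conj_model_U hPU hF T₀ x G hwn hT₀U (hFr.norm_a T₀ (c := -(2⁻¹ * (1 + i))) hT₀) hxU hG hord

end Pauli

section FiveType

/-- Two quadratic blocks. -/
def blockQ (t t' : F) : Matrix (Fin 4) (Fin 4) F := !![0, -1, 0, 0; 1, t, 0, 0; 0, 0, 0, -1; 0, 0, 1, t']

/-- The partner eigenspace is nonzero. -/
theorem partner (hF : Fintype.card F = p ^ 2) (hodd : Odd p) (X : Matrix (Fin 4) (Fin 4) F) (hXP : Preserves p X)
    (hX5 : X * X * X * X * X = 1) {t t' : F} (htp : t' ^ p = t) {v₁ : Fin 4 → F} (hv0 : v₁ ≠ 0)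
    (hv₁ : X *ᵥ (X *ᵥ v₁) - t • (X *ᵥ v₁) + v₁ = 0) :
    ∃ v₂ : Fin 4 → F, v₂ ≠ 0 ∧ X *ᵥ (X *ᵥ v₂) - t' • (X *ᵥ v₂) + v₂ = 0 := by
  classical
  by_contra hno
  push Not at hno
  let L : (Fin 4 → F) →ₗ[F] (Fin 4 → F) := Matrix.toLin' (X * X - t' • X + 1)
  have hL : ∀ u, L u = X *ᵥ (X *ᵥ u) - t' • (X *ᵥ u) + u := by
    intro u
    change (X * X - t' • X + 1) *ᵥ u = _
    rw [Matrix.add_mulVec, Matrix.sub_mulVec, Matrix.smul_mulVec, Matrix.one_mulVec, Matrix.mulVec_mulVec]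
  have hinj : Function.Injective L := by
    rw [← LinearMap.ker_eq_bot, LinearMap.ker_eq_bot']
    intro u hu
    by_contra hu0
    exact hno u hu0 (by rw [← hL]; exact hu)
  have hsurj : Function.Surjective L := LinearMap.injective_iff_surjective.mp hinj
  -- the auxiliary vector
  set v₀ := X *ᵥ (X *ᵥ (X *ᵥ v₁)) with hv₀
  have hX2 : X *ᵥ (X *ᵥ v₀) = v₁ := by
    rw [hv₀]
    simp only [Matrix.mulVec_mulVec]
    have e : X * (X * (X * (X * X))) = 1 := by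
      rw [← hX5]
      simp only [Matrix.mul_assoc]
    rw [e, Matrix.one_mulVec]
  have hA : X *ᵥ (X *ᵥ v₀) - t • (X *ᵥ v₀) + v₀ = 0 := by
    have h1 := congrArg (fun y => X *ᵥ (X *ᵥ (X *ᵥ y))) hv₁
    simp only [Matrix.mulVec_add, Matrix.mulVec_sub, Matrix.mulVec_smul, Matrix.mulVec_zero] at h1
    rw [hX2, hv₀]
    have e : X *ᵥ (X *ᵥ (X *ᵥ (X *ᵥ (X *ᵥ v₁)))) = v₁ := by
      simp only [Matrix.mulVec_mulVec]
      have e : X * (X * (X * (X * X))) = 1 := by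
        rw [← hX5]
        simp only [Matrix.mul_assoc]
      rw [e, Matrix.one_mulVec]
    rw [e] at h1
    have e₂ : X *ᵥ (X *ᵥ (X *ᵥ (X *ᵥ v₁))) = X *ᵥ v₀ := by rw [hv₀]
    rw [e₂] at h1
    linear_combination h1
  apply hv0
  apply hermForm_nondegenerate_left hF 4
  intro y
  obtain ⟨z, rfl⟩ := hsurj y
  rw [hL]
  have h1 : hermForm 4 F p v₁ (X *ᵥ (X *ᵥ z)) = hermForm 4 F p v₀ z := by
    rw [← hX2, hXP, hXP]
  have h3 : hermForm 4 F p v₁ (X *ᵥ z) = hermForm 4 F p (X *ᵥ v₀) z := by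
    rw [← hX2, hXP]
  have h4 : hermForm 4 F p v₁ z = hermForm 4 F p (X *ᵥ (X *ᵥ v₀)) z := by
    rw [hX2]
  have e : X *ᵥ (X *ᵥ z) - t' • (X *ᵥ z) + z = X *ᵥ (X *ᵥ z) + (-t') • (X *ᵥ z) + z := by
    rw [neg_smul, sub_eq_add_neg]
  have hnp : (-t') ^ p = -t := by
    rw [hodd.neg_pow, htp]
  rw [e, hermForm_add_right hF, hermForm_add_right hF, hermForm_smul_right, hnp, h1, h3, h4]
  have h5 := congrArg (fun y => hermForm 4 F p y z) hA
  simp only [hermForm_zero_left] at h5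
  have e₃ : X *ᵥ (X *ᵥ v₀) - t • (X *ᵥ v₀) + v₀ = X *ᵥ (X *ᵥ v₀) + (-t) • (X *ᵥ v₀) + v₀ := by
    rw [neg_smul, sub_eq_add_neg]
  rw [e₃, hermForm_add_left, hermForm_add_left, hermForm_smul_left] at h5
  linear_combination h5

theorem stable_pair (X : Matrix (Fin 4) (Fin 4) F) {a : F} {v : Fin 4 → F} (hv : X *ᵥ (X *ᵥ v) - a • (X *ᵥ v) + v = 0) (c d : F) :
    X *ᵥ (X *ᵥ (c • v + d • (X *ᵥ v))) = a • (X *ᵥ (c • v + d • (X *ᵥ v))) - (c • v + d • (X *ᵥ v)) := by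
  have e : X *ᵥ (X *ᵥ v) = a • (X *ᵥ v) - v := by
    linear_combination (norm := module) hv
  simp only [Matrix.mulVec_add, Matrix.mulVec_smul, Matrix.mulVec_sub, e]
  module

/-- Unitary fifth roots of one over the field with `p ^ 2` elements, `p` of order four modulo five. -/
theorem five_type_U (hF : Fintype.card F = p ^ 2) (hodd : Odd p) (X : Matrix (Fin 4) (Fin 4) F) (hXP : Preserves p X)
    (hX5 : X * X * X * X * X = 1) (hne : X ≠ 1) {t t' : F} (htt : t + t' = -1) (hmul : t * t' = -1)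
    (htp : t ^ p = t') (htp' : t' ^ p = t) (hne' : t ≠ t')
    (hq₁ : ∀ c : F, c * c + (-t) * c + 1 ≠ 0) (hq₂ : ∀ c : F, c * c + (-t') * c + 1 ≠ 0) :
    ∃ G : GL (Fin 4) F, X * (G : Matrix (Fin 4) (Fin 4) F) = (G : Matrix (Fin 4) (Fin 4) F) * blockQ t t' := by
  classical
  have hX5v : ∀ u : Fin 4 → F, X *ᵥ (X *ᵥ (X *ᵥ (X *ᵥ (X *ᵥ u)))) = u := by
    intro u
    simp only [Matrix.mulVec_mulVec]
    have e : X * (X * (X * (X * X))) = 1 := by
      rw [← hX5]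
      simp only [Matrix.mul_assoc]
    rw [e, Matrix.one_mulVec]
  -- an eigenvector exists
  obtain ⟨v, hv⟩ : ∃ v : Fin 4 → F, X *ᵥ v ≠ v := by
    by_contra h1
    push Not at h1
    apply hne
    apply Matrix.toLin'.injective
    apply LinearMap.ext
    intro v
    simpa using h1 v
  set w := X *ᵥ v - v with hw
  have hw0 : w ≠ 0 := sub_ne_zero.mpr hv
  set w₂ := X *ᵥ (X *ᵥ w) - t' • (X *ᵥ w) + w with hw₂
  have hΦ : X *ᵥ (X *ᵥ w₂) - t • (X *ᵥ w₂) + w₂ = 0 := by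
    have e : X *ᵥ (X *ᵥ w₂) - t • (X *ᵥ w₂) + w₂ =
        X *ᵥ (X *ᵥ (X *ᵥ (X *ᵥ w))) + X *ᵥ (X *ᵥ (X *ᵥ w)) + X *ᵥ (X *ᵥ w) + X *ᵥ w + w +
        (-(t + t') - 1) • (X *ᵥ (X *ᵥ (X *ᵥ w))) + (t * t' + 1) • (X *ᵥ (X *ᵥ w)) + (-(t + t') - 1) • (X *ᵥ w) := by
      simp only [hw₂, Matrix.mulVec_add, Matrix.mulVec_sub, Matrix.mulVec_smul]
      module
    rw [e, htt, hmul]
    have e₂ : X *ᵥ (X *ᵥ (X *ᵥ (X *ᵥ w))) + X *ᵥ (X *ᵥ (X *ᵥ w)) + X *ᵥ (X *ᵥ w) + X *ᵥ w + w = 0 := by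
      rw [hw]
      simp only [Matrix.mulVec_sub, hX5v]
      abel
    rw [e₂]
    simp
  obtain ⟨v₁, hv₁0, hv₁, v₂, hv₂0, hv₂⟩ : ∃ v₁ : Fin 4 → F, v₁ ≠ 0 ∧ X *ᵥ (X *ᵥ v₁) - t • (X *ᵥ v₁) + v₁ = 0 ∧
      ∃ v₂ : Fin 4 → F, v₂ ≠ 0 ∧ X *ᵥ (X *ᵥ v₂) - t' • (X *ᵥ v₂) + v₂ = 0 := by
    by_cases hw₂0 : w₂ = 0
    · obtain ⟨v₁, h1, h3⟩ := partner hF hodd X hXP hX5 htp hw0 hw₂0
      exact ⟨v₁, h1, h3, w, hw0, hw₂0⟩
    · obtain ⟨v₂, h1, h3⟩ := partner hF hodd X hXP hX5 htp' hw₂0 hΦ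
      exact ⟨w₂, hw₂0, hΦ, v₂, h1, h3⟩
  let M := Matrix.toLin' X
  have hM : ∀ u, M u = X *ᵥ u := fun u => rfl
  have hp₁ : M (M v₁) + (-t) • M v₁ + (1 : F) • v₁ = 0 := by
    rw [hM, hM, neg_smul, one_smul, ← sub_eq_add_neg]
    exact hv₁
  have hp₂ : M (M v₂) + (-t') • M v₂ + (1 : F) • v₂ = 0 := by
    rw [hM, hM, neg_smul, one_smul, ← sub_eq_add_neg]
    exact hv₂
  have hli : LinearIndependent F ![v₁, M v₁, v₂, M v₂] := by
    rw [Fintype.linearIndependent_iff]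
    intro c hc
    rw [Fin.sum_univ_four] at hc
    change c 0 • v₁ + c 1 • M v₁ + c 2 • v₂ + c 3 • M v₂ = 0 at hc
    set u₁ := c 0 • v₁ + c 1 • (X *ᵥ v₁) with hu₁
    set u₂ := c 2 • v₂ + c 3 • (X *ᵥ v₂) with hu₂
    have hsum : u₁ + u₂ = 0 := by
      rw [← hc, hu₁, hu₂, hM, hM]
      abel
    have h1 := stable_pair X hv₁ (c 0) (c 1)
    have h3 := stable_pair X hv₂ (c 2) (c 3)
    rw [← hu₁] at h1
    rw [← hu₂] at h3
    have e₂ : u₂ = -u₁ := by
      linear_combination (norm := module) hsum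
    rw [e₂, Matrix.mulVec_neg, Matrix.mulVec_neg] at h3
    have hMu : X *ᵥ u₁ = 0 := by
      have h4 : (t - t') • (X *ᵥ u₁) = 0 := by
        linear_combination (norm := module) -h1 - h3
      exact (smul_eq_zero.mp h4).resolve_left (sub_ne_zero.mpr hne')
    have hu0 : u₁ = 0 := by
      rw [← hX5v u₁, hMu]
      simp
    have hu₂0 : u₂ = 0 := by
      rw [e₂, hu0, neg_zero]
    have h01 := pair_zero M hq₁ hv₁0 hp₁ (c := c 0) (d := c 1) hu0
    have h23 := pair_zero M hq₂ hv₂0 hp₂ (c := c 2) (d := c 3) hu₂0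
    intro j
    fin_cases j
    · exact h01.1
    · exact h01.2
    · exact h23.1
    · exact h23.2
  let B : Basis (Fin 4) F (Fin 4 → F) := basisOfLinearIndependentOfCardEqFinrank hli (by simp)
  have hb : ∀ i, B i = (![v₁, M v₁, v₂, M v₂] : Fin 4 → Fin 4 → F) i := fun i => by simp [B]
  refine ⟨basisGL B, ?_⟩
  apply mat_of_vec B X (blockQ t t')
  intro j
  rw [Fin.sum_univ_four, hb 0, hb 1, hb 2, hb 3, hb j]
  have e₁ : X *ᵥ (X *ᵥ v₁) = t • (X *ᵥ v₁) - v₁ := by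
    linear_combination (norm := module) hv₁
  have e₂ : X *ᵥ (X *ᵥ v₂) = t' • (X *ᵥ v₂) - v₂ := by
    linear_combination (norm := module) hv₂
  fin_cases j <;> simp [blockQ, hM, e₁, e₂]
  · module
  · module

end FiveType

theorem not_sq_two_five : ¬ IsSquare ((2 : ℕ) : ZMod 5) := by decide

theorem not_sq_three_five : ¬ IsSquare ((3 : ℕ) : ZMod 5) := by decide

theorem exists_golden_U [Fact p.Prime] [CharP F p] (hF : Fintype.card F = p ^ 2) (hp4 : p % 4 = 3)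
    (h52 : p % 5 = 2 ∨ p % 5 = 3) (h2 : (2 : F) ≠ 0) :
    ∃ t t' : F, t + t' = -1 ∧ t * t' = -1 ∧ t ^ p = t' ∧ t' ^ p = t ∧ t ≠ t' ∧
      (∀ c : F, c * c + (-t) * c + 1 ≠ 0) ∧ (∀ c : F, c * c + (-t') * c + 1 ≠ 0) := by
  classical
  have hp : p.Prime := Fact.out
  have hp2 : p ≠ 2 := by
    rintro rfl
    omega
  have hp5 : p ≠ 5 := by
    rintro rfl
    omega
  haveI : Fact (Nat.Prime 5) := ⟨by norm_num⟩
  have h5 : (5 : F) ≠ 0 := by
    intro h
    have h1 : ((5 : ℕ) : F) = 0 := by exact_mod_cast h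
    rw [CharP.cast_eq_zero_iff F p] at h1
    exact hp5 ((Nat.prime_dvd_prime_iff_eq hp (by norm_num)).mp h1)
  have hneg := neg_pow_p (F := F) hp4
  -- a square root of five
  have h5p : (5 : F) ^ p = 5 := by
    have := map_natCast (frobenius F p) 5
    simpa [frobenius_def] using this
  obtain ⟨b, hb⟩ : ∃ b : F, b * b = 5 := by
    have hc : ringChar F ≠ 2 := by
      intro h3
      apply h2
      have h4 := ringChar.Nat.cast_ringChar (R := F)
      rw [h3] at h4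
      exact_mod_cast h4
    have h3 : IsSquare (5 : F) := by
      rw [FiniteField.isSquare_iff hc h5, hF]
      obtain ⟨k, hk⟩ : ∃ k, p = 2 * k + 1 := ⟨p / 2, by omega⟩
      have e : p ^ 2 / 2 = (p - 1) * (k + 1) := by
        have e₁ : p ^ 2 = 2 * ((p - 1) * (k + 1)) + 1 := by
          have e₂ : p - 1 = 2 * k := by omega
          rw [e₂, hk]
          ring
        omega
      have h5p1 : (5 : F) ^ (p - 1) = 1 := by
        apply mul_right_cancel₀ h5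
        rw [← pow_succ, Nat.sub_add_cancel hp.one_le, h5p, one_mul]
      rw [e, pow_mul, h5p1, one_pow]
    obtain ⟨w, hw⟩ := h3
    exact ⟨w, hw.symm⟩
  have hb0 : b ≠ 0 := by
    rintro rfl
    apply h5
    rw [← hb, zero_mul]
  -- five is not a square modulo `p`
  have hns : ¬ IsSquare ((5 : ℕ) : ZMod p) := by
    intro hsq
    have h1 := (ZMod.exists_sq_eq_prime_iff_of_mod_four_eq_one (p := 5) (q := p) (by norm_num) hp2).2 hsq
    have e : (p : ZMod 5) = ((p % 5 : ℕ) : ZMod 5) := (ZMod.natCast_mod p 5).symm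
    rw [e] at h1
    rcases h52 with h3 | h3 <;> rw [h3] at h1
    · exact not_sq_two_five h1
    · exact not_sq_three_five h1
  have h50 : ((5 : ℕ) : ZMod p) ≠ 0 := by
    intro h
    exact hns (by rw [h]; exact IsSquare.zero)
  have hpow : ((5 : ℕ) : ZMod p) ^ (p / 2) = -1 := by
    rcases ZMod.pow_div_two_eq_neg_one_or_one p h50 with h1 | h1
    · exact absurd ((ZMod.euler_criterion p h50).2 h1) hns
    · exact h1
  let φ : ZMod p →+* F := ZMod.castHom (dvd_refl p) F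
  have hpowF : (5 : F) ^ (p / 2) = -1 := by
    have h1 := congrArg φ hpow
    have e5 : φ 5 = 5 := map_ofNat φ 5
    simpa [map_pow, map_natCast, map_neg, e5] using h1
  have hbp : b ^ p = -b := by
    have e : p = 2 * (p / 2) + 1 := by omega
    calc b ^ p = b ^ (2 * (p / 2) + 1) := by rw [← e]
      _ = (b * b) ^ (p / 2) * b := by rw [pow_succ, pow_mul, pow_two]
      _ = -b := by rw [hb, hpowF]; ring
  have ha : (2 : F) * 2⁻¹ = 1 := mul_inv_cancel₀ h2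
  set a : F := 2⁻¹ with haa
  set t : F := (b - 1) * a with ht
  have htq : t * t + t - 1 = 0 := by
    rw [ht]
    linear_combination a ^ 2 * hb + ((3 - b) * a + 1) * ha
  have htp : t ^ p = -1 - t := by
    rw [ht, mul_pow, haa, two_inv_pow, ← haa, sub_eq_add_neg b 1, add_pow_char, hbp, hneg, one_pow]
    linear_combination (-1 : F) * ha
  have ht'p : (-1 - t) ^ p = t := by
    rw [sub_eq_add_neg, add_pow_char, hneg, hneg, one_pow, htp]
    ring
  have hne' : t ≠ -1 - t := by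
    intro h
    apply h5
    have h1 : 2 * t + 1 = 0 := by linear_combination h
    calc (5 : F) = (2 * t + 1) * (2 * t + 1) - 4 * (t * t + t - 1) := by ring
      _ = 0 := by rw [h1, htq]; ring
  -- no roots
  have hc5 : p ^ 2 % 5 = 4 := by
    rcases h52 with h3 | h3 <;> simp [Nat.pow_mod, h3]
  have hroot : ∀ t₀ : F, t₀ * t₀ + t₀ - 1 = 0 → ∀ c : F, c * c + (-t₀) * c + 1 ≠ 0 := by
    intro t₀ ht₀ c hc
    have hc0 : c ≠ 0 := by
      rintro rfl
      simp at hc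
    have hΦ : c ^ 4 + c ^ 3 + c ^ 2 + c + 1 = 0 := by
      linear_combination (c * c + (1 + t₀) * c + 1) * hc + c * c * ht₀
    have hc5' : c ^ 5 = 1 := by linear_combination (c - 1) * hΦ
    obtain ⟨m, hm⟩ : ∃ m, p ^ 2 - 1 = 5 * m + 3 := by
      refine ⟨(p ^ 2 - 1) / 5, ?_⟩
      omega
    have h1 := FiniteField.pow_card_sub_one_eq_one c hc0
    rw [hF, hm, pow_add, pow_mul, hc5', one_pow, one_mul] at h1
    have h6 : c * c = 1 := by
      linear_combination hc5' - c * c * h1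
    have h7 : c = 1 := by
      calc c = c * (c * c) := by rw [h6, mul_one]
        _ = c ^ 3 := by ring
        _ = 1 := h1
    rw [h7] at hc
    have h8 : t₀ = 2 := by linear_combination -hc
    rw [h8] at ht₀
    apply h5
    linear_combination ht₀
  have ht'q : (-1 - t) * (-1 - t) + (-1 - t) - 1 = 0 := by linear_combination htq
  refine ⟨t, -1 - t, by ring, ?_, htp, ht'p, hne', hroot t htq, hroot _ ht'q⟩
  linear_combination -htq

namespace Pauli

variable {R : Subgroup (GL (Fin 4) F)} {i : F} {ι u v g h P : GL (Fin 4) F}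

theorem conj_five_U [Fact p.Prime] [CharP F p] (hFr : Pauli R i ι u v g h P) (hPU : P ∈ Cfsg.GU 4 F p)
    (hF : Fintype.card F = p ^ 2) (hp4 : p % 4 = 3) (h52 : p % 5 = 2 ∨ p % 5 = 3) (h2 : (2 : F) ≠ 0) (x : GL (Fin 4) F) (hxU : x ∈ Cfsg.GU 4 F p)
    {s : F} (hs : ((x ^ 5 : GL (Fin 4) F) : Matrix (Fin 4) (Fin 4) F) = s • 1)
    (hns : ∀ c : F, (x : Matrix (Fin 4) (Fin 4) F) ≠ c • 1) :
    ∃ g ∈ Cfsg.GU 4 F p ⊓ Cfsg.Geo.specialLinear (Fin 4) F, g⁻¹ * x * g ∈ Cfsg.Geo.subgroupNormalizer R := by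
  classical
  have hp : p.Prime := Fact.out
  have hi := hFr.hi
  have hodd : Odd p := by
    rw [Nat.odd_iff]
    omega
  have hp5 : p ≠ 5 := by
    rintro rfl
    omega
  have h5 : (5 : F) ≠ 0 := by
    intro h
    have h1 : ((5 : ℕ) : F) = 0 := by exact_mod_cast h
    rw [CharP.cast_eq_zero_iff F p] at h1
    exact hp5 ((Nat.prime_dvd_prime_iff_eq hp (by norm_num)).mp h1)
  have hc5 : Nat.Coprime 5 p := by
    rw [Nat.coprime_comm, hp.coprime_iff_not_dvd]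
    intro h1
    exact hp5 ((Nat.prime_dvd_prime_iff_eq hp (by norm_num)).mp h1)
  have hsn : s ^ (p + 1) = 1 := by
    have h1 : x ^ 5 ∈ Cfsg.GU 4 F p := Subgroup.pow_mem _ hxU 5
    exact norm_of_scalar hF h1 hs
  -- a root of norm one
  obtain ⟨w, hw5, hwn⟩ : ∃ w : F, w ^ 5 = s ∧ w ^ (p + 1) = 1 := by
    obtain ⟨m, k, hk⟩ : ∃ m k, m * (p + 1) + 1 = 5 * k := by
      rcases h52 with h3 | h3
      · exact ⟨3, (3 * (p + 1) + 1) / 5, by omega⟩
      · exact ⟨1, ((p + 1) + 1) / 5, by omega⟩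
    refine ⟨s ^ k, ?_, ?_⟩
    · rw [← pow_mul, mul_comm, ← hk, pow_succ, mul_comm m, pow_mul, hsn, one_pow, one_mul]
    · rw [← pow_mul, mul_comm, pow_mul, hsn, one_pow]
  have hw0 : w ≠ 0 := by
    rintro h0
    rw [h0, zero_pow (by omega)] at hwn
    exact zero_ne_one hwn
  set X := (x : Matrix (Fin 4) (Fin 4) F) with hX
  have hX5 : X * X * X * X * X = s • 1 := by
    rw [← hs, pow_succ, pow_succ, pow_succ, pow_two]
    rfl
  obtain ⟨s₁, hs₁⟩ := exists_scalar_GL (inv_ne_zero hw0)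
  have hs₁U : s₁ ∈ Cfsg.GU 4 F p := by
    change Preserves p (s₁ : Matrix (Fin 4) (Fin 4) F)
    rw [hs₁]
    apply scalar_preserves4
    rw [inv_pow, hwn, inv_one]
  let x' : GL (Fin 4) F := s₁ * x
  have hx'U : x' ∈ Cfsg.GU 4 F p := Subgroup.mul_mem _ hs₁U hxU
  have hx'v : (x' : Matrix (Fin 4) (Fin 4) F) = w⁻¹ • X := by
    change ((s₁ * x : GL (Fin 4) F) : Matrix (Fin 4) (Fin 4) F) = _
    rw [Units.val_mul, hs₁, Matrix.smul_mul, Matrix.one_mul]
  have hX'5 : (w⁻¹ • X) * (w⁻¹ • X) * (w⁻¹ • X) * (w⁻¹ • X) * (w⁻¹ • X) = 1 := by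
    have e : (w⁻¹ • X) * (w⁻¹ • X) * (w⁻¹ • X) * (w⁻¹ • X) * (w⁻¹ • X) = (w⁻¹ * w⁻¹ * w⁻¹ * w⁻¹ * w⁻¹) • (X * X * X * X * X) := by
      simp only [Matrix.smul_mul, Matrix.mul_smul, smul_smul]
      congr 1
      ring
    rw [e, hX5, smul_smul, ← hw5]
    have e : w⁻¹ * w⁻¹ * w⁻¹ * w⁻¹ * w⁻¹ * w ^ 5 = 1 := by
      field_simp
    rw [e, one_smul]
  have hne : w⁻¹ • X ≠ 1 := by
    intro h1
    apply hns w
    rw [← smul_right_inj (inv_ne_zero hw0), h1, smul_smul, inv_mul_cancel₀ hw0, one_smul]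
  have hord := ord_of_scalar hF x hc5 hs
  obtain ⟨t, t', htt, hmul, htp, htp', hne', hq₁, hq₂⟩ := exists_golden_U hF hp4 h52 h2
  have hx'P : Preserves p (w⁻¹ • X) := by
    rw [← hx'v]
    exact hx'U
  obtain ⟨G, hG⟩ := five_type_U hF hodd (w⁻¹ • X) hx'P hX'5 hne htt hmul htp htp' hne' hq₁ hq₂
  obtain ⟨T₀, hT₀⟩ := exists_GL_of_five (T5_five hi h2)
  have hT₀U : T₀ ∈ Cfsg.GU 4 F p := by
    change Preserves p (T₀ : Matrix (Fin 4) (Fin 4) F)
    rw [hT₀]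
    exact T5_preserves hF hp4 hi h2
  have hne5 : T5 i ≠ 1 := by
    intro h1
    have h3 := T5_trace hi h2
    rw [h1] at h3
    simp only [Matrix.trace_one, Fintype.card_fin] at h3
    apply h5
    push_cast at h3
    linear_combination h3
  obtain ⟨G₁, hG₁⟩ := five_type_U hF hodd (T5 i) (T5_preserves hF hp4 hi h2) (T5_five hi h2) hne5 htt hmul htp htp' hne' hq₁ hq₂
  refine hFr.conj_model_U hPU hF T₀ x (G * G₁⁻¹) hwn hT₀U (hFr.norm_5 T₀ (c := -(i * 2⁻¹)) hT₀) hxU ?_ hord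
  rw [hT₀]
  exact conj_of_common hG hG₁

end Pauli

end Cfsg.Agent.Lib.TwoSix
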