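import Cfsg.Agent.Lib.TwoSix.Neg
import Cfsg.Agent.Lib.Classical.Herm.SSCent
import Cfsg.Agent.Lib.Classical.Herm.NormMat

/-!
# The unitary frame of a group of symplectic type
-/

set_option autoImplicit false

open scoped MatrixGroups Matrix Polynomial
open Cfsg Module
open Cfsg.Agent.Lib.Classical.Herm.Basic Cfsg.Agent.Lib.Classical.Herm.Form
open Cfsg.Agent.Lib.Classical.Herm.GU Cfsg.Agent.Lib.Classical.Herm.SU

namespace Cfsg.Agent.Lib.TwoSix

variable {F : Type*} [Field F] [Fintype F] {p : ℕ}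

namespace Pauli

variable {R : Subgroup (GL (Fin 4) F)} {i : F} {ι u v g h P₀ : GL (Fin 4) F}

theorem exists_unitary [Fact p.Prime] [CharP F p] (hF : Fintype.card F = p ^ 2) (hodd : p ≠ 2) (h2 : (2 : F) ≠ 0) (hRU : R ≤ Cfsg.GU 4 F p)
    (hFr : Pauli R i ι u v g h P₀) : ∃ P : GL (Fin 4) F, Pauli R i ι u v g h P ∧ P ∈ Cfsg.GU 4 F p := by
  classical
  have hneg : (-1 : F) ^ p = -1 := Odd.neg_one_pow ((Fact.out : p.Prime).odd_of_ne_two hodd)
  set Pm : Matrix (Fin 4) (Fin 4) F := (P₀ : Matrix (Fin 4) (Fin 4) F) with hPm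
  let w : Fin 4 → Fin 4 → F := fun j k => Pm k j
  let z₁ : Fin 4 → F := ![1, 1, -1, -1]
  let z₂ : Fin 4 → F := ![1, -1, 1, -1]
  have hz₁p : ∀ j, (z₁ j) ^ p = z₁ j := by
    intro j
    fin_cases j <;> simp [z₁, hneg]
  have hz₂p : ∀ j, (z₂ j) ^ p = z₂ j := by
    intro j
    fin_cases j <;> simp [z₂, hneg]
  have hUv : ∀ j, ((u : Matrix (Fin 4) (Fin 4) F)) *ᵥ w j = z₁ j • w j := by
    intro j
    funext k
    have h1 := congrFun (congrFun hFr.hU k) j
    rw [Z₁, Matrix.mul_diagonal] at h1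
    rw [Pi.smul_apply, smul_eq_mul, mul_comm]
    exact h1
  have hGv : ∀ j, ((g : Matrix (Fin 4) (Fin 4) F)) *ᵥ w j = z₂ j • w j := by
    intro j
    funext k
    have h1 := congrFun (congrFun hFr.hG k) j
    rw [Z₂, Matrix.mul_diagonal] at h1
    rw [Pi.smul_apply, smul_eq_mul, mul_comm]
    exact h1
  let π₁ : Fin 4 → Fin 4 := ![2, 3, 0, 1]
  let π₂ : Fin 4 → Fin 4 := ![1, 0, 3, 2]
  have hVv : ∀ j, ((v : Matrix (Fin 4) (Fin 4) F)) *ᵥ w j = w (π₁ j) := by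
    intro j
    funext k
    have h1 := congrFun (congrFun hFr.hV k) j
    have e : (Pm * X₁ F) k j = w (π₁ j) k := by
      fin_cases j <;> simp [X₁, Matrix.mul_apply, Fin.sum_univ_four, w, π₁]
    rw [← e, ← hPm] at *
    exact h1
  have hHv : ∀ j, ((h : Matrix (Fin 4) (Fin 4) F)) *ᵥ w j = w (π₂ j) := by
    intro j
    funext k
    have h1 := congrFun (congrFun hFr.hH k) j
    have e : (Pm * X₂ F) k j = w (π₂ j) k := by
      fin_cases j <;> simp [X₂, Matrix.mul_apply, Fin.sum_univ_four, w, π₂]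
    rw [← e, ← hPm] at *
    exact h1
  let f : Fin 4 → Fin 4 → F := fun a b => hermForm 4 F p (w a) (w b)
  have hk₁ : ∀ a b, z₁ a * z₁ b = -1 → f a b = 0 := by
    intro a b hab
    have h1 : hermForm 4 F p ((u : Matrix (Fin 4) (Fin 4) F) *ᵥ w a) ((u : Matrix (Fin 4) (Fin 4) F) *ᵥ w b) =
        hermForm 4 F p (w a) (w b) := hRU hFr.mem_u (w a) (w b)
    rw [hUv, hUv, hermForm_smul_left, hermForm_smul_right, hz₁p, ← mul_assoc, hab] at h1
    have h3 : (2 : F) * f a b = 0 := by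
      change -1 * hermForm 4 F p (w a) (w b) = hermForm 4 F p (w a) (w b) at h1
      change 2 * hermForm 4 F p (w a) (w b) = 0
      linear_combination -h1
    exact (mul_eq_zero.mp h3).resolve_left h2
  have hk₂ : ∀ a b, z₂ a * z₂ b = -1 → f a b = 0 := by
    intro a b hab
    have h1 : hermForm 4 F p ((g : Matrix (Fin 4) (Fin 4) F) *ᵥ w a) ((g : Matrix (Fin 4) (Fin 4) F) *ᵥ w b) =
        hermForm 4 F p (w a) (w b) := hRU hFr.mem_g (w a) (w b)
    rw [hGv, hGv, hermForm_smul_left, hermForm_smul_right, hz₂p, ← mul_assoc, hab] at h1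
    have h3 : (2 : F) * f a b = 0 := by
      change -1 * hermForm 4 F p (w a) (w b) = hermForm 4 F p (w a) (w b) at h1
      change 2 * hermForm 4 F p (w a) (w b) = 0
      linear_combination -h1
    exact (mul_eq_zero.mp h3).resolve_left h2
  have hoff : ∀ a b, a ≠ b → f a b = 0 := by
    intro a b hab
    fin_cases a <;> fin_cases b <;>
      first
        | exact absurd rfl hab
        | (refine hk₁ _ _ ?_; simp [z₁]; done)
        | (refine hk₂ _ _ ?_; simp [z₂]; done)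
  have hπ₁ : ∀ a b, f (π₁ a) (π₁ b) = f a b := by
    intro a b
    have h1 : hermForm 4 F p ((v : Matrix (Fin 4) (Fin 4) F) *ᵥ w a) ((v : Matrix (Fin 4) (Fin 4) F) *ᵥ w b) =
        hermForm 4 F p (w a) (w b) := hRU hFr.mem_v (w a) (w b)
    rw [hVv, hVv] at h1
    exact h1
  have hπ₂ : ∀ a b, f (π₂ a) (π₂ b) = f a b := by
    intro a b
    have h1 : hermForm 4 F p ((h : Matrix (Fin 4) (Fin 4) F) *ᵥ w a) ((h : Matrix (Fin 4) (Fin 4) F) *ᵥ w b) =
        hermForm 4 F p (w a) (w b) := hRU hFr.mem_h (w a) (w b)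
    rw [hHv, hHv] at h1
    exact h1
  have f22 : f 2 2 = f 0 0 := hπ₁ 0 0
  have f33 : f 3 3 = f 1 1 := hπ₁ 1 1
  have f11 : f 1 1 = f 0 0 := hπ₂ 0 0
  set c := f 0 0 with hc
  have hPP : ((P₀⁻¹ : GL (Fin 4) F) : Matrix (Fin 4) (Fin 4) F) * Pm = 1 := by
    rw [hPm, ← Units.val_mul, inv_mul_cancel, Units.val_one]
  have hPP' : Pm * ((P₀⁻¹ : GL (Fin 4) F) : Matrix (Fin 4) (Fin 4) F) = 1 := by
    rw [hPm, ← Units.val_mul, mul_inv_cancel, Units.val_one]
  have hv0 : w 0 ≠ 0 := by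
    intro h1
    have h3 := congrFun (congrFun hPP 0) 0
    rw [Matrix.mul_apply] at h3
    have h4 : ∀ k, Pm k 0 = 0 := fun k => congrFun h1 k
    simp [h4] at h3
  have hc0 : c ≠ 0 := by
    intro h0
    apply hv0
    apply hermForm_nondegenerate_left hF 4
    intro y
    have e : y = Pm *ᵥ (((P₀⁻¹ : GL (Fin 4) F) : Matrix (Fin 4) (Fin 4) F) *ᵥ y) := by
      rw [Matrix.mulVec_mulVec, hPP', Matrix.one_mulVec]
    rw [e, mulVec_eq_sum_col, hermForm_sum_right hF]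
    rw [Fin.sum_univ_four]
    have e0 : hermForm 4 F p (w 0) (fun k => Pm k 0) = c := rfl
    have e1 : hermForm 4 F p (w 0) (fun k => Pm k 1) = f 0 1 := rfl
    have e2 : hermForm 4 F p (w 0) (fun k => Pm k 2) = f 0 2 := rfl
    have e3 : hermForm 4 F p (w 0) (fun k => Pm k 3) = f 0 3 := rfl
    rw [e0, e1, e2, e3, hoff 0 1 (by decide), hoff 0 2 (by decide), hoff 0 3 (by decide), h0]
    simp
  have hcq : c ^ p = c := hermForm_pow_q hF 4 (w 0) (w 0)
  obtain ⟨s, hs⟩ := exists_norm_eq hF c⁻¹ (inv_ne_zero hc0) (by rw [inv_pow, hcq])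
  have hs0 : s ≠ 0 := by
    rintro rfl
    rw [zero_pow (by omega)] at hs
    exact inv_ne_zero hc0 hs.symm
  obtain ⟨S, hS⟩ := exists_scalar_GL hs0
  have hPval : ((S * P₀ : GL (Fin 4) F) : Matrix (Fin 4) (Fin 4) F) = s • Pm := by
    rw [Units.val_mul, hS, Matrix.smul_mul, Matrix.one_mul]
  refine ⟨S * P₀, ⟨hFr.fin, hFr.card, hFr.mem_ι, hFr.mem_u, hFr.mem_v, hFr.mem_g, hFr.mem_h, hFr.hi, hFr.hι, hFr.gens,
    hFr.signs, hFr.comm, hFr.four, ?_, ?_, ?_, ?_⟩, ?_⟩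
  · rw [hPval, Matrix.mul_smul, Matrix.smul_mul, hFr.hU]
  · rw [hPval, Matrix.mul_smul, Matrix.smul_mul, hFr.hV]
  · rw [hPval, Matrix.mul_smul, Matrix.smul_mul, hFr.hG]
  · rw [hPval, Matrix.mul_smul, Matrix.smul_mul, hFr.hH]
  · change Preserves p ((S * P₀ : GL (Fin 4) F) : Matrix (Fin 4) (Fin 4) F)
    rw [hPval, preserves_iff_frame hF]
    intro a b
    have e : ∀ j : Fin 4, (fun k => (s • Pm) k j) = s • w j := fun j => rfl
    change hermForm 4 F p (fun k => (s • Pm) k a) (fun k => (s • Pm) k b) = _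
    rw [e, e, hermForm_smul_left, hermForm_smul_right]
    have e' : s * (s ^ p * f a b) = c⁻¹ * f a b := by
      rw [← hs]
      ring
    change s * (s ^ p * f a b) = _
    rw [e']
    by_cases hab : a = b
    · subst hab
      have hcc : f a a = c := by
        fin_cases a
        · rfl
        · exact f11
        · exact f22
        · exact f33.trans f11
      rw [hcc, inv_mul_cancel₀ hc0]
      simp
    · rw [hoff a b hab]
      simp [hab]

end Pauli

/-- Elements of order prime to the characteristic that are conjugate in `GL` are conjugate in `SU`. -/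
theorem conj_of_GL_conj4 [Fact p.Prime] [CharP F p] (hF : Fintype.card F = p ^ 2) {x T G : GL (Fin 4) F}
    (hx : x ∈ Cfsg.GU 4 F p) (hT : T ∈ Cfsg.GU 4 F p) (hord : (orderOf x).Coprime p) (hG : G * T = x * G) :
    ∃ g ∈ Cfsg.GU 4 F p ⊓ Cfsg.Geo.specialLinear (Fin 4) F, g⁻¹ * x * g = T := by
  classical
  have hconj : IsConj x T := by
    rw [isConj_iff]
    refine ⟨G⁻¹, ?_⟩
    rw [inv_inv, mul_assoc, ← hG, inv_mul_cancel_left]
  have hGU := Cfsg.Agent.Lib.Classical.Herm.NormMat.isConj_of_GL hF (⟨x, hx⟩ : Cfsg.GU 4 F p) ⟨T, hT⟩ hconj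
  obtain ⟨c, hc⟩ := isConj_iff.1 hGU
  have hdc : ((c : GL (Fin 4) F) : Matrix (Fin 4) (Fin 4) F).det ^ (p + 1) = 1 :=
    det_pow_succ hF _ c.2
  have hdc0 : ((c : GL (Fin 4) F) : Matrix (Fin 4) (Fin 4) F).det ≠ 0 := by
    intro h0
    rw [h0, zero_pow (by omega)] at hdc
    exact zero_ne_one hdc
  have hz : (((c : GL (Fin 4) F) : Matrix (Fin 4) (Fin 4) F).det)⁻¹ ^ (p + 1) = 1 := by
    rw [inv_pow, hdc, inv_one]
  obtain ⟨d, hd1, hd2⟩ := Cfsg.Agent.Lib.Classical.Herm.SSCent.exists_det_commute hF (n := 4) (by norm_num)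
    (⟨x, hx⟩ : Cfsg.GU 4 F p) ((Cfsg.Agent.Lib.Linalg.SemisimpleClasses.orderOf_coprime_iff p _).1 hord) hz
  set e : Cfsg.GU 4 F p := c * d with he
  have hdet : ((e : GL (Fin 4) F) : Matrix (Fin 4) (Fin 4) F).det = 1 := by
    change (((c : GL (Fin 4) F) * (d : GL (Fin 4) F) : GL (Fin 4) F) : Matrix (Fin 4) (Fin 4) F).det = 1
    rw [Units.val_mul, Matrix.det_mul, hd2, mul_inv_cancel₀ hdc0]
  refine ⟨(e : GL (Fin 4) F)⁻¹, ⟨(Cfsg.GU 4 F p).inv_mem e.2, ?_⟩, ?_⟩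
  · refine (Cfsg.Geo.specialLinear (Fin 4) F).inv_mem ?_
    change Matrix.GeneralLinearGroup.det _ = 1
    apply Units.ext
    simpa using hdet
  · have h1 : (c : GL (Fin 4) F) * x * (c : GL (Fin 4) F)⁻¹ = T := congrArg Subtype.val hc
    have h2 : (d : GL (Fin 4) F) * x = x * (d : GL (Fin 4) F) := congrArg Subtype.val hd1
    rw [inv_inv, ← h1]
    change ((c : GL (Fin 4) F) * d) * x * ((c : GL (Fin 4) F) * d)⁻¹ = _
    calc ((c : GL (Fin 4) F) * d) * x * ((c : GL (Fin 4) F) * d)⁻¹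
        = (c : GL (Fin 4) F) * ((d : GL (Fin 4) F) * x) * (d : GL (Fin 4) F)⁻¹ * (c : GL (Fin 4) F)⁻¹ := by group
      _ = _ := by rw [h2]; group

/-- A unitary matrix: the trace of the inverse is the Frobenius twist of the trace. -/
theorem trace_inv_of_GU (hF : Fintype.card F = p ^ 2) {x : GL (Fin 4) F} (hx : x ∈ Cfsg.GU 4 F p) :
    Matrix.trace ((x⁻¹ : GL (Fin 4) F) : Matrix (Fin 4) (Fin 4) F) = (Matrix.trace (x : Matrix (Fin 4) (Fin 4) F)) ^ p := by
  have hP : Preserves p (x : Matrix (Fin 4) (Fin 4) F) := hx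
  have h1 := transpose_mul_map hF _ hP
  have h2 : ((x : Matrix (Fin 4) (Fin 4) F).map (sigma hF))ᵀ * (x : Matrix (Fin 4) (Fin 4) F) = 1 := by
    have := congrArg Matrix.transpose h1
    rwa [Matrix.transpose_mul, Matrix.transpose_transpose, Matrix.transpose_one] at this
  have hxx : (x : Matrix (Fin 4) (Fin 4) F) * ((x⁻¹ : GL (Fin 4) F) : Matrix (Fin 4) (Fin 4) F) = 1 := by
    rw [← Units.val_mul, mul_inv_cancel, Units.val_one]
  have e : ((x⁻¹ : GL (Fin 4) F) : Matrix (Fin 4) (Fin 4) F) = ((x : Matrix (Fin 4) (Fin 4) F).map (sigma hF))ᵀ := by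
    calc ((x⁻¹ : GL (Fin 4) F) : Matrix (Fin 4) (Fin 4) F)
        = (((x : Matrix (Fin 4) (Fin 4) F).map (sigma hF))ᵀ * (x : Matrix (Fin 4) (Fin 4) F)) * ((x⁻¹ : GL (Fin 4) F) : Matrix (Fin 4) (Fin 4) F) := by
          rw [h2, Matrix.one_mul]
      _ = _ := by rw [Matrix.mul_assoc, hxx, Matrix.mul_one]
  rw [e, Matrix.trace_transpose, Matrix.trace, Matrix.trace, pow_q_sum hF]
  rfl

end Cfsg.Agent.Lib.TwoSix
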