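import Cfsg.Agent.Lib.TwoSix.UFrame

/-!
# Unitary Clifford elements
-/

set_option autoImplicit false

open scoped MatrixGroups Matrix Polynomial
open Cfsg Module
open Cfsg.Agent.Lib.Classical.Herm.Basic Cfsg.Agent.Lib.Classical.Herm.Form
open Cfsg.Agent.Lib.Classical.Herm.GU Cfsg.Agent.Lib.Classical.Herm.SU

namespace Cfsg.Agent.Lib.TwoSix

variable {F : Type*} [Field F] [Fintype F] {p : ℕ}

theorem preserves_smul (hF : Fintype.card F = p ^ 2) {M₀ : Matrix (Fin 4) (Fin 4) F} {c k : F}
    (hM : ∀ a b, ∑ j, M₀ j a * (M₀ j b) ^ p = if a = b then k else 0) (hc : c ^ (p + 1) * k = 1) :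
    Preserves p (c • M₀) := by
  rw [preserves_iff_frame hF]
  intro a b
  change ∑ j, (c • M₀) j a * ((c • M₀) j b) ^ p = _
  have e : ∀ j, (c • M₀) j a * ((c • M₀) j b) ^ p = c ^ (p + 1) * (M₀ j a * (M₀ j b) ^ p) := by
    intro j
    simp only [Matrix.smul_apply, smul_eq_mul, mul_pow, pow_succ]
    ring
  simp only [e]
  rw [← Finset.mul_sum, hM]
  by_cases hab : a = b
  · simp [hab, hc]
  · simp [hab]

section Frob

variable [Fact p.Prime] [CharP F p] {i : F}

theorem i_pow (hp4 : p % 4 = 3) (hi : i * i = -1) : i ^ p = -i := by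
  have h4 : i ^ 4 = 1 := by
    calc i ^ 4 = (i * i) * (i * i) := by ring
      _ = 1 := by rw [hi]; ring
  obtain ⟨k, hk⟩ : ∃ k, p = 4 * k + 3 := ⟨p / 4, by omega⟩
  rw [hk, pow_add, pow_mul, h4, one_pow, one_mul]
  calc i ^ 3 = (i * i) * i := by ring
    _ = -i := by rw [hi]; ring

theorem neg_pow_p (hp4 : p % 4 = 3) (y : F) : (-y) ^ p = -y ^ p := by
  have hodd : Odd p := by
    rw [Nat.odd_iff]
    omega
  exact hodd.neg_pow y

theorem two_inv_pow : ((2 : F)⁻¹) ^ p = 2⁻¹ := by
  have h : (2 : F) ^ p = 2 := by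
    have := add_pow_char (R := F) (x := (1 : F)) (y := 1) (p := p)
    rw [one_pow] at this
    rw [← one_add_one_eq_two, this]
  rw [inv_pow, h]

section Frames

variable (hi : i * i = -1) (hip : i ^ p = -i) (hneg : ∀ y : F, (-y) ^ p = -y ^ p) (hp0 : p ≠ 0)

include hi hip hneg hp0

theorem Ma_frame : ∀ a b, ∑ j, Ma i j a * (Ma i j b) ^ p = if a = b then (2 : F) else 0 := by
  intro a b
  fin_cases a <;> fin_cases b <;> simp [Ma, Fin.sum_univ_four, hneg, hip, zero_pow hp0] <;>
    first | ring1 | linear_combination hi | linear_combination -hi | linear_combination 2 * hi | linear_combination -2 * hi | linear_combination 3 * hi | linear_combination -3 * hi | linear_combination 4 * hi | linear_combination -4 * hi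

theorem Mb_frame : ∀ a b, ∑ j, Mb i j a * (Mb i j b) ^ p = if a = b then (4 : F) else 0 := by
  intro a b
  fin_cases a <;> fin_cases b <;> simp [Mb, Fin.sum_univ_four, hneg, hip] <;>
    first | ring1 | linear_combination hi | linear_combination -hi | linear_combination 2 * hi | linear_combination -2 * hi | linear_combination 3 * hi | linear_combination -3 * hi | linear_combination 4 * hi | linear_combination -4 * hi

theorem M5_frame : ∀ a b, ∑ j, M5 i j a * (M5 i j b) ^ p = if a = b then (4 : F) else 0 := by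
  intro a b
  fin_cases a <;> fin_cases b <;> simp [M5, Fin.sum_univ_four, hneg, hip] <;>
    first | ring1 | linear_combination hi | linear_combination -hi | linear_combination 2 * hi | linear_combination -2 * hi | linear_combination 3 * hi | linear_combination -3 * hi | linear_combination 4 * hi | linear_combination -4 * hi

end Frames

theorem Ta_preserves (hF : Fintype.card F = p ^ 2) (hp4 : p % 4 = 3) (hi : i * i = -1) (h2 : (2 : F) ≠ 0) : Preserves p (Ta i) := by
  have hip := i_pow hp4 hi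
  have hneg := neg_pow_p (F := F) hp4
  have hp0 : p ≠ 0 := (Fact.out : p.Prime).ne_zero
  refine preserves_smul hF (Ma_frame hi hip hneg hp0) ?_
  rw [pow_succ, hneg, mul_pow, two_inv_pow, add_pow_char, one_pow, hip]
  have ha : (2 : F) * 2⁻¹ = 1 := mul_inv_cancel₀ h2
  generalize (2 : F)⁻¹ = a at ha ⊢
  linear_combination (-2 * a * a) * hi + (2 * a + 1) * ha

theorem Tb_preserves (hF : Fintype.card F = p ^ 2) (hp4 : p % 4 = 3) (hi : i * i = -1) (h2 : (2 : F) ≠ 0) : Preserves p (Tb i) := by
  have hip := i_pow hp4 hi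
  have hneg := neg_pow_p (F := F) hp4
  have hp0 : p ≠ 0 := (Fact.out : p.Prime).ne_zero
  refine preserves_smul hF (Mb_frame hi hip hneg hp0) ?_
  rw [pow_succ, mul_pow, two_inv_pow, hip]
  have ha : (2 : F) * 2⁻¹ = 1 := mul_inv_cancel₀ h2
  generalize (2 : F)⁻¹ = a at ha ⊢
  linear_combination (-4 * a * a) * hi + (2 * a + 1) * ha

theorem T5_preserves (hF : Fintype.card F = p ^ 2) (hp4 : p % 4 = 3) (hi : i * i = -1) (h2 : (2 : F) ≠ 0) : Preserves p (T5 i) := by
  have hip := i_pow hp4 hi
  have hneg := neg_pow_p (F := F) hp4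
  have hp0 : p ≠ 0 := (Fact.out : p.Prime).ne_zero
  refine preserves_smul hF (M5_frame hi hip hneg hp0) ?_
  rw [pow_succ, hneg, mul_pow, two_inv_pow, hip]
  have ha : (2 : F) * 2⁻¹ = 1 := mul_inv_cancel₀ h2
  generalize (2 : F)⁻¹ = a at ha ⊢
  linear_combination (-4 * a * a) * hi + (2 * a + 1) * ha

end Frob

end Cfsg.Agent.Lib.TwoSix
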