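import Cfsg.Agent.Lib.TwoSix.UFive

/-!
# Elements of the unitary group that never normalize the group
-/

set_option autoImplicit false

open scoped MatrixGroups Matrix Polynomial
open Cfsg Module
open Cfsg.Agent.Lib.Classical.Herm.Basic Cfsg.Agent.Lib.Classical.Herm.Form
open Cfsg.Agent.Lib.Classical.Herm.GU Cfsg.Agent.Lib.Classical.Herm.SU

namespace Cfsg.Agent.Lib.TwoSix

variable {F : Type*} [Field F]

/-- A block of determinant one and its identity complement. -/
def A5g (a b c d : F) : Matrix (Fin 4) (Fin 4) F := !![a, b, 0, 0; c, d, 0, 0; 0, 0, 1, 0; 0, 0, 0, 1]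
/-- The inverse of `A5g`. -/
def B5g (a b c d : F) : Matrix (Fin 4) (Fin 4) F := !![d, -b, 0, 0; -c, a, 0, 0; 0, 0, 1, 0; 0, 0, 0, 1]
/-- The square of `A5g`. -/
def C5g (a b c d : F) : Matrix (Fin 4) (Fin 4) F :=
  !![(a + d) * a - 1, (a + d) * b, 0, 0; (a + d) * c, (a + d) * d - 1, 0, 0; 0, 0, 1, 0; 0, 0, 0, 1]

section

variable {a b c d : F} (hdet : a * d - b * c = 1)

include hdet

theorem A5g_mul_B5g : A5g a b c d * B5g a b c d = 1 := by
  ext i j
  fin_cases i <;> fin_cases j <;> simp [A5g, B5g, Matrix.mul_apply, Fin.sum_univ_four] <;>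
    first | ring1 | linear_combination hdet

theorem B5g_mul_A5g : B5g a b c d * A5g a b c d = 1 := by
  ext i j
  fin_cases i <;> fin_cases j <;> simp [A5g, B5g, Matrix.mul_apply, Fin.sum_univ_four] <;>
    first | ring1 | linear_combination hdet

theorem A5g_sq : A5g a b c d * A5g a b c d = C5g a b c d := by
  ext i j
  fin_cases i <;> fin_cases j <;> simp [A5g, C5g, Matrix.mul_apply, Fin.sum_univ_four] <;>
    first | ring1 | linear_combination -hdet

theorem C5g_sq (hq : (a + d) * (a + d) + (a + d) - 1 = 0) : C5g a b c d * C5g a b c d = B5g a b c d := by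
  ext i j
  fin_cases i <;> fin_cases j <;> simp [C5g, B5g, Matrix.mul_apply, Fin.sum_univ_four] <;>
    first
      | ring1
      | linear_combination (a * ((a + d) - 1) - 1) * hq - (a + d) ^ 2 * hdet
      | linear_combination (d * ((a + d) - 1) - 1) * hq - (a + d) ^ 2 * hdet
      | linear_combination b * ((a + d) - 1) * hq
      | linear_combination c * ((a + d) - 1) * hq

theorem A5g_five (hq : (a + d) * (a + d) + (a + d) - 1 = 0) :
    A5g a b c d * A5g a b c d * A5g a b c d * A5g a b c d * A5g a b c d = 1 := by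
  have e : A5g a b c d * A5g a b c d * A5g a b c d * A5g a b c d * A5g a b c d =
      (A5g a b c d * A5g a b c d) * (A5g a b c d * A5g a b c d) * A5g a b c d := by
    simp only [Matrix.mul_assoc]
  rw [e, A5g_sq hdet, C5g_sq hdet hq, B5g_mul_A5g hdet]

theorem A5g_det : (A5g a b c d).det = 1 := by
  simp [A5g, Matrix.det_succ_row_zero, Fin.sum_univ_succ, Fin.succAbove]
  linear_combination hdet

end

variable [Fintype F] {p : ℕ}

namespace Pauli

variable {R : Subgroup (GL (Fin 4) F)} {i : F} {ι u v g h P : GL (Fin 4) F}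

/-- A transvection is never conjugate into the normalizer. -/
theorem not_conj_transvection (hFr : Pauli R i ι u v g h P) (h2 : (2 : F) ≠ 0) {x g₀ : GL (Fin 4) F} {a b : Fin 4 → F}
    (hx : (x : Matrix (Fin 4) (Fin 4) F) = 1 + Matrix.vecMulVec a b)
    (hxi : ((x⁻¹ : GL (Fin 4) F) : Matrix (Fin 4) (Fin 4) F) = 1 - Matrix.vecMulVec a b)
    (hg : g₀⁻¹ * x * g₀ ∈ Cfsg.Geo.subgroupNormalizer R) :
    ∃ c : F, (x : Matrix (Fin 4) (Fin 4) F) = c • 1 := by
  have hgg' : ((g₀⁻¹ : GL (Fin 4) F) : Matrix (Fin 4) (Fin 4) F) * (g₀ : Matrix (Fin 4) (Fin 4) F) = 1 := by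
    rw [← Units.val_mul, inv_mul_cancel, Units.val_one]
  have hv : ((g₀⁻¹ : GL (Fin 4) F) : Matrix (Fin 4) (Fin 4) F) * Matrix.vecMulVec a b * (g₀ : Matrix (Fin 4) (Fin 4) F) =
      Matrix.vecMulVec (((g₀⁻¹ : GL (Fin 4) F) : Matrix (Fin 4) (Fin 4) F).mulVec a) (Matrix.vecMul b (g₀ : Matrix (Fin 4) (Fin 4) F)) := by
    rw [Matrix.mul_vecMulVec, Matrix.vecMulVec_mul]
  have hy1 : ((g₀⁻¹ * x * g₀ : GL (Fin 4) F) : Matrix (Fin 4) (Fin 4) F) = 1 + Matrix.vecMulVec (((g₀⁻¹ : GL (Fin 4) F) : Matrix (Fin 4) (Fin 4) F).mulVec a) (Matrix.vecMul b (g₀ : Matrix (Fin 4) (Fin 4) F)) := by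
    rw [Units.val_mul, Units.val_mul, hx, Matrix.mul_add, Matrix.add_mul, Matrix.mul_one, hgg', hv]
  have hy2 : (((g₀⁻¹ * x * g₀)⁻¹ : GL (Fin 4) F) : Matrix (Fin 4) (Fin 4) F) = 1 - Matrix.vecMulVec (((g₀⁻¹ : GL (Fin 4) F) : Matrix (Fin 4) (Fin 4) F).mulVec a) (Matrix.vecMul b (g₀ : Matrix (Fin 4) (Fin 4) F)) := by
    have e : (g₀⁻¹ * x * g₀)⁻¹ = g₀⁻¹ * x⁻¹ * g₀ := by group
    rw [e, Units.val_mul, Units.val_mul, hxi, Matrix.mul_sub, Matrix.sub_mul, Matrix.mul_one, hgg', hv]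
  obtain ⟨c, hc⟩ := hFr.scalar_of_rank_one h2 hg hy1 hy2
  exact ⟨c, Pauli.scalar_of_conj hc⟩

end Pauli

/-- The unitary transvection in characteristic three. -/
def M3 (i : F) : Matrix (Fin 4) (Fin 4) F := !![1 + i, i, i, 0; i, 1 + i, i, 0; i, i, 1 + i, 0; 0, 0, 0, 1]

theorem M3_eq (i : F) : M3 i = 1 + Matrix.vecMulVec ![1, 1, 1, 0] ![i, i, i, 0] := by
  ext a b
  fin_cases a <;> fin_cases b <;> simp [M3, Matrix.vecMulVec_apply, Matrix.one_apply]

theorem M3_preserves [Fact p.Prime] [CharP F p] (hF : Fintype.card F = p ^ 2) (hp4 : p % 4 = 3) (h3 : (3 : F) = 0) {i : F} (hi : i * i = -1) :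
    Preserves p (M3 i) := by
  have hip := i_pow hp4 hi
  have hp0 : p ≠ 0 := (Fact.out : p.Prime).ne_zero
  have hadd : ∀ y : F, (1 + y) ^ p = 1 + y ^ p := by
    intro y
    rw [add_pow_char, one_pow]
  have e : M3 i = (1 : F) • M3 i := (one_smul _ _).symm
  rw [e]
  refine preserves_smul hF (k := 1) ?_ (by simp)
  intro a b
  fin_cases a <;> fin_cases b <;> simp [M3, Fin.sum_univ_four, hadd, hip, zero_pow hp0] <;>
    first
      | ring1
      | linear_combination (-1 : F) * hi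
      | linear_combination h3
      | linear_combination (-1 : F) * hi + h3
      | linear_combination hi + h3
      | linear_combination (-2 : F) * hi + h3
      | linear_combination (2 : F) * hi + h3
      | linear_combination (-3 : F) * hi + h3
      | linear_combination (3 : F) * hi + h3

end Cfsg.Agent.Lib.TwoSix
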