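import Cfsg.Agent.Lib.TwoSix.UTwo

/-!
# Elements of order three modulo scalars in the unitary group
-/

set_option autoImplicit false

open scoped MatrixGroups Matrix Polynomial
open Cfsg Module
open Cfsg.Agent.Lib.Classical.Herm.Basic Cfsg.Agent.Lib.Classical.Herm.Form
open Cfsg.Agent.Lib.Classical.Herm.GU Cfsg.Agent.Lib.Classical.Herm.SU
open Cfsg.Agent.S5998 (mat_of_vec basisGL sum_diagonal)

namespace Cfsg.Agent.Lib.TwoSix

variable {F : Type*} [Field F] [Fintype F] {p : ℕ}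

/-- The sign counting the eigenvalues of a cube root of one. -/
def signThree : Fin 3 → ℤ := ![0, 1, -1]

theorem sorted_cases : ∀ a₀ a₁ a₂ a₃ : Fin 3, a₀ ≤ a₁ → a₁ ≤ a₂ → a₂ ≤ a₃ →
    signThree a₀ + signThree a₁ + signThree a₂ + signThree a₃ = 0 →
    (a₀ = 0 ∧ a₁ = 0 ∧ a₂ = 0 ∧ a₃ = 0) ∨ (a₀ = 0 ∧ a₁ = 0 ∧ a₂ = 1 ∧ a₃ = 2) ∨ (a₀ = 1 ∧ a₁ = 1 ∧ a₂ = 2 ∧ a₃ = 2) := by
  decide

theorem int_cast_zero {n : ℤ} (h2 : (2 : F) ≠ 0) (h3 : (3 : F) ≠ 0) (hl : -4 ≤ n) (hu : n ≤ 4) (h : (n : F) = 0) : n = 0 := by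
  have h4 : (4 : F) ≠ 0 := by
    have e : (4 : F) = 2 * 2 := by norm_num
    rw [e]
    exact mul_ne_zero h2 h2
  interval_cases n
  · exfalso
    apply h4
    push_cast at h
    linear_combination -h
  · exfalso
    apply h3
    push_cast at h
    linear_combination -h
  · exfalso
    apply h2
    push_cast at h
    linear_combination -h
  · exfalso
    push_cast at h
    simp at h
  · rfl
  · exfalso
    push_cast at h
    simp at h
  · exfalso
    apply h2
    push_cast at h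
    linear_combination h
  · exfalso
    apply h3
    push_cast at h
    linear_combination h
  · exfalso
    apply h4
    push_cast at h
    linear_combination h

/-- A unitary cube root of one, when the cube roots of one lie in the prime field. -/
theorem cube_unit_type (hF : Fintype.card F = p ^ 2) (h2 : (2 : F) ≠ 0) (h3 : (3 : F) ≠ 0) {ω : F}
    (hω : ω * ω + ω + 1 = 0) (hωp : ω ^ p = ω) (M : GL (Fin 4) F) (hMU : M ∈ Cfsg.GU 4 F p) (hM3 : M ^ 3 = 1) :
    (M : Matrix (Fin 4) (Fin 4) F) = 1 ∨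
    (∃ bb : Basis (Fin 4) F (Fin 4 → F), ∀ j, (M : Matrix (Fin 4) (Fin 4) F) *ᵥ bb j = (![1, 1, ω, ω * ω] : Fin 4 → F) j • bb j) ∨
    (∃ bb : Basis (Fin 4) F (Fin 4 → F), ∀ j, (M : Matrix (Fin 4) (Fin 4) F) *ᵥ bb j = (![ω, ω, ω * ω, ω * ω] : Fin 4 → F) j • bb j) := by
  classical
  have hω1 : (1 : F) ≠ ω := by
    rintro rfl
    apply h3
    linear_combination hω
  have hω0 : ω ≠ 0 := by
    rintro rfl
    simp at hω
  have hω2 : (1 : F) ≠ ω * ω := by
    intro h
    have e : ω = -2 := by linear_combination hω + h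
    rw [e] at h
    apply h3
    linear_combination -h
  have hω4 : ω ≠ ω * ω := by
    intro h
    have : ω * (ω - 1) = 0 := by linear_combination -h
    exact hω1 (sub_eq_zero.mp ((mul_eq_zero.mp this).resolve_left hω0)).symm
  have hω3 : ω * ω * ω = 1 := by linear_combination (ω - 1) * hω
  set X := (M : Matrix (Fin 4) (Fin 4) F) with hX
  have hX3 : X * X * X = 1 := by
    have := congrArg Units.val hM3
    rw [Units.val_one] at this
    rw [← this, pow_succ, pow_two]
    rfl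
  let g := Matrix.toLin' X
  have hggg : ∀ v, g (g (g v)) = v := by
    intro v
    change X.mulVec (X.mulVec (X.mulVec v)) = v
    rw [Matrix.mulVec_mulVec, Matrix.mulVec_mulVec, hX3, Matrix.one_mulVec]
  obtain ⟨bb, ε, hε, hb⟩ := Cfsg.Agent.S5998.exists_eigenbasis (V := Fin 4 → F) (n := 4) (by simp) g
    (α := 1) (β := ω) (γ := ω * ω) hω1 hω2 hω4
    (by
      intro v
      simp only [map_sub, map_smul, hggg]
      have hc2 : -(ω * ω) - ω - 1 = 0 := by linear_combination -hω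
      have hc1 : ω * (ω * ω) + (ω * ω) + ω = 0 := by linear_combination ω * hω
      have hc0 : 1 - ω * (ω * ω) = 0 := by linear_combination -(ω - 1) * hω
      have : ∀ A B : Fin 4 → F, v - (ω * ω) • A - ω • (A - (ω * ω) • B) - (1 : F) • (A - (ω * ω) • B - ω • (B - (ω * ω) • v)) =
          (-(ω * ω) - ω - 1) • A + (ω * (ω * ω) + (ω * ω) + ω) • B + (1 - ω * (ω * ω)) • v := by
        intro A B
        module
      rw [this, hc2, hc1, hc0]
      simp)
  have hb' : ∀ i, X *ᵥ (bb i) = ε i • bb i := hb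
  let val : Fin 3 → F := ![1, ω, ω * ω]
  have hex : ∀ j, ∃ k : Fin 3, ε j = val k := by
    intro j
    rcases hε j with h | h | h
    · exact ⟨0, h⟩
    · exact ⟨1, h⟩
    · exact ⟨2, h⟩
  choose e he using hex
  let σ := Tuple.sort e
  have hmono : Monotone (e ∘ σ) := Tuple.monotone_sort e
  set a₀ := e (σ 0) with ha₀
  set a₁ := e (σ 1) with ha₁
  set a₂ := e (σ 2) with ha₂
  set a₃ := e (σ 3) with ha₃
  have h01 : a₀ ≤ a₁ := hmono (by decide : (0 : Fin 4) ≤ 1)
  have h12 : a₁ ≤ a₂ := hmono (by decide : (1 : Fin 4) ≤ 2)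
  have h23 : a₂ ≤ a₃ := hmono (by decide : (2 : Fin 4) ≤ 3)
  let b' : Basis (Fin 4) F (Fin 4 → F) := bb.reindex σ.symm
  have hb₂ : ∀ j, X *ᵥ b' j = val (e (σ j)) • b' j := by
    intro j
    have e₁ : b' j = bb (σ j) := by
      simp [b']
    rw [e₁, hb', he]
  -- the trace condition
  have hval3 : ∀ k, val k * val k * val k = 1 := by
    intro k
    fin_cases k
    · simp [val]
    · simpa [val] using hω3
    · change ω * ω * (ω * ω) * (ω * ω) = 1
      calc ω * ω * (ω * ω) * (ω * ω) = (ω * ω * ω) * (ω * ω * ω) := by ring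
        _ = 1 := by rw [hω3]; ring
  have hvalp : ∀ k, (val k) ^ p = val k := by
    intro k
    fin_cases k
    · simp [val]
    · simpa [val] using hωp
    · change (ω * ω) ^ p = ω * ω
      rw [mul_pow, hωp]
  have hinv : ((M⁻¹ : GL (Fin 4) F) : Matrix (Fin 4) (Fin 4) F) = X * X := by
    have h1 : M⁻¹ = M * M := by
      rw [inv_eq_iff_mul_eq_one, ← hM3, pow_succ, pow_two, mul_assoc]
    rw [h1]
    rfl
  have htr := trace_of_eigenbasis4 X b' (fun j => val (e (σ j))) hb₂
  have htr2 : (X * X).trace = val a₀ * val a₀ + val a₁ * val a₁ + val a₂ * val a₂ + val a₃ * val a₃ := by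
    apply trace_of_eigenbasis4 (X * X) b' (fun j => val (e (σ j)) * val (e (σ j)))
    intro j
    rw [← Matrix.mulVec_mulVec, hb₂, Matrix.mulVec_smul, hb₂, smul_smul]
  have hti := trace_inv_of_GU hF hMU
  rw [hinv, htr2, ← hX, htr] at hti
  simp only [pow_q_add hF, hvalp] at hti
  -- from the trace to the signs
  have hsign : ∀ k, val k * val k - val k = (signThree k : F) * (ω * ω - ω) := by
    intro k
    fin_cases k
    · simp [val, signThree]
    · simp [val, signThree]
    · simp [val, signThree]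
      linear_combination ω * (ω - 1) * hω
  have hδ : ω * ω - ω ≠ 0 := sub_ne_zero.mpr hω4.symm
  have hsum : ((signThree a₀ + signThree a₁ + signThree a₂ + signThree a₃ : ℤ) : F) = 0 := by
    push_cast
    apply mul_right_cancel₀ hδ
    rw [zero_mul]
    linear_combination -(hsign a₀) - hsign a₁ - hsign a₂ - hsign a₃ + hti
  have hbd : ∀ k, -1 ≤ signThree k ∧ signThree k ≤ 1 := by decide
  have hn := int_cast_zero h2 h3
    (by linarith [(hbd a₀).1, (hbd a₁).1, (hbd a₂).1, (hbd a₃).1])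
    (by linarith [(hbd a₀).2, (hbd a₁).2, (hbd a₂).2, (hbd a₃).2]) hsum
  have hb₃ : ∀ d : Fin 4 → F, d 0 = val a₀ → d 1 = val a₁ → d 2 = val a₂ → d 3 = val a₃ → ∀ j, X *ᵥ b' j = d j • b' j := by
    intro d h0 h1 h2' h3' j
    rw [hb₂ j]
    fin_cases j
    · simp only [Fin.zero_eta, Fin.isValue]
      rw [h0]
    · simp only [Fin.mk_one, Fin.isValue]
      rw [h1]
    · change val a₂ • _ = d 2 • _
      rw [h2']
    · change val a₃ • _ = d 3 • _
      rw [h3']
  rcases sorted_cases a₀ a₁ a₂ a₃ h01 h12 h23 hn with ⟨e0, e1, e2, e3⟩ | ⟨e0, e1, e2, e3⟩ | ⟨e0, e1, e2, e3⟩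
  · left
    have hall : ∀ j, X *ᵥ b' j = (![1, 1, 1, 1] : Fin 4 → F) j • b' j := by
      apply hb₃
      · rw [e0]; rfl
      · rw [e1]; rfl
      · rw [e2]; rfl
      · rw [e3]; rfl
    apply Matrix.toLin'.injective
    apply b'.ext
    intro j
    rw [Matrix.toLin'_apply, hall j, Matrix.toLin'_apply, Matrix.one_mulVec]
    fin_cases j <;> simp
  · right
    left
    refine ⟨b', hb₃ _ ?_ ?_ ?_ ?_⟩
    · rw [e0]; rfl
    · rw [e1]; rfl
    · rw [e2]; rfl
    · rw [e3]; rfl
  · right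
    right
    refine ⟨b', hb₃ _ ?_ ?_ ?_ ?_⟩
    · rw [e0]; rfl
    · rw [e1]; rfl
    · rw [e2]; rfl
    · rw [e3]; rfl

end Cfsg.Agent.Lib.TwoSix
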