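import Cfsg.Agent.Lib.TwoSix.UModel

/-!
# Involutions modulo scalars in the unitary group
-/

set_option autoImplicit false

open scoped MatrixGroups Matrix Polynomial
open Cfsg Module
open Cfsg.Agent.Lib.Classical.Herm.Basic Cfsg.Agent.Lib.Classical.Herm.Form
open Cfsg.Agent.Lib.Classical.Herm.GU Cfsg.Agent.Lib.Classical.Herm.SU
open Cfsg.Agent.S5998 (mat_of_vec basisGL sum_diagonal)

namespace Cfsg.Agent.Lib.TwoSix

variable {F : Type*} [Field F]

theorem diag_relation (X : Matrix (Fin 4) (Fin 4) F) (b : Basis (Fin 4) F (Fin 4 → F)) (ε : Fin 4 → F)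
    (h : ∀ t, X.mulVec (b t) = ε t • b t) :
    X * (basisGL b : Matrix (Fin 4) (Fin 4) F) = (basisGL b : Matrix (Fin 4) (Fin 4) F) * Matrix.diagonal ε := by
  apply mat_of_vec b X (Matrix.diagonal ε)
  intro j
  rw [h, sum_diagonal]

theorem det_of_eigenbasis4 (X : Matrix (Fin 4) (Fin 4) F) (b : Basis (Fin 4) F (Fin 4 → F)) (ε : Fin 4 → F)
    (h : ∀ t, X.mulVec (b t) = ε t • b t) : X.det = ε 0 * ε 1 * ε 2 * ε 3 := by
  have h1 := congrArg Matrix.det (diag_relation X b ε h)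
  have hd : (basisGL b : Matrix (Fin 4) (Fin 4) F).det ≠ 0 := (Matrix.GeneralLinearGroup.det (basisGL b)).ne_zero
  rw [Matrix.det_mul, Matrix.det_mul, mul_comm] at h1
  have h2 := mul_left_cancel₀ hd h1
  rw [h2, Matrix.det_diagonal, Fin.prod_univ_four]

theorem trace_of_eigenbasis4 (X : Matrix (Fin 4) (Fin 4) F) (b : Basis (Fin 4) F (Fin 4 → F)) (ε : Fin 4 → F)
    (h : ∀ t, X.mulVec (b t) = ε t • b t) : X.trace = ε 0 + ε 1 + ε 2 + ε 3 := by
  rw [trace_eq_of_conj _ (diag_relation X b ε h), Matrix.trace_diagonal, Fin.sum_univ_four]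

theorem prod_of_sum (h2 : (2 : F) ≠ 0) {a b c d : F} (ha : a = 1 ∨ a = -1) (hb : b = 1 ∨ b = -1) (hc : c = 1 ∨ c = -1)
    (hd : d = 1 ∨ d = -1) (hs : a + b + c + d = 0) : a * b * c * d = 1 := by
  have h4 : (4 : F) ≠ 0 := by
    have e : (4 : F) = 2 * 2 := by norm_num
    rw [e]
    exact mul_ne_zero h2 h2
  rcases ha with rfl | rfl <;> rcases hb with rfl | rfl <;> rcases hc with rfl | rfl <;> rcases hd with rfl | rfl <;>
    first
      | ring1
      | (exfalso; exact h2 (by linear_combination hs))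
      | (exfalso; exact h2 (by linear_combination -hs))
      | (exfalso; exact h4 (by linear_combination hs))
      | (exfalso; exact h4 (by linear_combination -hs))

variable [Fintype F] {p : ℕ}

theorem scalar_preserves4 {c : F} (hc : c ^ (p + 1) = 1) : Preserves p (c • (1 : Matrix (Fin 4) (Fin 4) F)) := by
  have e : c • (1 : Matrix (Fin 4) (Fin 4) F) = Matrix.scalar (Fin 4) c := by
    ext i j
    simp [Matrix.scalar_apply, Matrix.one_apply, Matrix.diagonal_apply]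
  rw [e]
  exact preserves_scalar c hc

/-- A scalar which is the value of a unitary matrix has norm one. -/
theorem norm_of_scalar (hF : Fintype.card F = p ^ 2) {M : Matrix (Fin 4) (Fin 4) F} (hM : Preserves p M) {s : F}
    (h : M = s • 1) : s ^ (p + 1) = 1 := by
  have h1 := hM (Pi.single 0 1) (Pi.single 0 1)
  rw [h, Matrix.smul_mulVec, Matrix.one_mulVec, hermForm_smul_left, hermForm_smul_right, hermForm_single_single hF] at h1
  simp at h1
  rw [pow_succ, mul_comm]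
  exact h1

theorem coprime_pow_sq {p r : ℕ} (hp : p.Prime) (hr : r.Coprime p) : (r * (p ^ 2 - 1)).Coprime p := by
  apply Nat.Coprime.mul_left hr
  rw [Nat.coprime_comm, hp.coprime_iff_not_dvd]
  have h2 := hp.two_le
  have h1 : 1 ≤ p ^ 2 := Nat.one_le_pow _ _ (by omega)
  intro h3
  have h4 : p ∣ p ^ 2 := dvd_pow_self p (by norm_num)
  have h5 : p ∣ 1 := by
    have := Nat.dvd_sub h4 h3
    rwa [Nat.sub_sub_self h1] at this
  exact hp.one_lt.ne' (Nat.dvd_one.mp h5)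

theorem ord_of_scalar [Fact p.Prime] (hF : Fintype.card F = p ^ 2) (x : GL (Fin 4) F) {r : ℕ} {s : F} (hr : r.Coprime p)
    (hs : ((x ^ r : GL (Fin 4) F) : Matrix (Fin 4) (Fin 4) F) = s • 1) : (orderOf x).Coprime p := by
  have hs0 : s ≠ 0 := by
    intro h0
    rw [h0, zero_smul] at hs
    exact (x ^ r).ne_zero hs
  have hm : x ^ (r * (p ^ 2 - 1)) = 1 := by
    apply Units.ext
    rw [pow_mul, Units.val_pow_eq_pow_val, hs, smul_pow, one_pow, ← hF, FiniteField.pow_card_sub_one_eq_one s hs0, one_smul]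
    rfl
  exact Nat.Coprime.coprime_dvd_left (orderOf_dvd_of_pow_eq_one hm) (coprime_pow_sq Fact.out hr)

namespace Pauli

variable {R : Subgroup (GL (Fin 4) F)} {i : F} {ι u v g h P : GL (Fin 4) F}

theorem conj_model_U [Fact p.Prime] [CharP F p] (hFr : Pauli R i ι u v g h P) (hPU : P ∈ Cfsg.GU 4 F p)
    (hF : Fintype.card F = p ^ 2) (T₀ x G : GL (Fin 4) F) {w : F} (hw : w ^ (p + 1) = 1) (hT₀U : T₀ ∈ Cfsg.GU 4 F p)
    (hT₀ : P * T₀ * P⁻¹ ∈ Cfsg.Geo.subgroupNormalizer R) (hxU : x ∈ Cfsg.GU 4 F p)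
    (hG : (w⁻¹ • (x : Matrix (Fin 4) (Fin 4) F)) * (G : Matrix (Fin 4) (Fin 4) F) = (G : Matrix (Fin 4) (Fin 4) F) * (T₀ : Matrix (Fin 4) (Fin 4) F))
    (hord : (orderOf x).Coprime p) :
    ∃ g ∈ Cfsg.GU 4 F p ⊓ Cfsg.Geo.specialLinear (Fin 4) F, g⁻¹ * x * g ∈ Cfsg.Geo.subgroupNormalizer R := by
  have hw0 : w ≠ 0 := by
    rintro rfl
    rw [zero_pow (by omega)] at hw
    exact zero_ne_one hw
  obtain ⟨s, hs⟩ := exists_scalar_GL hw0
  have hmem : s * (P * T₀ * P⁻¹) ∈ Cfsg.Geo.subgroupNormalizer R :=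
    Subgroup.mul_mem _ (hFr.scalar_norm s hs) hT₀
  have hsU : s ∈ Cfsg.GU 4 F p := by
    change Preserves p (s : Matrix (Fin 4) (Fin 4) F)
    rw [hs]
    exact scalar_preserves4 hw
  have hTU : s * (P * T₀ * P⁻¹) ∈ Cfsg.GU 4 F p :=
    Subgroup.mul_mem _ hsU (Subgroup.mul_mem _ (Subgroup.mul_mem _ hPU hT₀U) (Subgroup.inv_mem _ hPU))
  have hPP : ((P⁻¹ : GL (Fin 4) F) : Matrix (Fin 4) (Fin 4) F) * (P : Matrix (Fin 4) (Fin 4) F) = 1 := by
    rw [← Units.val_mul, inv_mul_cancel, Units.val_one]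
  have hG' : (G * P⁻¹) * (s * (P * T₀ * P⁻¹)) = x * (G * P⁻¹) := by
    apply Units.ext
    simp only [Units.val_mul]
    rw [hs]
    calc (G : Matrix (Fin 4) (Fin 4) F) * ((P⁻¹ : GL (Fin 4) F) : Matrix (Fin 4) (Fin 4) F) * (w • 1 * ((P : Matrix (Fin 4) (Fin 4) F) * (T₀ : Matrix (Fin 4) (Fin 4) F) * ((P⁻¹ : GL (Fin 4) F) : Matrix (Fin 4) (Fin 4) F)))
        = w • ((G : Matrix (Fin 4) (Fin 4) F) * (((P⁻¹ : GL (Fin 4) F) : Matrix (Fin 4) (Fin 4) F) * (P : Matrix (Fin 4) (Fin 4) F)) * (T₀ : Matrix (Fin 4) (Fin 4) F) * ((P⁻¹ : GL (Fin 4) F) : Matrix (Fin 4) (Fin 4) F)) := by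
          simp only [Matrix.smul_mul, Matrix.mul_smul, Matrix.one_mul, Matrix.mul_assoc]
      _ = w • ((G : Matrix (Fin 4) (Fin 4) F) * (T₀ : Matrix (Fin 4) (Fin 4) F) * ((P⁻¹ : GL (Fin 4) F) : Matrix (Fin 4) (Fin 4) F)) := by
          rw [hPP, Matrix.mul_one]
      _ = w • ((w⁻¹ • (x : Matrix (Fin 4) (Fin 4) F)) * (G : Matrix (Fin 4) (Fin 4) F) * ((P⁻¹ : GL (Fin 4) F) : Matrix (Fin 4) (Fin 4) F)) := by
          rw [hG]
      _ = _ := by
          simp only [Matrix.smul_mul, smul_smul, mul_inv_cancel₀ hw0, one_smul, Matrix.mul_assoc]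
  obtain ⟨g₀, hg1, hg2⟩ := conj_of_GL_conj4 hF hxU hTU hord hG'
  exact ⟨g₀, hg1, by rw [hg2]; exact hmem⟩

theorem conj_two_U [Fact p.Prime] [CharP F p] (hFr : Pauli R i ι u v g h P) (hPU : P ∈ Cfsg.GU 4 F p)
    (hF : Fintype.card F = p ^ 2) (hp4 : p % 4 = 3) (h2 : (2 : F) ≠ 0) (x : GL (Fin 4) F) (hxU : x ∈ Cfsg.GU 4 F p)
    (hx : (x : Matrix (Fin 4) (Fin 4) F).det = 1) {s : F}
    (hs : (x : Matrix (Fin 4) (Fin 4) F) * x = s • 1) :
    ∃ g ∈ Cfsg.GU 4 F p ⊓ Cfsg.Geo.specialLinear (Fin 4) F, g⁻¹ * x * g ∈ Cfsg.Geo.subgroupNormalizer R := by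
  classical
  have hp : p.Prime := Fact.out
  have hneg := neg_pow_p (F := F) hp4
  have hi := hFr.hi
  set X := (x : Matrix (Fin 4) (Fin 4) F) with hX
  have hs0 : s ≠ 0 := by
    rintro rfl
    rw [zero_smul] at hs
    have h1 := congrArg Matrix.det hs
    rw [Matrix.det_mul, hx] at h1
    simp at h1
  have hsn : s ^ (p + 1) = 1 := by
    have h1 : Preserves p (X * X) := by
      have : x * x ∈ Cfsg.GU 4 F p := Subgroup.mul_mem _ hxU hxU
      exact this
    exact norm_of_scalar hF h1 hs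
  -- `s` is a square
  obtain ⟨w, hww⟩ : ∃ w : F, w * w = s := by
    have hc : ringChar F ≠ 2 := by
      intro h3
      apply h2
      have h4 := ringChar.Nat.cast_ringChar (R := F)
      rw [h3] at h4
      exact_mod_cast h4
    have h3 : IsSquare s := by
      rw [FiniteField.isSquare_iff hc hs0, hF]
      obtain ⟨k, hk⟩ : ∃ k, p = 2 * k + 1 := ⟨p / 2, by omega⟩
      have e : p ^ 2 / 2 = (p + 1) * k := by
        have e₁ : p ^ 2 = 2 * ((p + 1) * k) + 1 := by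
          rw [hk]
          ring
        omega
      rw [e, pow_mul, hsn, one_pow]
    obtain ⟨w, hw⟩ := h3
    exact ⟨w, hw.symm⟩
  have hw0 : w ≠ 0 := by
    rintro rfl
    apply hs0
    rw [← hww, zero_mul]
  let g' := Matrix.toLin' X
  have hgg : ∀ v, g' (g' v) = s • v := by
    intro v
    change X.mulVec (X.mulVec v) = s • v
    rw [Matrix.mulVec_mulVec, hs, Matrix.smul_mulVec, Matrix.one_mulVec]
  have h2w : w ≠ -w := by
    intro h1
    apply mul_ne_zero h2 hw0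
    linear_combination h1
  obtain ⟨bb, ε, hε, hb⟩ := Cfsg.Agent.S5998.exists_eigenbasis (V := Fin 4 → F) (n := 4) (by simp) g' h2w hw0 (neg_ne_zero.mpr hw0)
    (by
      intro v
      simp only [zero_smul, sub_zero, neg_smul, sub_neg_eq_add, map_add, map_smul, hgg]
      rw [← hww]
      module)
  have hb' : ∀ i, X.mulVec (bb i) = ε i • bb i := hb
  have hε' : ∀ i, ε i = w ∨ ε i = -w := by
    intro i
    rcases hε i with h₁ | h₁ | h₁
    · exact Or.inl h₁
    · exact Or.inr h₁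
    · exfalso
      have h3 := hgg (bb i)
      rw [hb, h₁, zero_smul, map_zero] at h3
      exact (smul_ne_zero hs0 (bb.ne_zero i)) h3.symm
  have hdd : ∀ j, (w⁻¹ * ε j) = 1 ∨ (w⁻¹ * ε j) = -1 := by
    intro j
    rcases hε' j with h₁ | h₁ <;> rw [h₁]
    · left
      field_simp
    · right
      field_simp
  have hε₂ : ∀ j, ε j = w * (w⁻¹ * ε j) := fun j => by field_simp
  set d : Fin 4 → F := fun j => w⁻¹ * ε j with hd
  have hd1 : ∀ j, d j = 1 ∨ d j = -1 := hdd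
  have hε₃ : ∀ j, ε j = w * d j := hε₂
  have hdp : ∀ j, (d j) ^ p = d j := by
    intro j
    rcases hd1 j with h₁ | h₁ <;> rw [h₁]
    · simp
    · rw [hneg, one_pow]
  -- `w` has norm one
  have hwn : w ^ (p + 1) = 1 := by
    have hκ : (w ^ (p + 1) - 1) * (w ^ (p + 1) + 1) = 0 := by
      have e : w ^ (p + 1) * w ^ (p + 1) = (w * w) ^ (p + 1) := by rw [mul_pow]
      have h3 : w ^ (p + 1) * w ^ (p + 1) = 1 := by rw [e, hww, hsn]
      linear_combination h3
    rcases mul_eq_zero.mp hκ with h₁ | h₁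
    · linear_combination h₁
    · exfalso
      have hκ' : w ^ p * w = -1 := by
        rw [← pow_succ]
        linear_combination h₁
      -- the trace
      have htr := trace_of_eigenbasis4 X bb ε hb'
      have hinv : ((x⁻¹ : GL (Fin 4) F) : Matrix (Fin 4) (Fin 4) F) = s⁻¹ • X := by
        have hxx : ((x⁻¹ : GL (Fin 4) F) : Matrix (Fin 4) (Fin 4) F) * X = 1 := by
          rw [hX, ← Units.val_mul, inv_mul_cancel, Units.val_one]
        calc ((x⁻¹ : GL (Fin 4) F) : Matrix (Fin 4) (Fin 4) F)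
            = ((x⁻¹ : GL (Fin 4) F) : Matrix (Fin 4) (Fin 4) F) * (s⁻¹ • (s • 1)) := by
              rw [smul_smul, inv_mul_cancel₀ hs0, one_smul, Matrix.mul_one]
          _ = ((x⁻¹ : GL (Fin 4) F) : Matrix (Fin 4) (Fin 4) F) * (s⁻¹ • (X * X)) := by rw [hs]
          _ = s⁻¹ • (((x⁻¹ : GL (Fin 4) F) : Matrix (Fin 4) (Fin 4) F) * X * X) := by
              rw [Matrix.mul_smul, Matrix.mul_assoc]
          _ = s⁻¹ • X := by rw [hxx, Matrix.one_mul]
      have hti := trace_inv_of_GU hF hxU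
      rw [hinv, Matrix.trace_smul, ← hX, htr] at hti
      simp only [hε₃, pow_q_add hF, mul_pow, hdp, smul_eq_mul] at hti
      have hw1 : s⁻¹ = w⁻¹ * w⁻¹ := by
        rw [← hww, mul_inv]
      have hD : (2 : F) * (d 0 + d 1 + d 2 + d 3) = 0 := by
        rw [hw1] at hti
        have e3 : w * w⁻¹ = 1 := mul_inv_cancel₀ hw0
        have e4 : w⁻¹ * (d 0 + d 1 + d 2 + d 3) = w ^ p * (d 0 + d 1 + d 2 + d 3) := by
          calc w⁻¹ * (d 0 + d 1 + d 2 + d 3) = (w * w⁻¹) * (w⁻¹ * w⁻¹ * (w * d 0 + w * d 1 + w * d 2 + w * d 3)) / (w * w⁻¹) := by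
                rw [e3]
                field_simp
            _ = _ := by
                rw [hti, e3]
                ring
        have e5 : (d 0 + d 1 + d 2 + d 3) = w ^ p * w * (d 0 + d 1 + d 2 + d 3) := by
          calc (d 0 + d 1 + d 2 + d 3) = w * (w⁻¹ * (d 0 + d 1 + d 2 + d 3)) := by
                rw [← mul_assoc, e3, one_mul]
            _ = _ := by rw [e4]; ring
        rw [hκ'] at e5
        linear_combination e5
      have hD0 : d 0 + d 1 + d 2 + d 3 = 0 := (mul_eq_zero.mp hD).resolve_left h2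
      have hprod := prod_of_sum h2 (hd1 0) (hd1 1) (hd1 2) (hd1 3) hD0
      have hdet := det_of_eigenbasis4 X bb ε hb'
      rw [hx, hε₃ 0, hε₃ 1, hε₃ 2, hε₃ 3] at hdet
      have hw4 : w ^ 4 = 1 := by
        calc w ^ 4 = w ^ 4 * (d 0 * d 1 * d 2 * d 3) := by rw [hprod, mul_one]
          _ = 1 := by rw [hdet]; ring
      obtain ⟨k, hk⟩ : ∃ k, p + 1 = 4 * k := ⟨(p + 1) / 4, by omega⟩
      have h5 : w ^ (p + 1) = 1 := by
        rw [hk, pow_mul, hw4, one_pow]
      rw [h5] at h₁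
      apply h2
      linear_combination h₁
  -- the model
  set D₀ : Matrix (Fin 4) (Fin 4) F := Matrix.diagonal ![d 0, d 1, d 2, d 3] with hD₀
  have hddd : ∀ j, d j * d j = 1 := by
    intro j
    rcases hd1 j with h₁ | h₁ <;> rw [h₁] <;> ring
  have hDD : D₀ * D₀ = 1 := by
    rw [hD₀, Matrix.diagonal_mul_diagonal, ← Matrix.diagonal_one]
    congr 1
    ext j
    fin_cases j <;> simp [hddd]
  let D : GL (Fin 4) F := ⟨D₀, D₀, hDD, hDD⟩
  have hN := hFr.sign_norm D (hddd 0) (hddd 1) (hddd 2) (hddd 3) rfl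
  have hDU : D ∈ Cfsg.GU 4 F p := by
    change Preserves p D₀
    rw [hD₀]
    apply preserves_diagonal
    intro k
    have hk : ∀ j, (d j) ^ (p + 1) = 1 := by
      intro j
      rw [pow_succ, hdp, hddd]
    fin_cases k <;> simp [hk]
  obtain ⟨s₀, hs₀⟩ := exists_scalar_GL hw0
  have hmem : s₀ * (P * D * P⁻¹) ∈ Cfsg.Geo.subgroupNormalizer R :=
    Subgroup.mul_mem _ (hFr.scalar_norm s₀ hs₀) hN
  have hsU : s₀ ∈ Cfsg.GU 4 F p := by
    change Preserves p (s₀ : Matrix (Fin 4) (Fin 4) F)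
    rw [hs₀]
    exact scalar_preserves4 hwn
  have hTU : s₀ * (P * D * P⁻¹) ∈ Cfsg.GU 4 F p :=
    Subgroup.mul_mem _ hsU (Subgroup.mul_mem _ (Subgroup.mul_mem _ hPU hDU) (Subgroup.inv_mem _ hPU))
  have hPP : ((P⁻¹ : GL (Fin 4) F) : Matrix (Fin 4) (Fin 4) F) * (P : Matrix (Fin 4) (Fin 4) F) = 1 := by
    rw [← Units.val_mul, inv_mul_cancel, Units.val_one]
  have hT : ((s₀ * (P * D * P⁻¹) : GL (Fin 4) F) : Matrix (Fin 4) (Fin 4) F) * (P : Matrix (Fin 4) (Fin 4) F) =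
      (P : Matrix (Fin 4) (Fin 4) F) * Matrix.diagonal ε := by
    have e : Matrix.diagonal ε = w • D₀ := by
      rw [hD₀]
      ext a b
      by_cases hab : a = b
      · subst hab
        fin_cases a <;> simp [hε₃]
      · simp [Matrix.diagonal_apply_ne _ hab]
    simp only [Units.val_mul]
    rw [hs₀, e]
    calc w • (1 : Matrix (Fin 4) (Fin 4) F) * ((P : Matrix (Fin 4) (Fin 4) F) * D₀ * ((P⁻¹ : GL (Fin 4) F) : Matrix (Fin 4) (Fin 4) F)) * (P : Matrix (Fin 4) (Fin 4) F)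
        = w • ((P : Matrix (Fin 4) (Fin 4) F) * D₀ * (((P⁻¹ : GL (Fin 4) F) : Matrix (Fin 4) (Fin 4) F) * (P : Matrix (Fin 4) (Fin 4) F))) := by
          simp only [Matrix.smul_mul, Matrix.one_mul, Matrix.mul_assoc]
      _ = _ := by
          rw [hPP, Matrix.mul_one, Matrix.mul_smul]
  obtain ⟨G, _, hG2⟩ := exists_conj_of_diag4 bb ε hb' P hT
  have hGG : G * (s₀ * (P * D * P⁻¹)) = x * G := Units.ext hG2
  have hp2 : Nat.Coprime 2 p := by
    rw [Nat.coprime_comm, hp.coprime_iff_not_dvd]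
    intro h3
    have := (Nat.prime_dvd_prime_iff_eq hp Nat.prime_two).mp h3
    omega
  have hord : (orderOf x).Coprime p := ord_of_scalar hF x hp2 (s := s) (by
    rw [← hs, pow_two]
    rfl)
  obtain ⟨g₀, hg1, hg2⟩ := conj_of_GL_conj4 hF hxU hTU hord hGG
  exact ⟨g₀, hg1, by rw [hg2]; exact hmem⟩

end Pauli

end Cfsg.Agent.Lib.TwoSix
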