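import Cfsg.Agent.Lib.TwoSix.Neg32

/-!
# Elements of order two modulo scalars in the symplectic group
-/

set_option autoImplicit false

open scoped MatrixGroups Matrix
open Cfsg Module
open Cfsg.Agent.Lib.Classical.Symp.SpGL

namespace Cfsg.Agent.Lib.TwoSix

variable {F : Type*} [Field F]

theorem sympForm_add_left (u u' v : I4 → F) : sympForm 2 F (u + u') v = sympForm 2 F u v + sympForm 2 F u' v := by
  simp only [sympForm_coords, Pi.add_apply]
  ring

theorem sympForm_add_right (u v v' : I4 → F) : sympForm 2 F u (v + v') = sympForm 2 F u v + sympForm 2 F u v' := by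
  simp only [sympForm_coords, Pi.add_apply]
  ring

theorem sympForm_sub_left (u u' v : I4 → F) : sympForm 2 F (u - u') v = sympForm 2 F u v - sympForm 2 F u' v := by
  simp only [sympForm_coords, Pi.sub_apply]
  ring

theorem sympForm_sub_right (u v v' : I4 → F) : sympForm 2 F u (v - v') = sympForm 2 F u v - sympForm 2 F u v' := by
  simp only [sympForm_coords, Pi.sub_apply]
  ring

theorem sympForm_neg_left (u v : I4 → F) : sympForm 2 F (-u) v = - sympForm 2 F u v := by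
  simp only [sympForm_coords, Pi.neg_apply]
  ring

theorem sympForm_neg_right (u v : I4 → F) : sympForm 2 F u (-v) = - sympForm 2 F u v := by
  simp only [sympForm_coords, Pi.neg_apply]
  ring

theorem sympForm_smul_left (c : F) (u v : I4 → F) : sympForm 2 F (c • u) v = c * sympForm 2 F u v := by
  simp only [sympForm_coords, Pi.smul_apply, smul_eq_mul]
  ring

theorem sympForm_smul_right (c : F) (u v : I4 → F) : sympForm 2 F u (c • v) = c * sympForm 2 F u v := by
  simp only [sympForm_coords, Pi.smul_apply, smul_eq_mul]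
  ring

theorem sympForm_self (u : I4 → F) : sympForm 2 F u u = 0 := by
  simp only [sympForm_coords]
  ring

theorem sympForm_anti (u v : I4 → F) : sympForm 2 F u v = - sympForm 2 F v u := by
  simp only [sympForm_coords]
  ring

/-- A standard family for the form. -/
structure IsStd (w : Fin 4 → I4 → F) : Prop where
  h01 : sympForm 2 F (w 0) (w 1) = 1
  h23 : sympForm 2 F (w 2) (w 3) = 1
  h02 : sympForm 2 F (w 0) (w 2) = 0
  h03 : sympForm 2 F (w 0) (w 3) = 0
  h12 : sympForm 2 F (w 1) (w 2) = 0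
  h13 : sympForm 2 F (w 1) (w 3) = 0

/-- The linear combination map of a family. -/
noncomputable def famL (w : Fin 4 → I4 → F) : (Fin 4 → F) →ₗ[F] (I4 → F) :=
  Fintype.linearCombination F w

theorem famL_apply (w : Fin 4 → I4 → F) (a : Fin 4 → F) :
    famL w a = a 0 • w 0 + a 1 • w 1 + a 2 • w 2 + a 3 • w 3 := by
  rw [famL, Fintype.linearCombination_apply, Fin.sum_univ_four]

theorem famL_form {w : Fin 4 → I4 → F} (h : IsStd w) (a b : Fin 4 → F) :
    sympForm 2 F (famL w a) (famL w b) = a 0 * b 1 - a 1 * b 0 + a 2 * b 3 - a 3 * b 2 := by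
  simp only [famL_apply, sympForm_add_left, sympForm_add_right, sympForm_smul_left, sympForm_smul_right, sympForm_self]
  rw [sympForm_anti (w 1) (w 0), sympForm_anti (w 2) (w 0), sympForm_anti (w 3) (w 0), sympForm_anti (w 2) (w 1),
    sympForm_anti (w 3) (w 1), sympForm_anti (w 3) (w 2), h.h01, h.h23, h.h02, h.h03, h.h12, h.h13]
  ring

theorem famL_inj {w : Fin 4 → I4 → F} (h : IsStd w) : Function.Injective (famL w) := by
  rw [injective_iff_map_eq_zero]
  intro a ha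
  have key : ∀ b : Fin 4 → F, a 0 * b 1 - a 1 * b 0 + a 2 * b 3 - a 3 * b 2 = 0 := by
    intro b
    rw [← famL_form h, ha]
    simp [sympForm_coords]
  ext i
  fin_cases i
  · simpa using key ![0, 1, 0, 0]
  · simpa using key ![1, 0, 0, 0]
  · simpa using key ![0, 0, 0, 1]
  · simpa using key ![0, 0, 1, 0]

theorem famL_single (w : Fin 4 → I4 → F) (i : Fin 4) : famL w (Pi.single i 1) = w i := by
  rw [famL, Fintype.linearCombination_apply, Finset.sum_eq_single i]
  · simp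
  · intro j _ hj
    simp [Pi.single_eq_of_ne hj]
  · simp

/-- Two elements acting in the same way on standard families are conjugate. -/
theorem exists_conj_of_std {x T : GL I4 F} {w w' : Fin 4 → I4 → F} (hw : IsStd w) (hw' : IsStd w')
    (M : Matrix (Fin 4) (Fin 4) F) (hx : ∀ i, (x : Matrix I4 I4 F) *ᵥ w i = ∑ j, M j i • w j)
    (hT : ∀ i, (T : Matrix I4 I4 F) *ᵥ w' i = ∑ j, M j i • w' j) :
    ∃ g ∈ spGL 2 F, g⁻¹ * x * g = T := by
  classical
  obtain ⟨g, hg, hgL⟩ := exists_spGL_of_injective (famL w') (famL w) (famL_inj hw') (famL_inj hw)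
    (fun a b => by rw [famL_form hw, famL_form hw'])
  have hgw : ∀ i, (g : Matrix I4 I4 F) *ᵥ w' i = w i := by
    intro i
    have := hgL (Pi.single i 1)
    rwa [famL_single, famL_single] at this
  have hsurj : Function.Surjective (famL w') :=
    (LinearMap.injective_iff_surjective_of_finrank_eq_finrank (by simp)).mp (famL_inj hw')
  have hi : ∀ i, ((g : Matrix I4 I4 F) * (T : Matrix I4 I4 F)) *ᵥ w' i = ((x : Matrix I4 I4 F) * (g : Matrix I4 I4 F)) *ᵥ w' i := by
    intro i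
    rw [← Matrix.mulVec_mulVec, ← Matrix.mulVec_mulVec, hT, hgw, hx, Matrix.mulVec_sum]
    simp only [Matrix.mulVec_smul, hgw]
  have hall : ∀ v, ((g : Matrix I4 I4 F) * (T : Matrix I4 I4 F)) *ᵥ v = ((x : Matrix I4 I4 F) * (g : Matrix I4 I4 F)) *ᵥ v := by
    intro v
    obtain ⟨a, rfl⟩ := hsurj v
    rw [famL_apply]
    simp only [Matrix.mulVec_add, Matrix.mulVec_smul, hi]
  have hmat : (g : Matrix I4 I4 F) * (T : Matrix I4 I4 F) = (x : Matrix I4 I4 F) * (g : Matrix I4 I4 F) := by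
    apply Matrix.toLin'.injective
    apply LinearMap.ext
    intro v
    simpa using hall v
  refine ⟨g, hg, ?_⟩
  have h1 : g * T = x * g := Units.ext hmat
  rw [mul_assoc, ← h1, ← mul_assoc, inv_mul_cancel, one_mul]

theorem spGL_form {y : GL I4 F} (hy : y ∈ spGL 2 F) (u v : I4 → F) :
    sympForm 2 F ((y : Matrix I4 I4 F) *ᵥ u) ((y : Matrix I4 I4 F) *ᵥ v) = sympForm 2 F u v :=
  hy u v

/-- The normal form of an involution. -/
theorem exists_std_inv (h2 : (2 : F) ≠ 0) {y : GL I4 F} (hy : y ∈ spGL 2 F) (hyy : (y : Matrix I4 I4 F) * y = 1)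
    (hns : ∀ c : F, (y : Matrix I4 I4 F) ≠ c • 1) :
    ∃ w : Fin 4 → I4 → F, IsStd w ∧ (y : Matrix I4 I4 F) *ᵥ w 0 = w 0 ∧ (y : Matrix I4 I4 F) *ᵥ w 1 = w 1 ∧
      (y : Matrix I4 I4 F) *ᵥ w 2 = -w 2 ∧ (y : Matrix I4 I4 F) *ᵥ w 3 = -w 3 := by
  classical
  set Y := (y : Matrix I4 I4 F) with hY
  have hYY : ∀ v, Y *ᵥ (Y *ᵥ v) = v := by
    intro v
    rw [Matrix.mulVec_mulVec, hyy, Matrix.one_mulVec]
  have hYf : ∀ u v, sympForm 2 F (Y *ᵥ u) (Y *ᵥ v) = sympForm 2 F u v := spGL_form hy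
  have hmatext : ∀ c : F, (∀ v, Y *ᵥ v = c • v) → False := by
    intro c hc
    apply hns c
    apply Matrix.toLin'.injective
    apply LinearMap.ext
    intro v
    simpa [Matrix.smul_mulVec] using hc v
  obtain ⟨u, hu0, hu⟩ : ∃ u : I4 → F, u ≠ 0 ∧ Y *ᵥ u = u := by
    by_contra hcon
    push Not at hcon
    apply hmatext (-1)
    intro t
    by_contra ht
    apply hcon (t + Y *ᵥ t)
    · intro h
      apply ht
      rw [neg_one_smul]
      exact (eq_neg_of_add_eq_zero_right h)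
    · rw [Matrix.mulVec_add, hYY, add_comm]
  obtain ⟨v, hv0, hv⟩ : ∃ v : I4 → F, v ≠ 0 ∧ Y *ᵥ v = -v := by
    by_contra hcon
    push Not at hcon
    apply hmatext 1
    intro t
    by_contra ht
    apply hcon (t - Y *ᵥ t)
    · intro h
      apply ht
      rw [one_smul]
      exact (sub_eq_zero.mp h).symm
    · rw [Matrix.mulVec_sub, hYY, neg_sub]
  have hcross : ∀ p q, Y *ᵥ p = p → Y *ᵥ q = -q → sympForm 2 F p q = 0 := by
    intro p q hp hq
    have h1 := hYf p q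
    rw [hp, hq, sympForm_neg_right] at h1
    have h3 : (2 : F) * sympForm 2 F p q = 0 := by linear_combination -h1
    exact (mul_eq_zero.mp h3).resolve_left h2
  obtain ⟨z, hz⟩ := exists_sympForm_ne hu0
  obtain ⟨z', hz'⟩ := exists_sympForm_ne hv0
  set zp := z + Y *ᵥ z with hzp
  set zm := z' - Y *ᵥ z' with hzm
  have hYzp : Y *ᵥ zp = zp := by
    rw [hzp, Matrix.mulVec_add, hYY, add_comm]
  have hYzm : Y *ᵥ zm = -zm := by
    rw [hzm, Matrix.mulVec_sub, hYY, neg_sub]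
  have hzpu : sympForm 2 F zp u ≠ 0 := by
    have e : sympForm 2 F zp u = 2 * sympForm 2 F z u := by
      rw [hzp, sympForm_add_left]
      have := hYf z u
      rw [hu] at this
      rw [this]
      ring
    rw [e]
    exact mul_ne_zero h2 hz
  have hzmv : sympForm 2 F zm v ≠ 0 := by
    have e : sympForm 2 F zm v = 2 * sympForm 2 F z' v := by
      rw [hzm, sympForm_sub_left]
      have := hYf z' v
      rw [hv, sympForm_neg_right] at this
      have h5 : sympForm 2 F (Y *ᵥ z') v = - sympForm 2 F z' v := by linear_combination -this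
      rw [h5]
      ring
    rw [e]
    exact mul_ne_zero h2 hz'
  have huzp : sympForm 2 F u zp ≠ 0 := by
    rw [sympForm_anti]
    exact neg_ne_zero.mpr hzpu
  have hvzm : sympForm 2 F v zm ≠ 0 := by
    rw [sympForm_anti]
    exact neg_ne_zero.mpr hzmv
  refine ⟨![u, (sympForm 2 F u zp)⁻¹ • zp, v, (sympForm 2 F v zm)⁻¹ • zm], ⟨?_, ?_, ?_, ?_, ?_, ?_⟩, ?_, ?_, ?_, ?_⟩
  · simp only [Matrix.cons_val_zero, Matrix.cons_val_one, sympForm_smul_right]
    exact inv_mul_cancel₀ huzp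
  · simp only [Matrix.cons_val]
    rw [sympForm_smul_right]
    exact inv_mul_cancel₀ hvzm
  · simp only [Matrix.cons_val]
    exact hcross _ _ hu hv
  · simp only [Matrix.cons_val]
    rw [sympForm_smul_right, hcross _ _ hu hYzm, mul_zero]
  · simp only [Matrix.cons_val]
    rw [sympForm_smul_left, hcross _ _ hYzp hv, mul_zero]
  · simp only [Matrix.cons_val]
    rw [sympForm_smul_right, sympForm_smul_left, hcross _ _ hYzp hYzm, mul_zero, mul_zero]
  · simpa using hu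
  · simp only [Matrix.cons_val, Matrix.mulVec_smul, hYzp]
  · simpa using hv
  · simp only [Matrix.cons_val, Matrix.mulVec_smul, hYzm, smul_neg]

/-- Sums of two squares in a finite field of odd order. -/
theorem exists_sum_two_sq [Fintype F] (hodd : Fintype.card F % 2 = 1) (c : F) : ∃ α β : F, α * α + β * β = c := by
  classical
  obtain ⟨a, b, hab⟩ := FiniteField.exists_root_sum_quadratic (R := F) (f := Polynomial.X ^ 2) (g := Polynomial.X ^ 2 - Polynomial.C c)
    (Polynomial.degree_X_pow 2) (Polynomial.degree_X_pow_sub_C (by decide) _) hodd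
  refine ⟨a, b, ?_⟩
  simp at hab
  linear_combination hab

/-- The normal form of an element of square `-1`. -/
theorem exists_std_neg [Fintype F] (hodd : Fintype.card F % 2 = 1) (h2 : (2 : F) ≠ 0) {y : GL I4 F} (hy : y ∈ spGL 2 F)
    (hyy : (y : Matrix I4 I4 F) * y = -1) :
    ∃ w : Fin 4 → I4 → F, IsStd w ∧ (y : Matrix I4 I4 F) *ᵥ w 0 = w 1 ∧ (y : Matrix I4 I4 F) *ᵥ w 1 = -w 0 ∧
      (y : Matrix I4 I4 F) *ᵥ w 2 = w 3 ∧ (y : Matrix I4 I4 F) *ᵥ w 3 = -w 2 := by
  classical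
  set Y := (y : Matrix I4 I4 F) with hY
  have hYY : ∀ v, Y *ᵥ (Y *ᵥ v) = -v := by
    intro v
    rw [Matrix.mulVec_mulVec, hyy, Matrix.neg_mulVec, Matrix.one_mulVec]
  have hYf : ∀ u v, sympForm 2 F (Y *ᵥ u) (Y *ᵥ v) = sympForm 2 F u v := spGL_form hy
  have hsym : ∀ u v, sympForm 2 F v (Y *ᵥ u) = sympForm 2 F u (Y *ᵥ v) := by
    intro u v
    have h1 := hYf v (Y *ᵥ u)
    rw [hYY, sympForm_neg_right] at h1
    rw [← h1, sympForm_anti]
    simp
  have hcomb : ∀ (v : I4 → F) (α β : F), sympForm 2 F (α • v + β • Y *ᵥ v) (Y *ᵥ (α • v + β • Y *ᵥ v)) =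
      (α * α + β * β) * sympForm 2 F v (Y *ᵥ v) := by
    intro v α β
    rw [Matrix.mulVec_add, Matrix.mulVec_smul, Matrix.mulVec_smul, hYY]
    simp only [sympForm_add_left, sympForm_add_right, sympForm_smul_left, sympForm_smul_right, sympForm_neg_right, sympForm_self]
    rw [sympForm_anti (Y *ᵥ v) v]
    ring
  have hscale : ∀ v : I4 → F, sympForm 2 F v (Y *ᵥ v) ≠ 0 → ∃ α β : F, sympForm 2 F (α • v + β • Y *ᵥ v) (Y *ᵥ (α • v + β • Y *ᵥ v)) = 1 := by
    intro v hv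
    obtain ⟨α, β, h⟩ := exists_sum_two_sq hodd (sympForm 2 F v (Y *ᵥ v))⁻¹
    exact ⟨α, β, by rw [hcomb, h, inv_mul_cancel₀ hv]⟩
  have hpol : ∀ u v : I4 → F, sympForm 2 F u (Y *ᵥ v) ≠ 0 →
      sympForm 2 F u (Y *ᵥ u) ≠ 0 ∨ sympForm 2 F v (Y *ᵥ v) ≠ 0 ∨ sympForm 2 F (u + v) (Y *ᵥ (u + v)) ≠ 0 := by
    intro u v h
    by_contra hcon
    push Not at hcon
    obtain ⟨h1, h3, h4⟩ := hcon
    rw [Matrix.mulVec_add, sympForm_add_left, sympForm_add_right, sympForm_add_right, h1, h3, hsym u v] at h4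
    apply h
    have h5 : (2 : F) * sympForm 2 F u (Y *ᵥ v) = 0 := by linear_combination h4
    exact (mul_eq_zero.mp h5).resolve_left h2
  have hu0 : (Pi.single (Sum.inl 0) 1 : I4 → F) ≠ 0 := by
    intro h
    have := congrFun h (Sum.inl 0)
    simp at this
  -- the first vector
  obtain ⟨v₁, hv₁⟩ : ∃ v₁ : I4 → F, sympForm 2 F v₁ (Y *ᵥ v₁) = 1 := by
    obtain ⟨z, hz⟩ := exists_sympForm_ne hu0
    have h1 : sympForm 2 F (Pi.single (Sum.inl 0) 1) (Y *ᵥ (-(Y *ᵥ z))) ≠ 0 := by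
      rw [Matrix.mulVec_neg, hYY, neg_neg, sympForm_anti]
      exact neg_ne_zero.mpr hz
    rcases hpol _ _ h1 with h3 | h3 | h3
    · obtain ⟨α, β, h⟩ := hscale _ h3
      exact ⟨_, h⟩
    · obtain ⟨α, β, h⟩ := hscale _ h3
      exact ⟨_, h⟩
    · obtain ⟨α, β, h⟩ := hscale _ h3
      exact ⟨_, h⟩
  -- the perpendicular space
  let P : (I4 → F) → Prop := fun u => sympForm 2 F u v₁ = 0 ∧ sympForm 2 F u (Y *ᵥ v₁) = 0
  have hPY : ∀ u, P u → P (Y *ᵥ u) := by
    rintro u ⟨h1, h3⟩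
    constructor
    · have h4 := hYf u (Y *ᵥ v₁)
      rw [hYY, sympForm_neg_right, h3] at h4
      linear_combination -h4
    · rw [hYf, h1]
  have hPadd : ∀ u v, P u → P v → P (u + v) := by
    rintro u v ⟨h1, h3⟩ ⟨h4, h5⟩
    exact ⟨by rw [sympForm_add_left, h1, h4, add_zero], by rw [sympForm_add_left, h3, h5, add_zero]⟩
  have hPsmul : ∀ (c : F) u, P u → P (c • u) := by
    rintro c u ⟨h1, h3⟩
    exact ⟨by rw [sympForm_smul_left, h1, mul_zero], by rw [sympForm_smul_left, h3, mul_zero]⟩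
  obtain ⟨t, ht0, hPt⟩ : ∃ t : I4 → F, t ≠ 0 ∧ P t := by
    obtain ⟨t, ht0, h1, h3⟩ := Extra.exists_common_zero (Matrix.J (Fin 2) F *ᵥ v₁) (Matrix.J (Fin 2) F *ᵥ (Y *ᵥ v₁))
    refine ⟨t, ht0, ?_, ?_⟩
    · change t ⬝ᵥ (Matrix.J (Fin 2) F *ᵥ v₁) = 0
      rw [dotProduct_comm]
      exact h1
    · change t ⬝ᵥ (Matrix.J (Fin 2) F *ᵥ (Y *ᵥ v₁)) = 0
      rw [dotProduct_comm]
      exact h3
  obtain ⟨z, hz⟩ := exists_sympForm_ne ht0
  set z₁ := z - sympForm 2 F z (Y *ᵥ v₁) • v₁ + sympForm 2 F z v₁ • Y *ᵥ v₁ with hz₁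
  have hv₁v₁ : sympForm 2 F v₁ v₁ = 0 := sympForm_self _
  have hYv₁v₁ : sympForm 2 F (Y *ᵥ v₁) v₁ = -1 := by
    rw [sympForm_anti, hv₁]
  have hYv₁Yv₁ : sympForm 2 F (Y *ᵥ v₁) (Y *ᵥ v₁) = 0 := sympForm_self _
  have hPz₁ : P z₁ := by
    constructor
    · rw [hz₁, sympForm_add_left, sympForm_sub_left, sympForm_smul_left, sympForm_smul_left, hv₁v₁, hYv₁v₁]
      ring
    · rw [hz₁, sympForm_add_left, sympForm_sub_left, sympForm_smul_left, sympForm_smul_left, hv₁, hYv₁Yv₁]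
      ring
  have hz₁t : sympForm 2 F z₁ t ≠ 0 := by
    have e : sympForm 2 F z₁ t = sympForm 2 F z t := by
      rw [hz₁, sympForm_add_left, sympForm_sub_left, sympForm_smul_left, sympForm_smul_left,
        sympForm_anti v₁ t, sympForm_anti (Y *ᵥ v₁) t, hPt.1, hPt.2]
      ring
    rw [e]
    exact hz
  have h1 : sympForm 2 F t (Y *ᵥ (-(Y *ᵥ z₁))) ≠ 0 := by
    rw [Matrix.mulVec_neg, hYY, neg_neg, sympForm_anti]
    exact neg_ne_zero.mpr hz₁t
  have hPz₂ : P (-(Y *ᵥ z₁)) := by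
    have h3 := hPsmul (-1) _ (hPY _ hPz₁)
    simpa using h3
  obtain ⟨v₀, hPv₀, hQv₀⟩ : ∃ v₀ : I4 → F, P v₀ ∧ sympForm 2 F v₀ (Y *ᵥ v₀) ≠ 0 := by
    rcases hpol _ _ h1 with h3 | h3 | h3
    · exact ⟨_, hPt, h3⟩
    · exact ⟨_, hPz₂, h3⟩
    · exact ⟨_, hPadd _ _ hPt hPz₂, h3⟩
  obtain ⟨α, β, hv₂⟩ := hscale v₀ hQv₀
  set v₂ := α • v₀ + β • Y *ᵥ v₀ with hv₂def
  have hPv₂ : P v₂ := hPadd _ _ (hPsmul _ _ hPv₀) (hPsmul _ _ (hPY _ hPv₀))
  have hPYv₂ := hPY _ hPv₂
  refine ⟨![v₁, Y *ᵥ v₁, v₂, Y *ᵥ v₂], ⟨?_, ?_, ?_, ?_, ?_, ?_⟩, ?_, ?_, ?_, ?_⟩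
  · simpa using hv₁
  · simpa using hv₂
  · simp only [Matrix.cons_val]
    rw [sympForm_anti, hPv₂.1, neg_zero]
  · simp only [Matrix.cons_val]
    rw [sympForm_anti, hPYv₂.1, neg_zero]
  · simp only [Matrix.cons_val]
    rw [sympForm_anti, hPv₂.2, neg_zero]
  · simp only [Matrix.cons_val]
    rw [hYf, sympForm_anti, hPv₂.1, neg_zero]
  · simp
  · simpa using hYY v₁
  · simp
  · simpa using hYY v₂

namespace Extra

variable {R : Subgroup (GL I4 F)} {a₀ b₀ c₀ d₀ : GL I4 F}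

/-- A scalar in the symplectic group has square one. -/
theorem spGL_scalar_sq {x : GL I4 F} (hx : x ∈ spGL 2 F) {c : F} (hc : (x : Matrix I4 I4 F) = c • 1) : c * c = 1 := by
  have h1 := hx (Pi.single (Sum.inl 0) 1) (Pi.single (Sum.inr 0) 1)
  change sympForm 2 F ((x : Matrix I4 I4 F) *ᵥ _) ((x : Matrix I4 I4 F) *ᵥ _) = _ at h1
  rw [hc, Matrix.smul_mulVec, Matrix.smul_mulVec, Matrix.one_mulVec, Matrix.one_mulVec, sympForm_coords, sympForm_coords] at h1
  simpa using h1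

/-- Elements of order two modulo scalars. -/
theorem conj_two [Fintype F] (hF : Extra R a₀ b₀ c₀ d₀) (hRf : R ≤ spGL 2 F) (hodd : Fintype.card F % 2 = 1) (h2 : (2 : F) ≠ 0)
    {x : GL I4 F} (hx : x ∈ spGL 2 F) {s : F} (hs : (x : Matrix I4 I4 F) * x = s • 1)
    (hns : ∀ c : F, (x : Matrix I4 I4 F) ≠ c • 1) : ∃ g ∈ spGL 2 F, g⁻¹ * x * g ∈ Cfsg.Geo.subgroupNormalizer R := by
  classical
  have hss : s * s = 1 := spGL_scalar_sq (x := x * x) (mul_mem hx hx) (by rw [Units.val_mul, hs])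
  rcases Pauli.sign_cases hss with h1 | h1
  · rw [h1, one_smul] at hs
    obtain ⟨w, hw, h0, h3, h4, h5⟩ := exists_std_inv h2 hx hs hns
    obtain ⟨w', hw', h0', h3', h4', h5'⟩ := exists_std_inv h2 (hRf hF.mem_a) hF.haa (hF.a_ns h2)
    obtain ⟨g, hg, hgT⟩ := exists_conj_of_std (x := x) (T := a₀) hw hw' (Matrix.diagonal ![1, 1, -1, -1])
      (by
        intro i
        simp only [Fin.sum_univ_four]
        fin_cases i <;> simp [h0, h3, h4, h5])
      (by
        intro i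
        simp only [Fin.sum_univ_four]
        fin_cases i <;> simp [h0', h3', h4', h5'])
    exact ⟨g, hg, by rw [hgT]; exact hF.mem_norm_self hF.mem_a⟩
  · rw [h1] at hs
    have hs' : (x : Matrix I4 I4 F) * x = -1 := by
      rw [hs]
      simp
    obtain ⟨w, hw, h0, h3, h4, h5⟩ := exists_std_neg hodd h2 hx hs'
    obtain ⟨w', hw', h0', h3', h4', h5'⟩ := exists_std_neg hodd h2 (hRf hF.mem_c) hF.hcc
    obtain ⟨g, hg, hgT⟩ := exists_conj_of_std (x := x) (T := c₀) hw hw' !![0, -1, 0, 0; 1, 0, 0, 0; 0, 0, 0, -1; 0, 0, 1, 0]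
      (by
        intro i
        simp only [Fin.sum_univ_four]
        fin_cases i <;> simp [h0, h3, h4, h5])
      (by
        intro i
        simp only [Fin.sum_univ_four]
        fin_cases i <;> simp [h0', h3', h4', h5'])
    exact ⟨g, hg, by rw [hgT]; exact hF.mem_norm_self hF.mem_c⟩

end Extra

end Cfsg.Agent.Lib.TwoSix
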